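import Cfsg.Agent.M24X.Aut12
import Cfsg.Prelude.Def_SporadicCombinatorics
import Cfsg.Prelude.Def_Sporadic

/-! The automorphism group of a Steiner system with parameters (5, 6, 12), final statements. -/

set_option autoImplicit false

namespace Cfsg.Agent.M24X.Uniq

open Cfsg MulAction Cfsg.Agent.Golay Cfsg.Agent.M24X
open scoped Pointwise

variable {α : Type*} [DecidableEq α]

theorem mem_aut' {B : Set (Finset α)} {g : Equiv.Perm α} :
    g ∈ setSystemAut B ↔ ∀ X : Finset α, X.image g ∈ B ↔ X ∈ B := by
  rw [setSystemAut, mem_stabilizer_iff, Set.ext_iff]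
  have h1 : ∀ X : Finset α, X.image g = g • X := fun X => rfl
  constructor
  · intro h X
    rw [← h (X.image g), h1, Set.smul_mem_smul_set_iff]
  · intro h X
    rw [Set.mem_smul_set_iff_inv_smul_mem, ← h (g⁻¹ • X), h1, smul_inv_smul]

theorem fam_mem {n : ℕ} (e : Fin n ≃ α) {L : List ℕ} {m : ℕ} (h : m ∈ L) :
    (toS n m).image e ∈ fam e L := ⟨m, h, rfl⟩

/-- the family read on labels -/
theorem rigid_fam {e : Fin 12 ≃ α} (hB : IsSteinerSystem 5 6 (fam e L12))
    {g : Equiv.Perm α} (hg : g ∈ setSystemAut (fam e L12))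
    (h5 : ∀ i : Fin 12, (i : ℕ) < 5 → g (e i) = e i) : g = 1 := by
  have h1 : e.permCongr.symm g = 1 := by
    apply rigid_std (steiner_map hB e) (fun m hm => fam_mem e hm)
    · intro b hb
      have h2 := (mem_aut'.1 hg (b.image e)).2 hb
      have h3 : (b.image (e.permCongr.symm g)).image e = (b.image e).image g := by
        rw [Finset.image_image, Finset.image_image]
        congr 1
        funext i
        simp [Equiv.permCongr]
      show (b.image (e.permCongr.symm g)).image e ∈ fam e L12
      rw [h3]; exact h2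
    · intro i hi
      simp [Equiv.permCongr, h5 i hi]
  ext x
  have h2 := congrArg (fun σ : Equiv.Perm (Fin 12) => e (σ (e.symm x))) h1
  simpa [Equiv.permCongr] using h2

/-- the hexads on a dodecad as a family of subsets of the dodecad -/
def hexD (d : Finset GolayPt) : Set (Finset d) := {b | b.image Subtype.val ∈ hexadsOn d}

theorem steiner_hexD {d : Finset GolayPt} (hd : d ∈ dodecads) : IsSteinerSystem 5 6 (hexD d) := by
  have hc : ∀ b : Finset d, (b.image Subtype.val).card = b.card := fun b =>
    Finset.card_image_of_injective _ Subtype.val_injective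
  constructor
  · intro b hb
    rw [← hc b]
    exact hb.1
  · intro s hs
    have hs5 : (s.image Subtype.val).card = 5 := by rw [hc, hs]
    obtain ⟨o, ho, hso⟩ := exists_octad hs5
    have hsd : s.image Subtype.val ⊆ d := by
      intro x hx
      rw [Finset.mem_image] at hx
      obtain ⟨y, -, rfl⟩ := hx
      exact y.2
    have himg : ((o ∩ d).subtype (· ∈ d)).image Subtype.val = o ∩ d := by
      ext x
      simp only [Finset.mem_image, Finset.mem_subtype, Subtype.exists, exists_and_left,
        exists_prop, exists_eq_right_right, Finset.mem_inter]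
      tauto
    refine ⟨(o ∩ d).subtype (· ∈ d), ⟨?_, ?_⟩, ?_⟩
    · show _ ∈ hexadsOn d
      rw [himg]
      exact ⟨octad_inter_dodecad_six ho hd hso hsd hs5.ge, o, ho, rfl⟩
    · intro x hx
      rw [Finset.mem_subtype, Finset.mem_inter]
      exact ⟨hso (Finset.mem_image_of_mem _ hx), x.2⟩
    · rintro b ⟨⟨hb6, o', ho', hob⟩, hsb⟩
      have h1 : o' = o := by
        apply octad_eq_of_subset ho' ho (s := s.image Subtype.val) _ hso hs5.ge
        intro x hx
        have h2 : x ∈ b.image Subtype.val := Finset.image_subset_image hsb hx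
        rw [← hob] at h2
        exact (Finset.mem_inter.1 h2).1
      rw [h1] at hob
      apply Finset.image_injective Subtype.val_injective
      rw [himg, hob]

theorem final12 [Fintype α] (hα : Fintype.card α = 12) {B : Set (Finset α)}
    (hB : IsSteinerSystem 5 6 B) :
    IsM12 (setSystemAut B) ∧ MulAction.IsMultiplyPretransitive (setSystemAut B) α 5 ∧
      ∀ x : Fin 5 ↪ α, MulAction.stabilizer (setSystemAut B) x = ⊥ := by
  set d : Finset GolayPt := d0 with hd0
  have hd : d ∈ dodecads := d0_mem
  have hst : ∀ g ∈ stabilizer M24 d, g • d = d := fun g hg => hg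
  have hcd : Fintype.card d = 12 := by rw [Fintype.card_coe, card_dodecad hd]
  -- the isomorphism with the hexads of the dodecad
  obtain ⟨f, hf⟩ : ∃ f : α ≃ d, ∀ X : Finset α, X ∈ B ↔ X.image f ∈ hexD d := by
    obtain ⟨e, rfl⟩ := std_form hα hB run12 good12
    obtain ⟨e', he'⟩ := std_form hcd (steiner_hexD hd) run12 good12
    obtain ⟨f, hf⟩ := iso_of_fam (L := L12) e e'
    refine ⟨f, fun X => ?_⟩
    rw [he', ← hf]
    exact (Function.Injective.mem_set_image (Finset.image_injective f.injective)).symm
  -- the homomorphism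
  let ψ : stabilizer M24 d →* Equiv.Perm α :=
    (f.symm.permCongrHom.toMonoidHom).comp (resH (stabilizer M24 d) d hst)
  have hψ : ∀ (g : stabilizer M24 d) (x : α), f (ψ g x) = resH _ d hst g (f x) := by
    intro g x
    simp [ψ, Equiv.permCongrHom]
  have hψinj : Function.Injective ψ := by
    apply Function.Injective.comp (f.symm.permCongrHom.injective)
    apply resH_injective
    intro g hg h
    exact dod_faithful hd (subset_refl d) (by rw [card_dodecad hd]; norm_num) hg h
  have hψmem : ∀ g, ψ g ∈ setSystemAut B := by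
    intro g
    rw [mem_aut']
    intro X
    rw [hf, hf]
    have h1 : ((X.image (ψ g)).image f).image Subtype.val
        = (g : M24) • ((X.image f).image Subtype.val) := by
      have h2 : ∀ Y : Finset GolayPt, (g : M24) • Y = Y.image (fun x => (g : M24) • x) :=
        fun Y => rfl
      rw [h2, Finset.image_image, Finset.image_image, Finset.image_image, Finset.image_image]
      congr 1
      funext x
      show ((f (ψ g x) : d) : GolayPt) = (g : M24) • ((f x : d) : GolayPt)
      rw [hψ]
      rfl
    show ((X.image (ψ g)).image f).image Subtype.val ∈ hexadsOn d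
      ↔ (X.image f).image Subtype.val ∈ hexadsOn d
    rw [h1]
    have hgd : (g : M24) • d = d := g.2
    constructor
    · rintro ⟨h6, o, ho, hod⟩
      rw [Finset.card_smul_finset] at h6
      refine ⟨h6, (g : M24)⁻¹ • o, (smul_mem_octads (inv_mem (g : M24).2)).2 ho, ?_⟩
      have h3 : (g : M24) • ((g : M24)⁻¹ • o ∩ d)
          = (g : M24) • ((X.image f).image Subtype.val) := by
        rw [Finset.smul_finset_inter, smul_inv_smul, hgd, hod]
      exact smul_left_cancel _ h3
    · rintro ⟨h6, o, ho, hod⟩
      refine ⟨by rw [Finset.card_smul_finset]; exact h6, (g : M24) • o,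
        (smul_mem_octads (g : M24).2).2 ho, ?_⟩
      rw [← hod, Finset.smul_finset_inter, hgd]
  have htrans : ∀ x y : Fin 5 ↪ α, ∃ g, ∀ i, ψ g (x i) = y i := by
    intro x y
    obtain ⟨g, hg, h⟩ := M12_map hd (fun i => ((f (x i) : d) : GolayPt))
      (fun i => ((f (y i) : d) : GolayPt)) (fun i => (f (x i)).2) (fun i => (f (y i)).2)
      (Subtype.val_injective.comp (f.injective.comp x.injective))
      (Subtype.val_injective.comp (f.injective.comp y.injective))
    refine ⟨⟨g, hg⟩, fun i => f.injective ?_⟩
    rw [hψ]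
    exact Subtype.ext (h i)
  -- rigidity
  have hrig : ∀ g ∈ setSystemAut B, ∀ x : Fin 5 ↪ α, (∀ i, g (x i) = x i) → g = 1 := by
    intro g hg x hx
    obtain ⟨e, he⟩ := std_form hα hB run12 good12
    let x0 : Fin 5 ↪ α := (Fin.castLEEmb (by norm_num)).trans e.toEmbedding
    obtain ⟨k, hk⟩ := htrans x x0
    have h1 : ψ k * g * (ψ k)⁻¹ = 1 := by
      have h2 : ψ k * g * (ψ k)⁻¹ ∈ setSystemAut B := mul_mem (mul_mem (hψmem k) hg)
        (inv_mem (hψmem k))
      subst he
      apply rigid_fam hB h2
      intro i hi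
      have h3 : e i = x0 ⟨i, hi⟩ := rfl
      rw [h3, ← hk]
      simp [hx]
    have h2 : g = (ψ k)⁻¹ * (ψ k * g * (ψ k)⁻¹) * ψ k := by group
    rw [h2, h1]; group
  refine ⟨?_, ?_, ?_⟩
  · have hsurj : ∀ g ∈ setSystemAut B, ∃ k, ψ k = g := by
      intro g hg
      obtain ⟨x⟩ : Nonempty (Fin 5 ↪ α) := by
        obtain ⟨e, -⟩ := std_form hα hB run12 good12
        exact ⟨(Fin.castLEEmb (by norm_num)).trans e.toEmbedding⟩
      obtain ⟨k, hk⟩ := htrans x (x.trans g.toEmbedding)
      refine ⟨k, ?_⟩
      have h1 : (ψ k)⁻¹ * g = 1 := by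
        apply hrig _ (mul_mem (inv_mem (hψmem k)) hg) x
        intro i
        have h2 : ψ k (x i) = g (x i) := hk i
        rw [Equiv.Perm.mul_apply, ← h2]
        exact (ψ k).symm_apply_apply _
      exact (inv_mul_eq_one.1 h1)
    let ψ' : stabilizer M24 d →* setSystemAut B := ψ.codRestrict _ hψmem
    have hb : Function.Bijective ψ' := by
      constructor
      · intro a b hab
        exact hψinj (congrArg Subtype.val hab)
      · intro g
        obtain ⟨k, hk⟩ := hsurj g g.2
        exact ⟨k, Subtype.ext hk⟩
    let E : stabilizer M24 d ≃* setSystemAut B := MulEquiv.ofBijective ψ' hb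
    constructor
    · have := simple_stabilizer_dodecad hd
      have : Nontrivial (setSystemAut B) := E.symm.toEquiv.nontrivial
      exact IsSimpleGroup.isSimpleGroup_of_surjective E.toMonoidHom E.surjective
    · rw [← Nat.card_congr E.toEquiv, card_stabilizer_dodecad hd]
  · constructor
    intro x y
    obtain ⟨g, hg⟩ := htrans x y
    refine ⟨⟨ψ g, hψmem g⟩, ?_⟩
    ext i
    exact hg i
  · intro x
    rw [eq_bot_iff]
    intro g hg
    rw [mem_stabilizer_iff] at hg
    rw [Subgroup.mem_bot]
    apply Subtype.ext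
    apply hrig g.1 g.2 x
    intro i
    have := congrArg (fun z : Fin 5 ↪ α => z i) hg
    exact this

end Cfsg.Agent.M24X.Uniq
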