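import Cfsg.Agent.M24X.Uniq11
import Cfsg.Agent.M24X.Aut12b

/-! The automorphism group of a Steiner system with parameters (4, 5, 11). -/

set_option autoImplicit false

namespace Cfsg.Agent.M24X.Uniq

open Cfsg MulAction Cfsg.Agent.Golay Cfsg.Agent.M24X
open scoped Pointwise

/-- the ten involutions on the points outside the block `{0,1,2,3,5}` -/
def te (i x : ℕ) : ℕ :=
  (([[0, 1, 2, 3, 10, 5, 9, 8, 7, 6, 4], [0, 1, 2, 3, 7, 5, 8, 4, 6, 10, 9],
    [0, 1, 2, 3, 6, 5, 4, 9, 10, 7, 8], [0, 1, 2, 3, 8, 5, 10, 9, 4, 7, 6],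
    [0, 1, 2, 3, 9, 5, 8, 10, 6, 4, 7], [0, 1, 2, 3, 10, 5, 7, 6, 9, 8, 4],
    [0, 1, 2, 3, 6, 5, 4, 10, 9, 8, 7], [0, 1, 2, 3, 8, 5, 7, 6, 4, 10, 9],
    [0, 1, 2, 3, 9, 5, 10, 8, 7, 4, 6], [0, 1, 2, 3, 7, 5, 9, 4, 10, 6, 8]] :
      List (List ℕ)).getD i []).getD x 0

/-- the triples of the block -/
def tr (i : ℕ) : ℕ := ([7, 11, 35, 13, 37, 41, 14, 38, 42, 44] : List ℕ).getD i 0

/-- the points outside the block -/
def he (x : ℕ) : Bool := (Nat.beq x 4 || Nat.ble 6 x)

/-- the block through the triple and `x` -/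
def mk3 (i x : ℕ) : ℕ := tr i + 2 ^ x + 2 ^ te i x

theorem mk3_mem : ∀ i : Fin 10, ∀ x : Fin 11, he x = true → mk3 i x ∈ L11 := by decide +kernel

theorem te_lt : ∀ i : Fin 10, ∀ x : Fin 11, te i x < 11 := by decide +kernel

theorem te_he : ∀ i : Fin 10, ∀ x : Fin 11, he x = true → he (te i x) = true ∧ te i x ≠ x := by
  decide +kernel

theorem mk3_bit : ∀ i : Fin 10, ∀ x j : Fin 11, he x = true → ((mk3 i x).testBit j = true ↔
    (j : ℕ) = x ∨ (j : ℕ) = te i x ∨ (tr i).testBit j = true) := by
  decide +kernel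

theorem m3_card : ∀ i : Fin 10, ∀ x : Fin 11, he x = true →
    cmn 11 (tr i + 2 ^ (x : ℕ)) (tr i + 2 ^ (x : ℕ)) = 4 := by
  decide +kernel

theorem m3_bit : ∀ i : Fin 10, ∀ x j : Fin 11, he x = true →
    ((tr i + 2 ^ (x : ℕ)).testBit j = true ↔ (j : ℕ) = x ∨ (tr i).testBit j = true) := by
  decide +kernel

theorem tr_he : ∀ i : Fin 10, ∀ j : Fin 11, (tr i).testBit j = true → he j = false := by
  decide +kernel

theorem word_fix' : ∀ y : Fin 11, he y = true → te 9 (te 3 (te 1 (te 0 y))) = y → (y : ℕ) = 4 := by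
  decide +kernel

theorem word_four : te 9 (te 3 (te 1 (te 0 4))) = 4 := by decide +kernel

theorem cover_four : ∀ y : Fin 11, he y = true → (y : ℕ) = 4 ∨ ∃ i : Fin 10, (y : ℕ) = te i 4 := by
  decide +kernel

/-- the involutions as functions on `Fin 11` -/
def tg (i : Fin 10) (x : Fin 11) : Fin 11 := ⟨te i x, te_lt i x⟩

theorem rigid_std' {B : Set (Finset (Fin 11))} (hB : IsSteinerSystem 4 5 B)
    (hL : ∀ m ∈ L11, toS 11 m ∈ B) {g : Equiv.Perm (Fin 11)}
    (hg : ∀ b ∈ B, b.image g ∈ B) (h4 : ∀ i : Fin 11, (i : ℕ) < 4 → g i = i) : g = 1 := by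
  have huniq : ∀ b ∈ B, ∀ c ∈ B, ∀ s : Finset (Fin 11), s.card = 4 → s ⊆ b → s ⊆ c → b = c := by
    intro b hb c hc s hs h1 h2
    obtain ⟨d, -, hu⟩ := hB.2 s hs
    rw [hu b ⟨hb, h1⟩, hu c ⟨hc, h2⟩]
  -- the fifth point of the block
  have h5 : g 5 = 5 := by
    have hb : toS 11 47 ∈ B := hL _ (by decide +kernel)
    have hs : (toS 11 15).card = 4 := by decide +kernel
    have hbs : toS 11 15 ⊆ toS 11 47 := by decide +kernel
    have hsg : toS 11 15 ⊆ (toS 11 47).image g := by
      intro i hi
      have hi5 : ∀ j : Fin 11, j ∈ toS 11 15 → (j : ℕ) < 4 := by decide +kernel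
      rw [Finset.mem_image]
      exact ⟨i, hbs hi, h4 i (hi5 i hi)⟩
    have he := huniq _ (hg _ hb) _ hb _ hs hsg hbs
    have h1 : g 5 ∈ toS 11 47 := by
      rw [← he]
      exact Finset.mem_image_of_mem _ (by decide +kernel)
    have h2 : ∀ j : Fin 11, j ∈ toS 11 47 → (j : ℕ) < 4 ∨ j = 5 := by decide +kernel
    rcases h2 _ h1 with h3 | h3
    · have h4 := g.injective (h4 _ h3)
      rw [h4] at h3
      exact absurd h3 (by decide)
    · exact h3
  have hfix : ∀ x : Fin 11, he x = false → g x = x := by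
    intro x hx
    have : ∀ j : Fin 11, he j = false → (j : ℕ) < 4 ∨ j = 5 := by decide +kernel
    rcases this x hx with h | rfl
    · exact h4 x h
    · exact h5
  have hcg : ∀ x : Fin 11, he x = true → he (g x) = true := by
    intro x hx
    by_contra hn
    rw [Bool.not_eq_true] at hn
    have h1 := g.injective (hfix _ hn)
    rw [h1, hx] at hn
    exact Bool.noConfusion hn
  have hcomm : ∀ i : Fin 10, ∀ x : Fin 11, he x = true → g (tg i x) = tg i (g x) := by
    intro i x hx
    have hgx := hcg x hx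
    have hb1 := hg _ (hL _ (mk3_mem i x hx))
    have hb2 := hL _ (mk3_mem i (g x) hgx)
    have hs : (toS 11 (tr i + 2 ^ ((g x : Fin 11) : ℕ))).card = 4 := by
      have h1 := cmn_eq 11 (tr i + 2 ^ ((g x : Fin 11) : ℕ)) (tr i + 2 ^ ((g x : Fin 11) : ℕ))
      rw [Finset.inter_self] at h1
      rw [h1]
      exact m3_card i (g x) hgx
    have he := huniq _ hb1 _ hb2 _ hs (by
      intro j hj
      rw [mem_toS, m3_bit i (g x) j hgx] at hj
      rw [Finset.mem_image]
      rcases hj with hj | hj
      · exact ⟨x, mem_toS.2 ((mk3_bit i x x hx).2 (Or.inl rfl)), (Fin.ext hj).symm⟩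
      · exact ⟨j, mem_toS.2 ((mk3_bit i x j hx).2 (Or.inr (Or.inr hj))), hfix j (tr_he i j hj)⟩) (by
      intro j hj
      rw [mem_toS, m3_bit i (g x) j hgx] at hj
      rw [mem_toS, mk3_bit i (g x) j hgx]
      tauto)
    have h1 : g (tg i x) ∈ toS 11 (mk3 i (g x)) := by
      rw [← he]
      exact Finset.mem_image_of_mem _ (mem_toS.2 ((mk3_bit i x (tg i x) hx).2 (Or.inr (Or.inl rfl))))
    rw [mem_toS, mk3_bit i (g x) _ hgx] at h1
    rcases h1 with h1 | h1 | h1
    · have h2 := g.injective (Fin.ext h1)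
      exact absurd (congrArg Fin.val h2) (te_he i x hx).2
    · exact Fin.ext h1
    · have h0 := tr_he i _ h1
      have h2 := g.injective (hfix _ h0)
      rw [h2] at h0
      have h3 : Uniq.he (tg i x : Fin 11) = true := (te_he i x hx).1
      rw [h0] at h3
      exact Bool.noConfusion h3
  have hg4 : g 4 = 4 := by
    have e4 : (tg 9 (tg 3 (tg 1 (tg 0 4)))) = 4 := Fin.ext word_four
    have h1 : he ((4 : Fin 11) : ℕ) = true := by decide
    have h2 : he ((tg 0 4 : Fin 11) : ℕ) = true := (te_he 0 4 h1).1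
    have h3 : he ((tg 1 (tg 0 4) : Fin 11) : ℕ) = true := (te_he 1 _ h2).1
    have h4 : he ((tg 3 (tg 1 (tg 0 4)) : Fin 11) : ℕ) = true := (te_he 3 _ h3).1
    have e : g 4 = tg 9 (tg 3 (tg 1 (tg 0 (g 4)))) := by
      conv_lhs => rw [← e4]
      rw [hcomm 9 _ h4, hcomm 3 _ h3, hcomm 1 _ h2, hcomm 0 _ h1]
    exact Fin.ext (word_fix' (g 4) (hcg 4 h1) (congrArg Fin.val e).symm)
  ext1 x
  rw [Equiv.Perm.one_apply]
  rcases Bool.eq_false_or_eq_true (he x) with hx | hx
  · rcases cover_four x hx with h | ⟨i, hi⟩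
    · have : x = 4 := Fin.ext h
      rw [this, hg4]
    · have : x = tg i 4 := Fin.ext hi
      rw [this, hcomm i 4 (by decide), hg4]
  · exact hfix x hx

variable {α : Type*} [DecidableEq α]

theorem rigid_fam' {e : Fin 11 ≃ α} (hB : IsSteinerSystem 4 5 (fam e L11))
    {g : Equiv.Perm α} (hg : g ∈ setSystemAut (fam e L11))
    (h4 : ∀ i : Fin 11, (i : ℕ) < 4 → g (e i) = e i) : g = 1 := by
  have h1 : e.permCongr.symm g = 1 := by
    apply rigid_std' (steiner_map hB e) (fun m hm => fam_mem e hm)
    · intro b hb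
      have h2 := (mem_aut'.1 hg (b.image e)).2 hb
      have h3 : (b.image (e.permCongr.symm g)).image e = (b.image e).image g := by
        rw [Finset.image_image, Finset.image_image]
        congr 1
        funext i
        simp [Equiv.permCongr]
      show (b.image (e.permCongr.symm g)).image e ∈ fam e L11
      rw [h3]; exact h2
    · intro i hi
      simp [Equiv.permCongr, h4 i hi]
  ext x
  have h2 := congrArg (fun σ : Equiv.Perm (Fin 11) => e (σ (e.symm x))) h1
  simpa [Equiv.permCongr] using h2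

/-- the derived system: pentads on a dodecad minus a point -/
def penD (d : Finset GolayPt) (p : GolayPt) : Set (Finset (d.erase p : Finset GolayPt)) :=
  {b | insert p (b.image Subtype.val) ∈ hexadsOn d}

theorem steiner_penD {d : Finset GolayPt} (hd : d ∈ dodecads) {p : GolayPt} (hp : p ∈ d) :
    IsSteinerSystem 4 5 (penD d p) := by
  have hc : ∀ b : Finset (d.erase p : Finset GolayPt), (b.image Subtype.val).card = b.card :=
    fun b => Finset.card_image_of_injective _ Subtype.val_injective
  have hpn : ∀ b : Finset (d.erase p : Finset GolayPt), p ∉ b.image Subtype.val := by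
    intro b h
    rw [Finset.mem_image] at h
    obtain ⟨y, -, hy⟩ := h
    exact (Finset.mem_erase.1 y.2).1 hy
  have hsub : ∀ b : Finset (d.erase p : Finset GolayPt), insert p (b.image Subtype.val) ⊆ d := by
    intro b x hx
    rw [Finset.mem_insert] at hx
    rcases hx with rfl | hx
    · exact hp
    · rw [Finset.mem_image] at hx
      obtain ⟨y, -, rfl⟩ := hx
      exact (Finset.mem_erase.1 y.2).2
  constructor
  · intro b hb
    have h6 : (insert p (b.image Subtype.val)).card = 6 := hb.1
    rw [Finset.card_insert_of_notMem (hpn b), hc] at h6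
    omega
  · intro s hs
    have hs5 : (insert p (s.image Subtype.val)).card = 5 := by
      rw [Finset.card_insert_of_notMem (hpn s), hc, hs]
    obtain ⟨o, ho, hso⟩ := exists_octad hs5
    have hpo : p ∈ o := hso (Finset.mem_insert_self _ _)
    have himg : insert p (((o ∩ d).subtype (· ∈ d.erase p)).image Subtype.val) = o ∩ d := by
      ext x
      simp only [Finset.mem_insert, Finset.mem_image, Finset.mem_subtype, Subtype.exists,
        exists_and_left, exists_prop, exists_eq_right_right, Finset.mem_inter, Finset.mem_erase]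
      by_cases hx : x = p
      · rw [hx]; simp [hpo, hp]
      · simp only [hx, false_or, ne_eq, not_false_eq_true, true_and]
        tauto
    refine ⟨(o ∩ d).subtype (· ∈ d.erase p), ⟨?_, ?_⟩, ?_⟩
    · show _ ∈ hexadsOn d
      rw [himg]
      exact ⟨octad_inter_dodecad_six ho hd hso (hsub s) hs5.ge, o, ho, rfl⟩
    · intro x hx
      rw [Finset.mem_subtype, Finset.mem_inter]
      exact ⟨hso (Finset.mem_insert_of_mem (Finset.mem_image_of_mem _ hx)),
        (Finset.mem_erase.1 x.2).2⟩
    · rintro b ⟨⟨hb6, o', ho', hob⟩, hsb⟩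
      have h1 : o' = o := by
        apply octad_eq_of_subset ho' ho (s := insert p (s.image Subtype.val)) _ hso hs5.ge
        intro x hx
        have h2 : x ∈ insert p (b.image Subtype.val) :=
          Finset.insert_subset_insert p (Finset.image_subset_image hsb) hx
        rw [← hob] at h2
        exact (Finset.mem_inter.1 h2).1
      rw [h1] at hob
      apply Finset.image_injective Subtype.val_injective
      have e1 : ∀ A : Finset GolayPt, p ∉ A → ∀ A' : Finset GolayPt, p ∉ A' →
          insert p A = insert p A' → A = A' := by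
        intro A hA A' hA' h
        rw [← Finset.erase_insert hA, h, Finset.erase_insert hA']
      exact e1 _ (hpn b) _ (hpn _) (by rw [himg, hob])

theorem final11 [Fintype α] (hα : Fintype.card α = 11) {B : Set (Finset α)}
    (hB : IsSteinerSystem 4 5 B) :
    MulAction.IsMultiplyPretransitive (setSystemAut B) α 4 ∧
      ∀ x : Fin 4 ↪ α, MulAction.stabilizer (setSystemAut B) x = ⊥ := by
  set d : Finset GolayPt := d0 with hd0
  have hd : d ∈ dodecads := d0_mem
  obtain ⟨p, hp⟩ : ∃ p, p ∈ d := by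
    have : d.Nonempty := by rw [← Finset.card_pos, card_dodecad hd]; norm_num
    exact this
  have hH : ∀ g ∈ stabilizer M24 d ⊓ stabilizer M24 p, g • d = d ∧ g • p = p := fun g hg =>
    ⟨(Subgroup.mem_inf.1 hg).1, (Subgroup.mem_inf.1 hg).2⟩
  have hst : ∀ g ∈ stabilizer M24 d ⊓ stabilizer M24 p, g • (d.erase p) = d.erase p := by
    intro g hg
    obtain ⟨h1, h2⟩ := hH g hg
    ext x
    rw [← Finset.inv_smul_mem_iff, Finset.mem_erase, Finset.mem_erase, Finset.inv_smul_mem_iff, h1]
    have h3 : g⁻¹ • x = p ↔ x = p := by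
      rw [inv_smul_eq_iff, h2]
    rw [ne_eq, ne_eq, h3]
  have hcd : Fintype.card (d.erase p : Finset GolayPt) = 11 := by
    rw [Fintype.card_coe, Finset.card_erase_of_mem hp, card_dodecad hd]
  -- the isomorphism with the pentads of the dodecad
  obtain ⟨f, hf⟩ : ∃ f : α ≃ (d.erase p : Finset GolayPt), ∀ X : Finset α,
      X ∈ B ↔ X.image f ∈ penD d p := by
    obtain ⟨e, rfl⟩ := std_form hα hB run11 good11
    obtain ⟨e', he'⟩ := std_form hcd (steiner_penD hd hp) run11 good11
    obtain ⟨f, hf⟩ := iso_of_fam (L := L11) e e'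
    refine ⟨f, fun X => ?_⟩
    rw [he', ← hf]
    exact (Function.Injective.mem_set_image (Finset.image_injective f.injective)).symm
  -- the homomorphism
  let H : Subgroup M24 := stabilizer M24 d ⊓ stabilizer M24 p
  let ψ : H →* Equiv.Perm α :=
    (f.symm.permCongrHom.toMonoidHom).comp (resH H (d.erase p) hst)
  have hψ : ∀ (g : H) (x : α), f (ψ g x) = resH H (d.erase p) hst g (f x) := by
    intro g x
    simp [ψ, Equiv.permCongrHom]
  have hψmem : ∀ g, ψ g ∈ setSystemAut B := by
    intro g
    rw [mem_aut']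
    intro X
    rw [hf, hf]
    have hgd : (g : M24) • d = d := (hH _ g.2).1
    have hgp : (g : M24) • p = p := (hH _ g.2).2
    have h1 : insert p (((X.image (ψ g)).image f).image Subtype.val)
        = (g : M24) • (insert p ((X.image f).image Subtype.val)) := by
      have h2 : ∀ Y : Finset GolayPt, (g : M24) • Y = Y.image (fun x => (g : M24) • x) :=
        fun Y => rfl
      rw [h2, Finset.image_insert, Finset.image_image, Finset.image_image, Finset.image_image,
        Finset.image_image]
      show _ = insert ((g : M24) • p) _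
      rw [hgp]
      congr 1
      congr 1
      funext x
      show ((f (ψ g x) : (d.erase p : Finset GolayPt)) : GolayPt) =
        (g : M24) • ((f x : (d.erase p : Finset GolayPt)) : GolayPt)
      rw [hψ]
      rfl
    show insert p (((X.image (ψ g)).image f).image Subtype.val) ∈ hexadsOn d
      ↔ insert p ((X.image f).image Subtype.val) ∈ hexadsOn d
    rw [h1]
    constructor
    · rintro ⟨h6, o, ho, hod⟩
      rw [Finset.card_smul_finset] at h6
      refine ⟨h6, (g : M24)⁻¹ • o, (smul_mem_octads (inv_mem (g : M24).2)).2 ho, ?_⟩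
      have h3 : (g : M24) • ((g : M24)⁻¹ • o ∩ d)
          = (g : M24) • (insert p ((X.image f).image Subtype.val)) := by
        rw [Finset.smul_finset_inter, smul_inv_smul, hgd, hod]
      exact smul_left_cancel _ h3
    · rintro ⟨h6, o, ho, hod⟩
      refine ⟨by rw [Finset.card_smul_finset]; exact h6, (g : M24) • o,
        (smul_mem_octads (g : M24).2).2 ho, ?_⟩
      rw [← hod, Finset.smul_finset_inter, hgd]
  have htrans : ∀ x y : Fin 4 ↪ α, ∃ g, ∀ i, ψ g (x i) = y i := by
    intro x y
    have hin : ∀ z : Fin 4 ↪ α, (∀ i, (Fin.cons p (fun i => ((f (z i) :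
        (d.erase p : Finset GolayPt)) : GolayPt)) : Fin 5 → GolayPt) i ∈ d) ∧
        Function.Injective (Fin.cons p (fun i => ((f (z i) :
        (d.erase p : Finset GolayPt)) : GolayPt)) : Fin 5 → GolayPt) := by
      intro z
      constructor
      · intro i
        refine Fin.cases ?_ ?_ i
        · exact hp
        · intro j
          rw [Fin.cons_succ]
          exact (Finset.mem_erase.1 (f (z j)).2).2
      · rw [Fin.cons_injective_iff]
        constructor
        · rintro ⟨j, hj⟩
          exact (Finset.mem_erase.1 (f (z j)).2).1 hj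
        · exact Subtype.val_injective.comp (f.injective.comp z.injective)
    obtain ⟨g, hg, h⟩ := M12_map hd _ _ (hin x).1 (hin y).1 (hin x).2 (hin y).2
    refine ⟨⟨g, Subgroup.mem_inf.2 ⟨hg, h 0⟩⟩, fun i => f.injective ?_⟩
    rw [hψ]
    exact Subtype.ext (h i.succ)
  -- rigidity
  have hrig : ∀ g ∈ setSystemAut B, ∀ x : Fin 4 ↪ α, (∀ i, g (x i) = x i) → g = 1 := by
    intro g hg x hx
    obtain ⟨e, he⟩ := std_form hα hB run11 good11
    let x0 : Fin 4 ↪ α := (Fin.castLEEmb (by norm_num)).trans e.toEmbedding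
    obtain ⟨k, hk⟩ := htrans x x0
    have h1 : ψ k * g * (ψ k)⁻¹ = 1 := by
      have h2 : ψ k * g * (ψ k)⁻¹ ∈ setSystemAut B := mul_mem (mul_mem (hψmem k) hg)
        (inv_mem (hψmem k))
      subst he
      apply rigid_fam' hB h2
      intro i hi
      have h3 : e i = x0 ⟨i, hi⟩ := rfl
      rw [h3, ← hk]
      simp [hx]
    have h2 : g = (ψ k)⁻¹ * (ψ k * g * (ψ k)⁻¹) * ψ k := by group
    rw [h2, h1]; group
  refine ⟨?_, ?_⟩
  · constructor
    intro x y
    obtain ⟨g, hg⟩ := htrans x y
    refine ⟨⟨ψ g, hψmem g⟩, ?_⟩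
    ext i
    exact hg i
  · intro x
    rw [eq_bot_iff]
    intro g hg
    rw [mem_stabilizer_iff] at hg
    rw [Subgroup.mem_bot]
    apply Subtype.ext
    apply hrig g.1 g.2 x
    intro i
    have := congrArg (fun z : Fin 4 ↪ α => z i) hg
    exact this

end Cfsg.Agent.M24X.Uniq
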