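import Cfsg.Agent.M24X.Uniq12
import Cfsg.Agent.M24X.Res
import Cfsg.Agent.M24X.M9

/-! The automorphism group of a Steiner system with parameters (5, 6, 12). -/

set_option autoImplicit false

namespace Cfsg.Agent.M24X.Uniq

open Cfsg MulAction Cfsg.Agent.Golay
open scoped Pointwise

/-- the five involutions on the points outside the block `{0,1,2,3,4,9}` -/
def tt (i x : ℕ) : ℕ :=
  (([[0, 1, 2, 3, 4, 10, 11, 8, 7, 9, 5, 6], [0, 1, 2, 3, 4, 6, 5, 10, 11, 9, 7, 8],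
    [0, 1, 2, 3, 4, 8, 10, 11, 5, 9, 6, 7], [0, 1, 2, 3, 4, 7, 8, 5, 6, 9, 11, 10],
    [0, 1, 2, 3, 4, 11, 7, 6, 10, 9, 8, 5]] : List (List ℕ)).getD i []).getD x 0

/-- the points outside the block -/
def hc (x : ℕ) : Bool := Nat.ble 5 x && !Nat.beq x 9

/-- the block through the four points and `x` -/
def mk4 (i x : ℕ) : ℕ := 31 - 2 ^ i + 2 ^ x + 2 ^ tt i x

theorem mk4_mem : ∀ i : Fin 5, ∀ x : Fin 12, hc x = true → mk4 i x ∈ L12 := by decide +kernel

theorem tt_lt : ∀ i : Fin 5, ∀ x : Fin 12, tt i x < 12 := by decide +kernel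

theorem tt_hc : ∀ i : Fin 5, ∀ x : Fin 12, hc x = true → hc (tt i x) = true ∧ tt i x ≠ x := by
  decide +kernel

theorem mk4_bit : ∀ i : Fin 5, ∀ x j : Fin 12, hc x = true → ((mk4 i x).testBit j = true ↔
    (j : ℕ) = x ∨ (j : ℕ) = tt i x ∨ ((j : ℕ) < 5 ∧ (j : ℕ) ≠ i)) := by
  decide +kernel

theorem m4_card : ∀ i : Fin 5, ∀ x : Fin 12, hc x = true →
    cmn 12 (31 - 2 ^ (i : ℕ) + 2 ^ (x : ℕ)) (31 - 2 ^ (i : ℕ) + 2 ^ (x : ℕ)) = 5 := by
  decide +kernel

theorem m4_bit : ∀ i : Fin 5, ∀ x j : Fin 12, hc x = true →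
    ((31 - 2 ^ (i : ℕ) + 2 ^ (x : ℕ)).testBit j = true ↔
      (j : ℕ) = x ∨ ((j : ℕ) < 5 ∧ (j : ℕ) ≠ i)) := by
  decide +kernel

theorem word_fix : ∀ y : Fin 12, hc y = true → tt 4 (tt 2 (tt 1 (tt 0 y))) = y → (y : ℕ) = 5 := by
  decide +kernel

theorem word_five : tt 4 (tt 2 (tt 1 (tt 0 5))) = 5 := by decide +kernel

theorem cover_five : ∀ y : Fin 12, hc y = true → (y : ℕ) = 5 ∨ ∃ i : Fin 5, (y : ℕ) = tt i 5 := by
  decide +kernel

/-- the involutions as functions on `Fin 12` -/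
def tf (i : Fin 5) (x : Fin 12) : Fin 12 := ⟨tt i x, tt_lt i x⟩

theorem rigid_std {B : Set (Finset (Fin 12))} (hB : IsSteinerSystem 5 6 B)
    (hL : ∀ m ∈ L12, toS 12 m ∈ B) {g : Equiv.Perm (Fin 12)}
    (hg : ∀ b ∈ B, b.image g ∈ B) (h5 : ∀ i : Fin 12, (i : ℕ) < 5 → g i = i) : g = 1 := by
  have huniq : ∀ b ∈ B, ∀ c ∈ B, ∀ s : Finset (Fin 12), s.card = 5 → s ⊆ b → s ⊆ c → b = c := by
    intro b hb c hc s hs h1 h2
    obtain ⟨d, -, hu⟩ := hB.2 s hs
    rw [hu b ⟨hb, h1⟩, hu c ⟨hc, h2⟩]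
  -- the sixth point of the block
  have h9 : g 9 = 9 := by
    have hb : toS 12 543 ∈ B := hL _ (by decide +kernel)
    have hs : (toS 12 31).card = 5 := by decide +kernel
    have hbs : toS 12 31 ⊆ toS 12 543 := by decide +kernel
    have hsg : toS 12 31 ⊆ (toS 12 543).image g := by
      intro i hi
      have hi5 : ∀ j : Fin 12, j ∈ toS 12 31 → (j : ℕ) < 5 := by decide +kernel
      rw [Finset.mem_image]
      exact ⟨i, hbs hi, h5 i (hi5 i hi)⟩
    have he := huniq _ (hg _ hb) _ hb _ hs hsg hbs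
    have h1 : g 9 ∈ toS 12 543 := by
      rw [← he]
      exact Finset.mem_image_of_mem _ (by decide +kernel)
    have h2 : ∀ j : Fin 12, j ∈ toS 12 543 → (j : ℕ) < 5 ∨ j = 9 := by decide +kernel
    rcases h2 _ h1 with h3 | h3
    · have h4 := g.injective (h5 _ h3)
      rw [h4] at h3
      exact absurd h3 (by decide)
    · exact h3
  have hfix : ∀ x : Fin 12, hc x = false → g x = x := by
    intro x hx
    have : ∀ j : Fin 12, hc j = false → (j : ℕ) < 5 ∨ j = 9 := by decide +kernel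
    rcases this x hx with h | rfl
    · exact h5 x h
    · exact h9
  have hcg : ∀ x : Fin 12, hc x = true → hc (g x) = true := by
    intro x hx
    by_contra hn
    rw [Bool.not_eq_true] at hn
    have h1 := g.injective (hfix _ hn)
    rw [h1, hx] at hn
    exact Bool.noConfusion hn
  have hcomm : ∀ i : Fin 5, ∀ x : Fin 12, hc x = true → g (tf i x) = tf i (g x) := by
    intro i x hx
    have hgx := hcg x hx
    have hb1 := hg _ (hL _ (mk4_mem i x hx))
    have hb2 := hL _ (mk4_mem i (g x) hgx)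
    have hs : (toS 12 (31 - 2 ^ (i : ℕ) + 2 ^ ((g x : Fin 12) : ℕ))).card = 5 := by
      have h1 := cmn_eq 12 (31 - 2 ^ (i : ℕ) + 2 ^ ((g x : Fin 12) : ℕ))
        (31 - 2 ^ (i : ℕ) + 2 ^ ((g x : Fin 12) : ℕ))
      rw [Finset.inter_self] at h1
      rw [h1]
      exact m4_card i (g x) hgx
    have he := huniq _ hb1 _ hb2 _ hs (by
      intro j hj
      rw [mem_toS, m4_bit i (g x) j hgx] at hj
      rw [Finset.mem_image]
      rcases hj with hj | ⟨hj, hji⟩
      · exact ⟨x, mem_toS.2 ((mk4_bit i x x hx).2 (Or.inl rfl)), (Fin.ext hj).symm⟩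
      · exact ⟨j, mem_toS.2 ((mk4_bit i x j hx).2 (Or.inr (Or.inr ⟨hj, hji⟩))), h5 j hj⟩) (by
      intro j hj
      rw [mem_toS, m4_bit i (g x) j hgx] at hj
      rw [mem_toS, mk4_bit i (g x) j hgx]
      tauto)
    have h1 : g (tf i x) ∈ toS 12 (mk4 i (g x)) := by
      rw [← he]
      exact Finset.mem_image_of_mem _ (mem_toS.2 ((mk4_bit i x (tf i x) hx).2 (Or.inr (Or.inl rfl))))
    rw [mem_toS, mk4_bit i (g x) _ hgx] at h1
    rcases h1 with h1 | h1 | ⟨h1, -⟩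
    · have h2 := g.injective (Fin.ext h1)
      exact absurd (congrArg Fin.val h2) (tt_hc i x hx).2
    · exact Fin.ext h1
    · have h2 := g.injective (h5 _ h1)
      rw [h2] at h1
      have h3 : hc (tf i x : Fin 12) = true := (tt_hc i x hx).1
      have : ∀ j : Fin 12, (j : ℕ) < 5 → hc j = false := by decide +kernel
      rw [this _ h1] at h3
      exact Bool.noConfusion h3
  have hg5 : g 5 = 5 := by
    have e5 : (tf 4 (tf 2 (tf 1 (tf 0 5)))) = 5 := Fin.ext word_five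
    have h1 : hc ((5 : Fin 12) : ℕ) = true := by decide
    have h2 : hc ((tf 0 5 : Fin 12) : ℕ) = true := (tt_hc 0 5 h1).1
    have h3 : hc ((tf 1 (tf 0 5) : Fin 12) : ℕ) = true := (tt_hc 1 _ h2).1
    have h4 : hc ((tf 2 (tf 1 (tf 0 5)) : Fin 12) : ℕ) = true := (tt_hc 2 _ h3).1
    have e : g 5 = tf 4 (tf 2 (tf 1 (tf 0 (g 5)))) := by
      conv_lhs => rw [← e5]
      rw [hcomm 4 _ h4, hcomm 2 _ h3, hcomm 1 _ h2, hcomm 0 _ h1]
    exact Fin.ext (word_fix (g 5) (hcg 5 h1) (congrArg Fin.val e).symm)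
  ext1 x
  rw [Equiv.Perm.one_apply]
  rcases Bool.eq_false_or_eq_true (hc x) with hx | hx
  · rcases cover_five x hx with h | ⟨i, hi⟩
    · have : x = 5 := Fin.ext h
      rw [this, hg5]
    · have : x = tf i 5 := Fin.ext hi
      rw [this, hcomm i 5 (by decide), hg5]
  · exact hfix x hx

end Cfsg.Agent.M24X.Uniq
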