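import Cfsg.Agent.M24X.Max

/-!
# Pairs of disjoint triads (owner: helper92)
-/

set_option autoImplicit false

namespace Cfsg.Agent.M24X

open Cfsg MulAction Cfsg.Agent.Golay Cfsg.Agent.Golay.Orb
open scoped Pointwise

/-- An enumeration of two disjoint triads. -/
theorem exists_enum {T U : Finset GolayPt} (hT : T.card = 3) (hU : U.card = 3) (hd : Disjoint T U) :
    ∃ x : Fin 6 → GolayPt, Function.Injective x ∧ (∀ i : Fin 3, x (Fin.castAdd 3 i) ∈ T) ∧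
      (∀ i : Fin 3, x (Fin.natAdd 3 i) ∈ U) ∧ (∀ p ∈ T, ∃ i : Fin 3, x (Fin.castAdd 3 i) = p) ∧
      (∀ p ∈ U, ∃ i : Fin 3, x (Fin.natAdd 3 i) = p) := by
  obtain ⟨a, ha, ha1, ha2⟩ := exists_tuple hT
  obtain ⟨b, hb, hb1, hb2⟩ := exists_tuple hU
  refine ⟨Fin.append a b, ?_, fun i => by rw [Fin.append_left]; exact ha1 i,
    fun i => by rw [Fin.append_right]; exact hb1 i, fun p hp => ?_, fun p hp => ?_⟩
  · rw [Fin.append_injective_iff]
    exact ⟨ha, hb, fun i j h => Finset.disjoint_left.1 hd (ha1 i) (h ▸ hb1 j)⟩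
  · obtain ⟨i, hi⟩ := ha2 p hp
    exact ⟨i, by rw [Fin.append_left]; exact hi⟩
  · obtain ⟨i, hi⟩ := hb2 p hp
    exact ⟨i, by rw [Fin.append_right]; exact hi⟩

theorem six_cases (i : Fin 6) : (∃ j : Fin 3, i = Fin.castAdd 3 j) ∨ ∃ j : Fin 3, i = Fin.natAdd 3 j := by
  rcases lt_or_ge (i : ℕ) 3 with h | h
  · exact Or.inl ⟨⟨i, h⟩, Fin.ext rfl⟩
  · refine Or.inr ⟨⟨i - 3, by omega⟩, Fin.ext ?_⟩
    simp only [Fin.val_natAdd]; omega

theorem enum_octad {T U : Finset GolayPt} {x : Fin 6 → GolayPt} (h1 : ∀ i : Fin 3, x (Fin.castAdd 3 i) ∈ T)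
    (h2 : ∀ i : Fin 3, x (Fin.natAdd 3 i) ∈ U) (h3 : ∀ p ∈ T, ∃ i : Fin 3, x (Fin.castAdd 3 i) = p)
    (h4 : ∀ p ∈ U, ∃ i : Fin 3, x (Fin.natAdd 3 i) = p) :
    (∃ o ∈ octads, ∀ i, x i ∈ o) ↔ ∃ o ∈ octads, T ∪ U ⊆ o := by
  constructor
  · rintro ⟨o, ho, h⟩
    refine ⟨o, ho, fun p hp => ?_⟩
    rcases Finset.mem_union.1 hp with hp | hp
    · obtain ⟨i, rfl⟩ := h3 p hp; exact h _
    · obtain ⟨i, rfl⟩ := h4 p hp; exact h _
  · rintro ⟨o, ho, h⟩
    refine ⟨o, ho, fun i => h ?_⟩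
    rcases six_cases i with ⟨j, rfl⟩ | ⟨j, rfl⟩
    · exact Finset.mem_union_left _ (h1 j)
    · exact Finset.mem_union_right _ (h2 j)

theorem smul_eq_of_maps {σ : Equiv.Perm GolayPt} {s t : Finset GolayPt} (h : ∀ p ∈ s, σ p ∈ t)
    (hc : t.card ≤ s.card) : σ • s = t := by
  apply Finset.eq_of_subset_of_card_le
  · intro p hp
    rw [Finset.mem_smul_finset] at hp
    obtain ⟨q, hq, rfl⟩ := hp
    exact h q hq
  · rw [Finset.card_smul_finset]; exact hc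

/-- `M24` on pairs of disjoint triads. -/
theorem triad_pair {T U T' U' : Finset GolayPt} (hT : T.card = 3) (hU : U.card = 3) (hd : Disjoint T U)
    (hT' : T'.card = 3) (hU' : U'.card = 3) (hd' : Disjoint T' U')
    (h : (∃ o ∈ octads, T ∪ U ⊆ o) ↔ (∃ o ∈ octads, T' ∪ U' ⊆ o)) :
    ∃ σ ∈ M24, σ • T = T' ∧ σ • U = U' := by
  obtain ⟨x, hx, x1, x2, x3, x4⟩ := exists_enum hT hU hd
  obtain ⟨y, hy, y1, y2, y3, y4⟩ := exists_enum hT' hU' hd'
  have hxo := enum_octad x1 x2 x3 x4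
  have hyo := enum_octad y1 y2 y3 y4
  have key : ∃ σ ∈ M24, ∀ i : Fin 6, σ (x i) = y i := by
    by_cases ho : ∃ o ∈ octads, T ∪ U ⊆ o
    · exact six_in x y hx hy (hxo.2 ho) (hyo.2 (h.1 ho))
    · exact six_out x y hx hy (fun e => ho (hxo.1 e)) (fun e => ho (h.2 (hyo.1 e)))
  obtain ⟨σ, hσ, hi⟩ := key
  refine ⟨σ, hσ, smul_eq_of_maps (fun p hp => ?_) (by omega), smul_eq_of_maps (fun p hp => ?_) (by omega)⟩
  · obtain ⟨i, rfl⟩ := x3 p hp
    rw [hi]; exact y1 i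
  · obtain ⟨i, rfl⟩ := x4 p hp
    rw [hi]; exact y2 i

theorem ncard_triad_in {T : Finset GolayPt} (hT : T.card = 3) :
    {U : Finset GolayPt | U.card = 3 ∧ Disjoint T U ∧ (∃ o ∈ octads, T ∪ U ⊆ o)}.ncard = 210 := by
  classical
  have h : {U : Finset GolayPt | U.card = 3 ∧ Disjoint T U ∧ (∃ o ∈ octads, T ∪ U ⊆ o)} =
      ↑((octOver T).biUnion fun o => (o \ T).powersetCard 3) := by
    ext U
    simp only [Finset.coe_biUnion, Set.mem_iUnion, Finset.mem_coe, Finset.mem_powersetCard, octOver,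
      Finset.mem_filter, exists_prop]
    constructor
    · rintro ⟨h1, h2, o, ho, h3⟩
      refine ⟨o, ⟨?_, Finset.union_subset_left h3⟩, ?_, h1⟩
      · rw [← Finset.mem_coe, coe_octF]; exact ho
      · intro p hp
        rw [Finset.mem_sdiff]
        exact ⟨h3 (Finset.mem_union_right _ hp), fun h => Finset.disjoint_left.1 h2 h hp⟩
    · rintro ⟨o, ⟨h1, h2⟩, h3, h4⟩
      rw [← Finset.mem_coe, coe_octF] at h1
      refine ⟨h4, ?_, o, h1, Finset.union_subset h2 (h3.trans Finset.sdiff_subset)⟩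
      rw [Finset.disjoint_right]
      intro p hp
      exact (Finset.mem_sdiff.1 (h3 hp)).2
  rw [h, Set.ncard_coe_finset, Finset.card_biUnion]
  · rw [Finset.sum_congr rfl (g := fun _ => 10), Finset.sum_const, card_octOver_three hT]
    · rfl
    · intro o ho
      rw [octOver, Finset.mem_filter, ← Finset.mem_coe, coe_octF] at ho
      rw [Finset.card_powersetCard, Finset.card_sdiff_of_subset ho.2, card_octad ho.1, hT]
      rfl
  · intro o ho o' ho' hne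
    rw [Function.onFun, Finset.disjoint_left]
    intro U h1 h2
    apply hne
    simp only [Finset.mem_coe, octOver, Finset.mem_filter] at ho ho'
    rw [← Finset.mem_coe, coe_octF] at ho ho'
    rw [Finset.mem_powersetCard] at h1 h2
    have hd : Disjoint T U := by
      rw [Finset.disjoint_right]
      intro p hp
      exact (Finset.mem_sdiff.1 (h1.1 hp)).2
    refine octad_eq_of_subset ho.1 ho'.1 (s := T ∪ U)
      (Finset.union_subset ho.2 (h1.1.trans Finset.sdiff_subset))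
      (Finset.union_subset ho'.2 (h2.1.trans Finset.sdiff_subset)) ?_
    rw [Finset.card_union_of_disjoint hd, hT, h1.2]; norm_num

theorem ncard_triad_out {T : Finset GolayPt} (hT : T.card = 3) :
    {U : Finset GolayPt | U.card = 3 ∧ Disjoint T U ∧ ¬ (∃ o ∈ octads, T ∪ U ⊆ o)}.ncard = 1120 := by
  have h1 := ncard_subsets_inter hT 3 0 (by norm_num)
  have h2 : {t : Finset GolayPt | t.card = 3 ∧ (T ∩ t).card = 0} =
      {U : Finset GolayPt | U.card = 3 ∧ Disjoint T U ∧ (∃ o ∈ octads, T ∪ U ⊆ o)} ∪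
      {U : Finset GolayPt | U.card = 3 ∧ Disjoint T U ∧ ¬ (∃ o ∈ octads, T ∪ U ⊆ o)} := by
    ext U
    simp only [Set.mem_union, Set.mem_ofPred_eq, Finset.card_eq_zero,
      ← Finset.disjoint_iff_inter_eq_empty]
    by_cases h : ∃ o ∈ octads, T ∪ U ⊆ o
    · exact ⟨fun e => Or.inl ⟨e.1, e.2, h⟩, fun e => e.elim (fun e => ⟨e.1, e.2.1⟩) (fun e => ⟨e.1, e.2.1⟩)⟩
    · exact ⟨fun e => Or.inr ⟨e.1, e.2, h⟩, fun e => e.elim (fun e => ⟨e.1, e.2.1⟩) (fun e => ⟨e.1, e.2.1⟩)⟩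
  have h3 : Disjoint {U : Finset GolayPt | U.card = 3 ∧ Disjoint T U ∧ (∃ o ∈ octads, T ∪ U ⊆ o)}
      {U : Finset GolayPt | U.card = 3 ∧ Disjoint T U ∧ ¬ (∃ o ∈ octads, T ∪ U ⊆ o)} := by
    rw [Set.disjoint_left]
    rintro U ⟨_, _, h⟩ ⟨_, _, h'⟩
    exact h' h
  rw [h2, Set.ncard_union_eq h3 (Set.toFinite _) (Set.toFinite _), ncard_triad_in hT] at h1
  have h4 : Nat.choose 3 0 * Nat.choose (24 - 3) (3 - 0) = 1330 := by decide
  rw [h4] at h1
  omega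

end Cfsg.Agent.M24X
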