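import Cfsg.Agent.M24X.Cocode
import Cfsg.Agent.M24X.DodPair
import Cfsg.Agent.M24X.Triad

/-!
# Invariant subspaces of the permutation module of `M24` (owner: helper92)
-/

set_option autoImplicit false

namespace Cfsg.Agent.M24X

open Cfsg MulAction Cfsg.Agent.Golay Cfsg.Agent.Golay.Orb Cfsg.Agent.Golay.Coset
open scoped Pointwise

/-- an invariant family of sets closed under symmetric difference -/
structure InvFam (P : Finset GolayPt → Prop) : Prop where
  empty : P ∅
  symm : ∀ {s t}, P s → P t → P (symmDiff s t)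
  smul : ∀ {σ : Equiv.Perm GolayPt}, σ ∈ M24 → ∀ {s}, P s → P (σ • s)

variable {P : Finset GolayPt → Prop}

theorem InvFam.lin (h : InvFam P) (l : List ℕ) (hl : ∀ b ∈ l, P (ofMask b)) : ∀ n : ℕ, P (ofMask (lin l n)) := by
  induction l with
  | nil => intro n; simp only [Golay.lin, ofMask_zero]; exact h.empty
  | cons x xs ih =>
    intro n
    simp only [Golay.lin]
    rw [ofMask_xor]
    apply h.symm
    · split_ifs
      · exact hl x List.mem_cons_self
      · rw [ofMask_zero]; exact h.empty
    · exact ih (fun b hb => hl b (List.mem_cons_of_mem _ hb)) _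

theorem basis_octads : ∀ b ∈ codeBasis, inCode b = true ∧ pop b = 8 := by decide +kernel

theorem ofMask_octad {b : ℕ} (h : inCode b = true ∧ pop b = 8) : ofMask b ∈ octads := by
  rw [mem_octads_iff, maskOf_ofMask (inCode_lt h.1)]; exact h

/-- One octad generates the code. -/
theorem InvFam.of_octad (h : InvFam P) {o : Finset GolayPt} (ho : o ∈ octads) (hP : P o) :
    ∀ s ∈ codeSets, P s := by
  have hoct : ∀ o' ∈ octads, P o' := by
    intro o' ho'
    obtain ⟨σ, hσ, rfl⟩ := M24_octad_transitive ho ho'
    exact h.smul hσ hP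
  have hb : ∀ b ∈ codeBasis, P (ofMask b) := fun b hb => hoct _ (ofMask_octad (basis_octads b hb))
  intro s hs
  have h1 := mem_supports_iff.1 hs
  obtain ⟨n, -, hn⟩ := inCode_iff.1 h1
  rw [← ofMask_maskOf s, ← hn, enc_eq, ofMask_xor]
  exact h.symm (h.lin _ (fun b hb' => hb b (List.mem_of_mem_take hb')) _)
    (h.lin _ (fun b hb' => hb b (List.mem_of_mem_drop hb')) _)

theorem check15 : inCode 15777 = true ∧ pop 15777 = 8 ∧ inCode (340831 ^^^ 15777) = true ∧ pop (340831 ^^^ 15777) = 12 := by
  decide +kernel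

theorem InvFam.of_dodecad (h : InvFam P) {d : Finset GolayPt} (hd : d ∈ dodecads) (hP : P d) :
    ∀ s ∈ codeSets, P s := by
  have hdod : ∀ d' ∈ dodecads, P d' := by
    intro d' hd'
    obtain ⟨σ, hσ, rfl⟩ := M24_dodecad_transitive hd hd'
    exact h.smul hσ hP
  obtain ⟨h1, h2, h3, h4⟩ := check15
  have e1 : P (ofMask (340831 ^^^ 15777)) := by
    apply hdod
    rw [mem_dodecads_iff, maskOf_ofMask (inCode_lt h3)]; exact ⟨h3, h4⟩
  have e2 : P (ofMask 15777) := by
    have := h.symm (hdod d0 d0_mem) e1
    rwa [ofMask_xor, symmDiff_symmDiff_cancel_left] at this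
  exact h.of_octad (ofMask_octad ⟨h1, h2⟩) e2

theorem check52 : (inCode 5279 = true ∧ pop 5279 = 8) ∧ inCode (8536111 ^^^ 5279) = true ∧ pop (8536111 ^^^ 5279) = 8 := by
  decide +kernel

theorem compl_symmDiff_compl (a b : Finset GolayPt) : symmDiff aᶜ bᶜ = symmDiff a b := by
  ext x
  simp only [Finset.mem_symmDiff, Finset.mem_compl]
  tauto

theorem InvFam.of_sixteen (h : InvFam P) {s : Finset GolayPt} (hs : s ∈ codeSets) (h16 : s.card = 16) (hP : P s) :
    ∀ s ∈ codeSets, P s := by
  have ho : sᶜ ∈ octads := by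
    refine ⟨compl_mem_supports hs, ?_⟩
    rw [Finset.card_compl, h16]; rfl
  have hall : ∀ o ∈ octads, P oᶜ := by
    intro o' ho'
    obtain ⟨σ, hσ, rfl⟩ := M24_octad_transitive ho ho'
    rw [smul_compl, compl_compl]
    exact h.smul hσ hP
  obtain ⟨h1, h2, h3⟩ := check52
  have e1 := h.symm (hall _ O₀_mem) (hall _ (ofMask_octad h1))
  rw [compl_symmDiff_compl, ← ofMask_xor] at e1
  exact h.of_octad (ofMask_octad ⟨h2, h3⟩) e1

/-- A non-trivial code set generates the code. -/
theorem InvFam.of_code (h : InvFam P) {s : Finset GolayPt} (hs : s ∈ codeSets) (h0 : s ≠ ∅) (h1 : s ≠ Finset.univ)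
    (hP : P s) : ∀ s ∈ codeSets, P s := by
  rcases card_cases hs with h2 | h2 | h2 | h2 | h2
  · exact absurd (Finset.card_eq_zero.1 h2) h0
  · exact h.of_octad (mem_octads_of_card hs h2) hP
  · exact h.of_dodecad ⟨hs, h2⟩ hP
  · exact h.of_sixteen hs h2 hP
  · exfalso
    apply h1
    rw [← Finset.card_eq_iff_eq_univ, h2]; rfl

theorem map_pair {a b a' b' : GolayPt} (hab : a ≠ b) (hab' : a' ≠ b') :
    ∃ σ ∈ M24, σ a = a' ∧ σ b = b' := by
  obtain ⟨σ, hσ, h⟩ := exists_map_list (l := [a, b]) (l' := [a', b']) (by simp [hab]) (by simp [hab']) rfl (by simp)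
  simp only [List.map_cons, List.map_nil, List.cons.injEq, and_true] at h
  exact ⟨σ, hσ, h.1, h.2⟩

theorem smul_pair'' (σ : Equiv.Perm GolayPt) (a b : GolayPt) : σ • ({a, b} : Finset GolayPt) = {σ a, σ b} := by
  rw [Finset.smul_finset_insert, Finset.smul_finset_singleton]; rfl

/-- A pair generates the even sets. -/
theorem InvFam.of_pair (h : InvFam P) {a b : GolayPt} (hab : a ≠ b) (hP : P {a, b}) :
    ∀ s : Finset GolayPt, Even s.card → P s := by
  have hall : ∀ a b : GolayPt, a ≠ b → P {a, b} := by
    intro a' b' hab'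
    obtain ⟨σ, hσ, h1, h2⟩ := map_pair hab hab'
    have := h.smul hσ hP
    rwa [smul_pair'', h1, h2] at this
  suffices ∀ n, ∀ s : Finset GolayPt, s.card = n → Even s.card → P s from fun s hs => this _ s rfl hs
  intro n
  induction n using Nat.strong_induction_on with
  | _ n ih =>
    intro s hs he
    by_cases h0 : s.card = 0
    · rw [Finset.card_eq_zero] at h0
      rw [h0]; exact h.empty
    · have h2 : 1 < s.card := by
        rcases he with ⟨k, hk⟩; omega
      obtain ⟨a, b, ha, hb, hne⟩ := Finset.one_lt_card_iff.1 h2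
      have hsub : ({a, b} : Finset GolayPt) ⊆ s := by
        intro x hx
        rw [Finset.mem_insert, Finset.mem_singleton] at hx
        rcases hx with rfl | rfl <;> assumption
      have h3 := Finset.card_sdiff_add_card_eq_card hsub
      rw [Finset.card_pair hne] at h3
      have h4 : P (s \ {a, b}) := ih _ (by omega) _ rfl (by rcases he with ⟨k, hk⟩; exact ⟨k - 1, by omega⟩)
      have h5 := h.symm (hall a b hne) h4
      have h6 : symmDiff ({a, b} : Finset GolayPt) (s \ {a, b}) = s := by
        ext x
        simp only [Finset.mem_symmDiff, Finset.mem_sdiff]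
        have := @hsub x
        tauto
      rwa [h6] at h5

/-- Moving one point of a small set. -/
theorem move_point {t : Finset GolayPt} (ht0 : t.Nonempty) (ht4 : t.card ≤ 4) :
    ∃ σ ∈ M24, ∃ a b : GolayPt, a ≠ b ∧ symmDiff t (σ • t) = {a, b} := by
  obtain ⟨a, ha⟩ := ht0
  obtain ⟨b, hb⟩ : ∃ b, b ∉ t := by
    by_contra hcon
    push Not at hcon
    have : t = Finset.univ := Finset.eq_univ_iff_forall.2 hcon
    rw [this, Finset.card_univ, card_golayPt] at ht4
    omega
  have hab : a ≠ b := fun h => hb (h ▸ ha)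
  obtain ⟨σ, hσ, h⟩ := exists_map_list (l := a :: (t.erase a).toList) (l' := b :: (t.erase a).toList)
    (by
      rw [List.nodup_cons]
      exact ⟨by simp, Finset.nodup_toList _⟩)
    (by
      rw [List.nodup_cons]
      exact ⟨fun h => hb (Finset.mem_of_mem_erase (Finset.mem_toList.1 h)), Finset.nodup_toList _⟩) rfl (by
      rw [List.length_cons, Finset.length_toList, Finset.card_erase_of_mem ha]
      have := Finset.card_pos.2 ⟨a, ha⟩
      omega)
  rw [List.map_cons, List.cons.injEq] at h
  have hfix : ∀ x ∈ t.erase a, σ x = x := by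
    intro x hx
    have h1 : (t.erase a).toList.map σ = (t.erase a).toList.map id := by rw [h.2, List.map_id]
    exact List.map_inj_left.1 h1 x (Finset.mem_toList.2 hx)
  have hst : σ • t = insert b (t.erase a) := by
    apply smul_eq_of_maps
    · intro p hp
      by_cases hpa : p = a
      · rw [hpa, h.1]; exact Finset.mem_insert_self _ _
      · rw [hfix p (Finset.mem_erase.2 ⟨hpa, hp⟩)]
        exact Finset.mem_insert_of_mem (Finset.mem_erase.2 ⟨hpa, hp⟩)
    · rw [Finset.card_insert_of_notMem (fun h => hb (Finset.mem_of_mem_erase h)), Finset.card_erase_of_mem ha]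
      have := Finset.card_pos.2 ⟨a, ha⟩
      omega
  refine ⟨σ, hσ, a, b, hab, ?_⟩
  rw [hst]
  ext x
  simp only [Finset.mem_symmDiff, Finset.mem_insert, Finset.mem_erase, Finset.mem_singleton]
  by_cases h1 : x = a
  · subst h1
    simp [ha, hab]
  · by_cases h2 : x = b
    · subst h2
      simp [hb]
    · simp [h1, h2]

theorem card_stab_pair {a b : GolayPt} (hab : a ≠ b) : Nat.card (stabilizer M24 ({a, b} : Finset GolayPt)) = 887040 :=
  card_stab_of_orb (isOrb_subsets (a := 2) (by norm_num)) (x := ({a, b} : Finset GolayPt)) (Finset.card_pair hab)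
    (ncard_subsets 2) (by decide) (by decide)

/-- A member outside of the code gives all the even sets. -/
theorem InvFam.of_not_code (h : InvFam P) {v : Finset GolayPt} (hv : P v) (hvc : v ∉ codeSets) :
    ∀ s : Finset GolayPt, Even s.card → P s := by
  -- a member in the class of a pair
  obtain ⟨s, hs, a, b, hab, hc⟩ : ∃ s, P s ∧ ∃ a b : GolayPt, a ≠ b ∧ symmDiff s {a, b} ∈ codeSets := by
    obtain ⟨t, ht⟩ := near_nonempty v
    rw [mem_near] at ht
    have ht0 : t.Nonempty := by
      rw [Finset.nonempty_iff_ne_empty]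
      rintro rfl
      apply hvc
      have := ht.2
      rwa [show symmDiff v ∅ = v from symmDiff_bot v] at this
    obtain ⟨σ, hσ, a, b, hab, h1⟩ := move_point ht0 ht.1
    refine ⟨symmDiff v (σ • v), h.symm hv (h.smul hσ hv), a, b, hab, ?_⟩
    rw [← h1]
    have h2 := symmDiff_mem_supports ht.2 (smul_codeSets hσ ht.2)
    rw [Finset.smul_finset_symmDiff, symmDiff_symmDiff_symmDiff_comm] at h2
    exact h2
  suffices hpair : ∃ a b : GolayPt, a ≠ b ∧ P {a, b} by
    obtain ⟨a, b, hab, h1⟩ := hpair
    exact h.of_pair hab h1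
  set c := symmDiff s {a, b} with hcdef
  have hsc : s = symmDiff c {a, b} := by rw [hcdef, symmDiff_symmDiff_cancel_right]
  have hpc : ({a, b} : Finset GolayPt) = symmDiff s c := by
    rw [hcdef, ← symmDiff_assoc, symmDiff_self]
    exact (bot_symmDiff _).symm
  by_cases hK : ∀ g ∈ stabilizer M24 ({a, b} : Finset GolayPt), g ∈ stabilizer M24 (pairOf c)
  · -- `c` is trivial
    have hdvd := Subgroup.card_dvd_of_le (H := stabilizer M24 ({a, b} : Finset GolayPt)) (K := stabilizer M24 (pairOf c)) hK
    rw [card_stab_pair hab] at hdvd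
    have hoct : ∀ o ∈ octads, ¬ 887040 ∣ Nat.card (stabilizer M24 (pairOf o)) := by
      intro o ho
      have e : stabilizer M24 (pairOf o) = stabilizer M24 o := by
        ext g
        change (g : Equiv.Perm GolayPt) • pairOf o = pairOf o ↔ (g : Equiv.Perm GolayPt) • o = o
        rw [smul_pairOf, pairOf_eq_iff]
        constructor
        · rintro (h1 | h1)
          · exact h1
          · exfalso
            have h2 := congrArg Finset.card h1
            rw [Finset.card_smul_finset, Finset.card_compl, card_octad ho, card_golayPt] at h2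
            omega
        · exact fun h1 => Or.inl h1
      rw [e, Golay.Orb.card_stabilizer_octad ho]
      decide
    rcases card_cases hc with h2 | h2 | h2 | h2 | h2
    · rw [Finset.card_eq_zero] at h2
      refine ⟨a, b, hab, ?_⟩
      rw [hpc, h2, show symmDiff s ∅ = s from symmDiff_bot s]
      exact hs
    · exact absurd hdvd (hoct c (mem_octads_of_card hc h2))
    · exfalso
      have h3 : Nat.card (stabilizer M24 (pairOf c)) = 190080 :=
        card_stab_of_orb isOrb_dpairs (x := pairOf c) ⟨c, ⟨hc, h2⟩, rfl⟩ ncard_dpairs (by norm_num) (by norm_num)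
      rw [h3] at hdvd
      revert hdvd; decide
    · exfalso
      have h3 : cᶜ ∈ octads := by
        refine ⟨compl_mem_supports hc, ?_⟩
        rw [Finset.card_compl, h2]; rfl
      apply hoct _ h3
      rw [pairOf_compl]; exact hdvd
    · -- complement of a pair
      have h3 : c = Finset.univ := by rw [← Finset.card_eq_iff_eq_univ, h2]; rfl
      obtain ⟨σ, hσ, a', b', hab', h4⟩ := move_point (t := {a, b}) ⟨a, by simp⟩ (by rw [Finset.card_pair hab]; norm_num)
      refine ⟨a', b', hab', ?_⟩
      have h5 := h.symm hs (h.smul hσ hs)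
      rw [hsc, h3, Finset.smul_finset_symmDiff, Finset.smul_finset_univ, symmDiff_symmDiff_symmDiff_comm, symmDiff_self,
        h4] at h5
      rwa [show symmDiff (⊥ : Finset GolayPt) {a', b'} = {a', b'} from bot_symmDiff _] at h5
  · push Not at hK
    obtain ⟨g, hg, hgc⟩ := hK
    have hg' : (g : Equiv.Perm GolayPt) • ({a, b} : Finset GolayPt) = {a, b} := hg
    have h2 : symmDiff s ((g : Equiv.Perm GolayPt) • s) = symmDiff c ((g : Equiv.Perm GolayPt) • c) := by
      rw [hsc, Finset.smul_finset_symmDiff, hg', symmDiff_symmDiff_symmDiff_comm, symmDiff_self]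
      exact symmDiff_bot _
    have h3 : P (symmDiff c ((g : Equiv.Perm GolayPt) • c)) := by
      rw [← h2]; exact h.symm hs (h.smul g.2 hs)
    have h4 : symmDiff c ((g : Equiv.Perm GolayPt) • c) ∈ codeSets := symmDiff_mem_supports hc (smul_codeSets g.2 hc)
    have h5 := h.of_code h4 (by
      intro h6
      apply hgc
      change (g : Equiv.Perm GolayPt) • pairOf c = pairOf c
      rw [smul_pairOf, ← symmDiff_eq_empty h6]) (by
      intro h6
      apply hgc
      change (g : Equiv.Perm GolayPt) • pairOf c = pairOf c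
      rw [smul_pairOf, pairOf_eq_iff]
      right
      have h7 : symmDiff c (symmDiff c ((g : Equiv.Perm GolayPt) • c)) = symmDiff c Finset.univ := by rw [h6]
      rw [symmDiff_symmDiff_cancel_left] at h7
      rw [h7]
      ext x
      simp [Finset.mem_symmDiff]) h3 c hc
    refine ⟨a, b, hab, ?_⟩
    rw [hpc]
    exact h.symm hs h5

end Cfsg.Agent.M24X
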