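import Cfsg.Agent.M24X.L223
import Cfsg.Agent.M24X.OctAlt
import Cfsg.Agent.M24X.SextStab
import Cfsg.Agent.Golay.OrbThree
import Cfsg.Agent.M24X.Perm24

/-!
# Subgroups of `M24` of small index (owner: helper92)
-/

set_option autoImplicit false

namespace Cfsg.Agent.M24X.Idx

open Cfsg MulAction Cfsg.Agent.Golay Cfsg.Agent.Golay.Orb Cfsg.Agent.M24X Cfsg.Agent.M24X.L223
open scoped Pointwise

theorem fix3 {g : M24} (h : orderOf g = 3) : (fixF g).card = 6 ∨ (fixF g).card = 0 := by
  have h0 : g ^ 3 = 1 := by rw [← h]; exact pow_orderOf_eq_one g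
  have h3 : (g : Equiv.Perm GolayPt) ^ 3 = 1 := congrArg Subtype.val h0
  have hne : (g : Equiv.Perm GolayPt) ≠ 1 := by
    intro h'
    have : g = 1 := Subtype.ext h'
    rw [this, orderOf_one] at h
    omega
  obtain ⟨x, hx, h1 | h1⟩ := three_classify g.2 h3 hne
  · left
    have h2 := fixCount_spec h1
    rw [fixCount_conj, fixCount_tab36] at h2
    exact h2
  · right
    have h2 := fixCount_spec h1
    rw [fixCount_conj, fixCount_tab30] at h2
    exact h2

theorem fix2 {g : M24} (h : orderOf g = 2) : (fixF g).card = 8 ∨ (fixF g).card = 0 := by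
  apply fixF_inv
  · rw [← sq, ← h]; exact pow_orderOf_eq_one g
  · rintro rfl; rw [orderOf_one] at h; omega

theorem primes_M24 {r : ℕ} (hr : r.Prime) (h : r ∣ 244823040) :
    r = 2 ∨ r = 3 ∨ r = 5 ∨ r = 7 ∨ r = 11 ∨ r = 23 := by
  have h1 : (244823040 : ℕ) = 2 ^ 10 * 3 ^ 3 * 5 * 7 * 11 * 23 := by norm_num
  rw [h1] at h
  rcases (Nat.Prime.dvd_mul hr).1 h with h | h
  · rcases (Nat.Prime.dvd_mul hr).1 h with h | h
    · rcases (Nat.Prime.dvd_mul hr).1 h with h | h
      · rcases (Nat.Prime.dvd_mul hr).1 h with h | h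
        · rcases (Nat.Prime.dvd_mul hr).1 h with h | h
          · left; exact (Nat.prime_dvd_prime_iff_eq hr Nat.prime_two).1 (hr.dvd_of_dvd_pow h)
          · right; left; exact (Nat.prime_dvd_prime_iff_eq hr Nat.prime_three).1 (hr.dvd_of_dvd_pow h)
        · right; right; left; exact (Nat.prime_dvd_prime_iff_eq hr (by norm_num)).1 h
      · right; right; right; left; exact (Nat.prime_dvd_prime_iff_eq hr (by norm_num)).1 h
    · right; right; right; right; left; exact (Nat.prime_dvd_prime_iff_eq hr (by norm_num)).1 h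
  · right; right; right; right; right; exact (Nat.prime_dvd_prime_iff_eq hr (by norm_num)).1 h

theorem card_sub_dvd (J : Subgroup M24) : Nat.card J ∣ 244823040 := by
  rw [← card_M24x]
  exact Subgroup.card_subgroup_dvd_card J

/-- a group of elements commuting with `c`, without elements of other prime orders -/
theorem cent_prime {C : Subgroup M24} {c : M24} {p : ℕ} (hp : p.Prime) (hc : orderOf c = p) (hcC : c ∈ C)
    (h2 : ¬ p ^ 2 ∣ 244823040) (hr : ∀ r : ℕ, r.Prime → r ≠ p → ∀ g ∈ C, orderOf g ≠ r) :
    C = Subgroup.zpowers c := by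
  have h1 : ∀ {r : ℕ}, r.Prime → r ∣ Nat.card C → r = p := by
    intro r hrp hd
    obtain ⟨g, hg, ho⟩ := exists_order hrp hd
    by_contra hne
    exact hr r hrp hne g hg ho
  have h3 := Nat.eq_prime_pow_of_unique_prime_dvd (Nat.card_pos (α := C)).ne' h1
  set k := (Nat.card C).primeFactorsList.length with hk
  have h4 : k ≤ 1 := by
    by_contra hn
    apply h2
    refine (pow_dvd_pow p (by omega : 2 ≤ k)).trans ?_
    rw [← h3]
    exact card_sub_dvd C
  symm
  apply Subgroup.eq_of_le_of_card_ge (Subgroup.zpowers_le.2 hcC)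
  rw [Nat.card_zpowers, hc, h3]
  calc p ^ k ≤ p ^ 1 := Nat.pow_le_pow_right hp.pos h4
    _ = p := pow_one p

/-- fixed points of two commuting elements -/
theorem pair {g c : M24} {p : ℕ} (hp : p.Prime) (hc : orderOf c = p) (hg : g * c = c * g) :
    (fixF g).card % p = (fixF g ∩ fixF c).card % p :=
  modEq_fixF hp hc (fun _ hy => (comm_fixF hg.symm).2 hy)

/-- elements commuting with `c` of order 5 and fixing two of its fixed points -/
theorem cent5 {C : Subgroup M24} {c : M24} (hc : orderOf c = 5) (hcC : c ∈ C)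
    (hC : ∀ g ∈ C, g * c = c * g) {u v : GolayPt} (huv : u ≠ v) (hu : ∀ g ∈ C, g • u = u)
    (hv : ∀ g ∈ C, g • v = v) : C = Subgroup.zpowers c := by
  apply cent_prime Nat.prime_five hc hcC (by norm_num)
  intro r hr hr5 g hg ho
  have hcomm := hC g hg
  have h1 := pair Nat.prime_five hc hcomm
  have h2 := pair hr ho hcomm.symm
  rw [Finset.inter_comm, fix5 hc] at h2
  have h3 : 2 ≤ (fixF g ∩ fixF c).card := by
    rw [← Finset.card_pair huv]
    apply Finset.card_le_card
    intro w hw
    rw [Finset.mem_insert, Finset.mem_singleton] at hw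
    rw [Finset.mem_inter, mem_fixF, mem_fixF]
    rcases hw with rfl | rfl
    · exact ⟨hu g hg, hu c hcC⟩
    · exact ⟨hv g hg, hv c hcC⟩
  have h4 : (fixF g ∩ fixF c).card ≤ 4 := by
    rw [← fix5 hc]
    exact Finset.card_le_card Finset.inter_subset_right
  have h5 : (fixF g ∩ fixF c).card ≤ (fixF g).card := Finset.card_le_card Finset.inter_subset_left
  have h6 : orderOf g ∣ 244823040 := by
    rw [← card_M24x]
    exact orderOf_dvd_natCard g
  rw [ho] at h6
  rcases primes_M24 hr h6 with rfl | rfl | rfl | rfl | rfl | rfl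
  · rcases fix2 ho with h | h <;> omega
  · rcases fix3 ho with h | h <;> omega
  · exact hr5 rfl
  · have := fix7 ho; omega
  · have := fix11 ho; omega
  · have := fix23 ho; omega

/-- elements commuting with `c` of order 7 and fixing its fixed points -/
theorem cent7 {C : Subgroup M24} {c : M24} (hc : orderOf c = 7) (hcC : c ∈ C)
    (hC : ∀ g ∈ C, g * c = c * g) (hfix : C ≤ FX (fixF c)) : C = Subgroup.zpowers c := by
  apply cent_prime (by norm_num) hc hcC (by norm_num)
  intro r hr hr7 g hg ho
  have hcomm := hC g hg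
  have h1 := pair (by norm_num) hc hcomm
  have h3 : fixF g ∩ fixF c = fixF c := by
    apply Finset.inter_eq_right.2
    intro w hw
    exact mem_fixF.2 (hfix hg w hw)
  rw [h3, fix7 hc] at h1
  have h5 : (fixF c).card ≤ (fixF g).card := by
    rw [← h3]
    exact Finset.card_le_card Finset.inter_subset_left
  rw [fix7 hc] at h5
  have h6 : orderOf g ∣ 244823040 := by
    rw [← card_M24x]
    exact orderOf_dvd_natCard g
  rw [ho] at h6
  rcases primes_M24 hr h6 with rfl | rfl | rfl | rfl | rfl | rfl
  · rcases fix2 ho with h | h <;> omega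
  · rcases fix3 ho with h | h <;> omega
  · have := fix5 ho; omega
  · exact hr7 rfl
  · have := fix11 ho; omega
  · have := fix23 ho; omega

/-- the elements of `J` commuting with `c` -/
def CJ (J : Subgroup M24) (c : M24) : Subgroup M24 := J ⊓ Subgroup.centralizer {c}

theorem mem_CJ {J : Subgroup M24} {c g : M24} : g ∈ CJ J c ↔ g ∈ J ∧ g * c = c * g := by
  unfold CJ
  rw [Subgroup.mem_inf, Subgroup.mem_centralizer_singleton_iff]

/-- Sylow count for the prime 5 -/
theorem syl5 {J : Subgroup M24} {c : M24} (hcJ : c ∈ J) (hc : orderOf c = 5) {u v : GolayPt} (huv : u ≠ v)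
    (h : ∀ g ∈ J, g * c = c * g → g • u = u ∧ g • v = v) :
    ∃ k n, Nat.card J = 5 * k * n ∧ k ∣ 4 ∧ n % 5 = 1 := by
  obtain ⟨n, hn, hn1⟩ := rel_sylow (J := J) Nat.prime_five hcJ hc
    (fun h => absurd (h.trans (card_sub_dvd J)) (by norm_num))
  have hCJ : CJ J c = Subgroup.zpowers c :=
    cent5 hc (mem_CJ.2 ⟨hcJ, rfl⟩) (fun g hg => (mem_CJ.1 hg).2) huv
      (fun g hg => (h g (mem_CJ.1 hg).1 (mem_CJ.1 hg).2).1) (fun g hg => (h g (mem_CJ.1 hg).1 (mem_CJ.1 hg).2).2)
  obtain ⟨k, hk, hkd⟩ := card_norm (N := Subgroup.normalizer (Subgroup.zpowers c : Set M24) ⊓ J)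
    Nat.prime_five hc inf_le_left ⟨Subgroup.le_normalizer (Subgroup.mem_zpowers c), hcJ⟩
    (fun g hg hgc => by rw [← hCJ]; exact mem_CJ.2 ⟨hg.2, hgc⟩)
  exact ⟨k, n, by rw [← hn, hk], hkd, hn1⟩

theorem norm_fixF {g c : M24} (hg : g ∈ Subgroup.normalizer (Subgroup.zpowers c : Set M24)) {y : GolayPt}
    (hy : y ∈ fixF c) : g • y ∈ fixF c := by
  have hg' := inv_mem hg
  have h1 : g⁻¹ * c * g⁻¹⁻¹ ∈ Subgroup.zpowers c :=
    (Subgroup.mem_normalizer_iff.1 hg' c).1 (Subgroup.mem_zpowers c)
  rw [inv_inv] at h1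
  have h2 : (g⁻¹ * c * g) ∈ stabilizer M24 y := by
    obtain ⟨i, hi⟩ := Subgroup.mem_zpowers_iff.1 h1
    rw [← hi]
    exact zpow_mem (mem_fixF.1 hy) i
  have h3 : (g⁻¹ * c * g) • y = y := h2
  rw [mem_fixF]
  rw [mul_assoc, mul_smul, inv_smul_eq_iff, mul_smul] at h3
  exact h3

/-- Sylow count for the prime 7 -/
theorem syl7 {J : Subgroup M24} {c : M24} (hcJ : c ∈ J) (hc : orderOf c = 7)
    (h : ∀ g ∈ J, g ∈ Subgroup.normalizer (Subgroup.zpowers c : Set M24) → g ∈ FX (fixF c)) :
    ∃ k n, Nat.card J = 7 * k * n ∧ k ∣ 3 ∧ n % 7 = 1 := by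
  have h7 : Nat.Prime 7 := by norm_num
  -- the case of the pointwise stabiliser
  have hcF : c ∈ FX (fixF c) := mem_FX_fixF c
  have hF : Nat.card (FX (fixF c)) = 20160 := card_FX3 (fix7 hc)
  obtain ⟨n', hn', hn1'⟩ := rel_sylow (J := FX (fixF c)) h7 hcF hc (by rw [hF]; norm_num)
  have hC1 : CJ (FX (fixF c)) c = Subgroup.zpowers c :=
    cent7 hc (mem_CJ.2 ⟨hcF, rfl⟩) (fun g hg => (mem_CJ.1 hg).2) (fun g hg => (mem_CJ.1 hg).1)
  obtain ⟨k', hk', hkd'⟩ := card_norm (N := Subgroup.normalizer (Subgroup.zpowers c : Set M24) ⊓ FX (fixF c))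
    h7 hc inf_le_left ⟨Subgroup.le_normalizer (Subgroup.mem_zpowers c), hcF⟩
    (fun g hg hgc => by rw [← hC1]; exact mem_CJ.2 ⟨hg.2, hgc⟩)
  have hk3 : k' = 3 := by
    rw [hk', hF] at hn'
    have h1 : k' * n' = 2880 := by
      have : 7 * (k' * n') = 7 * 2880 := by rw [← mul_assoc, hn']
      exact Nat.eq_of_mul_eq_mul_left (by norm_num) this
    have h2 : k' * n' % 7 = k' % 7 := by
      have := (Nat.ModEq.refl (n := 7) k').mul hn1'
      rw [mul_one] at this
      exact this
    rw [h1] at h2
    have h3 : k' ≤ 6 := Nat.le_of_dvd (by norm_num) hkd'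
    omega
  obtain ⟨n, hn, hn1⟩ := rel_sylow (J := J) h7 hcJ hc
    (fun h => absurd (h.trans (card_sub_dvd J)) (by norm_num))
  have hle : Subgroup.normalizer (Subgroup.zpowers c : Set M24) ⊓ J ≤
      Subgroup.normalizer (Subgroup.zpowers c : Set M24) ⊓ FX (fixF c) :=
    le_inf inf_le_left (fun g hg => h g hg.2 hg.1)
  obtain ⟨k, hk, -⟩ := card_norm (N := Subgroup.normalizer (Subgroup.zpowers c : Set M24) ⊓ J)
    h7 hc inf_le_left ⟨Subgroup.le_normalizer (Subgroup.mem_zpowers c), hcJ⟩
    (fun g hg hgc => by rw [← hC1]; exact mem_CJ.2 ⟨h g hg.2 hg.1, hgc⟩)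
  refine ⟨k, n, by rw [← hn, hk], ?_, hn1⟩
  have h5 := Subgroup.card_dvd_of_le hle
  rw [hk, hk', hk3] at h5
  exact Nat.dvd_of_mul_dvd_mul_left (by norm_num) h5

theorem stab_eq_FX (x : GolayPt) : stabilizer M24 x = FX {x} := by
  ext g
  rw [mem_FX, mem_stabilizer_iff]
  simp

theorem orb8 {H : Subgroup M24} (h : 1024 ∣ Nat.card H) (x : GolayPt) : 8 ∣ (orb H x).card := by
  have h1 := orb_mul H x
  have h2 : Nat.card (H ⊓ stabilizer M24 x : Subgroup M24) ∣ 10200960 := by
    rw [← card_FX1 (Finset.card_singleton x), ← stab_eq_FX]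
    exact Subgroup.card_dvd_of_le inf_le_right
  obtain ⟨q, hq⟩ := h
  obtain ⟨m', hm'⟩ := h2
  set n := (orb H x).card
  set m := Nat.card (H ⊓ stabilizer M24 x : Subgroup M24)
  have h3 : n * 79695 = 8 * (q * m') := by
    have h4 : 128 * (n * 79695) = 128 * (8 * (q * m')) := by
      calc 128 * (n * 79695) = n * 10200960 := by ring
        _ = n * (m * m') := by rw [hm']
        _ = (n * m) * m' := by ring
        _ = (1024 * q) * m' := by rw [h1, hq]
        _ = 128 * (8 * (q * m')) := by ring
    exact Nat.eq_of_mul_eq_mul_left (by norm_num) h4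
  exact (Nat.Coprime.dvd_mul_right (by norm_num : Nat.Coprime 8 79695)).1 ⟨_, h3⟩

theorem eight_or_trans {H : Subgroup M24} (h : 1024 ∣ Nat.card H) :
    (∃ x, (orb H x).card = 8) ∨ ∀ x, orb H x = Finset.univ := by
  have hle : ∀ x, (orb H x).card ≤ 24 := fun x => by
    have := Finset.card_le_univ (orb H x)
    rwa [card_golayPt] at this
  by_cases h24 : ∀ x, (orb H x).card = 24
  · right
    intro x
    apply Finset.eq_of_subset_of_card_le (Finset.subset_univ _)
    rw [h24 x, card_univ24]
  · left
    push Not at h24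
    obtain ⟨x, hx⟩ := h24
    have h1 := orb8 h x
    have h2 := hle x
    have h3 := orb_pos H x
    by_cases h8 : (orb H x).card = 8
    · exact ⟨x, h8⟩
    have h16 : (orb H x).card = 16 := by omega
    obtain ⟨y, -, hy, hy2⟩ := exists_second (J := H) (s := ∅) (fun g _ p hp => absurd hp (by simp))
      (y := x) (by simp) (by rw [h16]; simp)
    refine ⟨y, ?_⟩
    have h4 := orb8 h y
    have h5 := orb_pos H y
    rw [Finset.card_empty] at hy2
    omega

/-- an orbit of length 8 of a group whose order does not divide `8!` -/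
theorem octad_orb {H : Subgroup M24} {x : GolayPt} (h8 : (orb H x).card = 8) (hn : ¬ Nat.card H ∣ 40320) :
    orb H x ∈ octads ∧ H ≤ stabilizer M24 (orb H x) := by
  refine ⟨?_, fun g hg => smul_eq_of_inv (orb_inv H x) hg⟩
  obtain ⟨k, hk, hkd, -⟩ := card_kernel (orb_inv H x)
  have hne : H ⊓ FX (orb H x) ≠ ⊥ := by
    intro h1
    rw [h1, Subgroup.card_bot, mul_one] at hk
    apply hn
    rw [hk]
    rw [h8] at hkd
    exact hkd
  obtain ⟨⟨g, hg⟩, hg0⟩ := (Subgroup.ne_bot_iff_exists_ne_one).1 hne
  have hg1 : g ≠ 1 := fun h' => hg0 (Subtype.ext h')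
  obtain ⟨o, ho, hso⟩ := octad_of_fix (by omega) hg.2 hg1
  have : orb H x = o := Finset.eq_of_subset_of_card_le hso (by rw [card_octad ho, h8])
  rw [this]
  exact ho

/-! ### index 759 -/

theorem idx759 {H : Subgroup M24} (hH : Nat.card H = 322560) : ∃ o ∈ octads, H = stabilizer M24 o := by
  rcases eight_or_trans (H := H) (by rw [hH]; norm_num) with ⟨x, hx⟩ | ht
  · obtain ⟨h1, h2⟩ := octad_orb hx (by rw [hH]; norm_num)
    refine ⟨_, h1, Subgroup.eq_of_le_of_card_ge h2 ?_⟩
    rw [hH, Orb.card_stabilizer_octad h1]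
  exfalso
  obtain ⟨x⟩ : Nonempty GolayPt := ⟨none⟩
  set J := H ⊓ stabilizer M24 x with hJ
  have hJc : Nat.card J = 13440 := by
    have h1 := orb_mul H x
    rw [ht x, card_univ24, hH, ← hJ] at h1
    omega
  have hJx : J ≤ FX {x} := by rw [← stab_eq_FX]; exact inf_le_right
  have hfixx : ∀ g ∈ J, g • x = x := fun g hg => hg.2
  obtain ⟨c, hcJ, hc⟩ := exists_order (J := J) Nat.prime_five (by rw [hJc]; norm_num)
  have hcx : x ∈ fixF c := mem_fixF.2 (hfixx c hcJ)
  -- orbits with exactly one fixed point are impossible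
  have key : ∀ v, v ≠ x → (orb J v).card % 5 ≠ 1 := by
    intro v hv h1
    obtain ⟨w, hw⟩ : ∃ w, orb J v ∩ fixF c = {w} := by
      apply Finset.card_eq_one.1
      have h2 : (orb J v).card % 5 = (orb J v ∩ fixF c).card % 5 := modEq_orb Nat.prime_five hcJ hc v
      have h3 : (orb J v ∩ fixF c).card ≤ 4 := by
        rw [← fix5 hc]
        exact Finset.card_le_card Finset.inter_subset_right
      omega
    have hwm : w ∈ orb J v ∩ fixF c := by rw [hw]; exact Finset.mem_singleton_self w
    have hwx : x ≠ w := by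
      rintro rfl
      have h2 := orb_out hJx (show v ∉ ({x} : Finset GolayPt) by simpa using hv) (Finset.mem_inter.1 hwm).1
      simp at h2
    obtain ⟨k, n, h2, h3, h4⟩ := syl5 hcJ hc hwx (fun g hg hgc => ⟨hfixx g hg, by
      have h5 : g • w ∈ orb J v ∩ fixF c :=
        Finset.mem_inter.2 ⟨smul_mem_orb hg (Finset.mem_inter.1 hwm).1,
          (comm_fixF hgc).2 (Finset.mem_inter.1 hwm).2⟩
      rw [hw, Finset.mem_singleton] at h5
      exact h5⟩)
    rw [hJc] at h2
    have h5 : k * n = 2688 := by
      have : 5 * (k * n) = 5 * 2688 := by rw [← mul_assoc, ← h2]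
      exact Nat.eq_of_mul_eq_mul_left (by norm_num) this
    have h6 : k * n % 5 = k % 5 := by
      rw [Nat.mul_mod, h4, mul_one, Nat.mod_mod]
    rw [h5] at h6
    have h7 : k ≤ 4 := Nat.le_of_dvd (by norm_num) h3
    have h8 : k = 3 := by omega
    rw [h8] at h3
    omega
  have hsz : ∀ v, v ≠ x → (orb J v).card ∣ 13440 ∧ (orb J v).card % 7 ≤ 2 ∧ (orb J v).card % 5 ≤ 3 ∧
      (orb J v).card ≤ 23 ∧ 0 < (orb J v).card := by
    intro v hv
    have hv' : v ∉ ({x} : Finset GolayPt) := by simpa using hv
    have h1 := orb_res7 hJx (by rw [hJc]; norm_num) hv'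
    have h2 := orb_res5 hJx (by rw [hJc]; norm_num) hv'
    have h3 := orb_le hJx hv'
    have h4 := orb_dvd J v
    rw [hJc] at h4
    rw [Finset.card_singleton] at h1 h2 h3
    exact ⟨h4, h1, h2, by omega, orb_pos J v⟩
  -- the orbit of a fixed point of `c`
  have hvals : ∀ n : ℕ, n ∣ 13440 → n % 7 ≤ 2 → n % 5 ≤ 3 → n ≤ 23 → 0 < n → n % 5 ≠ 1 →
      n % 5 ≠ 0 → n = 2 ∨ n = 7 ∨ n = 8 := by
    intro n h1 h2 h3 h4 h5
    interval_cases n <;> omega
  have h4 := fix5 hc
  have hpos : ∀ v ∈ fixF c, v ≠ x → (orb J v).card = 8 := by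
    intro v hv hvx
    have h0 : (orb J v).card % 5 = (orb J v ∩ fixF c).card % 5 := modEq_orb Nat.prime_five hcJ hc v
    have h1 : 0 < (orb J v ∩ fixF c).card := Finset.card_pos.2 ⟨v, Finset.mem_inter.2 ⟨self_mem_orb J v, hv⟩⟩
    have h2 : (orb J v ∩ fixF c).card ≤ 3 := by
      have h3 : orb J v ∩ fixF c ⊆ (fixF c).erase x := by
        intro w hw
        rw [Finset.mem_inter] at hw
        refine Finset.mem_erase.2 ⟨?_, hw.2⟩
        rintro rfl
        have h5 := orb_out hJx (show v ∉ ({w} : Finset GolayPt) by simpa using hvx) hw.1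
        simp at h5
      have h5 := Finset.card_le_card h3
      rw [Finset.card_erase_of_mem hcx, h4] at h5
      exact h5
    obtain ⟨a1, a2, a3, a4, a5⟩ := hsz v hvx
    have hk := key v hvx
    rcases hvals _ a1 a2 a3 a4 a5 hk (by omega) with h | h | h
    · exfalso
      -- two fixed points in this orbit, hence one other
      have h5 : (orb J v ∩ fixF c).card = 2 := by rw [h] at h0; omega
      obtain ⟨w, hw⟩ : ∃ w, w ∈ (fixF c).erase x \ (orb J v ∩ fixF c) := by
        apply Finset.card_pos.1
        have h6 := Finset.le_card_sdiff (orb J v ∩ fixF c) ((fixF c).erase x)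
        rw [Finset.card_erase_of_mem hcx, h4, h5] at h6
        omega
      rw [Finset.mem_sdiff, Finset.mem_erase, Finset.mem_inter, not_and'] at hw
      have hwv : w ∉ orb J v := hw.2 hw.1.2
      have h7 : (orb J w ∩ fixF c).card = 1 := by
        apply le_antisymm
        · have h8 : (orb J v ∩ fixF c) ∪ (orb J w ∩ fixF c) ⊆ (fixF c).erase x := by
            intro z hz
            rcases Finset.mem_union.1 hz with hz | hz <;> rw [Finset.mem_inter] at hz <;>
              refine Finset.mem_erase.2 ⟨?_, hz.2⟩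
            · rintro rfl
              have h5 := orb_out hJx (show v ∉ ({z} : Finset GolayPt) by simpa using hvx) hz.1
              simp at h5
            · rintro rfl
              have h5 := orb_out hJx (show w ∉ ({z} : Finset GolayPt) by simpa using hw.1.1) hz.1
              simp at h5
          have h9 : Disjoint (orb J v ∩ fixF c) (orb J w ∩ fixF c) :=
            (orb_disj hwv).mono Finset.inter_subset_left Finset.inter_subset_left
          have h10 := Finset.card_le_card h8
          rw [Finset.card_union_of_disjoint h9, Finset.card_erase_of_mem hcx, h4, h5] at h10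
          omega
        · exact Finset.card_pos.2 ⟨w, Finset.mem_inter.2 ⟨self_mem_orb J w, hw.1.2⟩⟩
      apply key w hw.1.1
      have h8 : (orb J w).card % 5 = (orb J w ∩ fixF c).card % 5 := modEq_orb Nat.prime_five hcJ hc w
      rw [h8, h7]
    · exfalso
      have h5 : (orb J v ∩ fixF c).card = 2 := by rw [h] at h0; omega
      obtain ⟨w, hw⟩ : ∃ w, w ∈ (fixF c).erase x \ (orb J v ∩ fixF c) := by
        apply Finset.card_pos.1
        have h6 := Finset.le_card_sdiff (orb J v ∩ fixF c) ((fixF c).erase x)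
        rw [Finset.card_erase_of_mem hcx, h4, h5] at h6
        omega
      rw [Finset.mem_sdiff, Finset.mem_erase, Finset.mem_inter, not_and'] at hw
      have hwv : w ∉ orb J v := hw.2 hw.1.2
      have h7 : (orb J w ∩ fixF c).card = 1 := by
        apply le_antisymm
        · have h8 : (orb J v ∩ fixF c) ∪ (orb J w ∩ fixF c) ⊆ (fixF c).erase x := by
            intro z hz
            rcases Finset.mem_union.1 hz with hz | hz <;> rw [Finset.mem_inter] at hz <;>
              refine Finset.mem_erase.2 ⟨?_, hz.2⟩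
            · rintro rfl
              have h5 := orb_out hJx (show v ∉ ({z} : Finset GolayPt) by simpa using hvx) hz.1
              simp at h5
            · rintro rfl
              have h5 := orb_out hJx (show w ∉ ({z} : Finset GolayPt) by simpa using hw.1.1) hz.1
              simp at h5
          have h9 : Disjoint (orb J v ∩ fixF c) (orb J w ∩ fixF c) :=
            (orb_disj hwv).mono Finset.inter_subset_left Finset.inter_subset_left
          have h10 := Finset.card_le_card h8
          rw [Finset.card_union_of_disjoint h9, Finset.card_erase_of_mem hcx, h4, h5] at h10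
          omega
        · exact Finset.card_pos.2 ⟨w, Finset.mem_inter.2 ⟨self_mem_orb J w, hw.1.2⟩⟩
      apply key w hw.1.1
      have h8 : (orb J w).card % 5 = (orb J w ∩ fixF c).card % 5 := modEq_orb Nat.prime_five hcJ hc w
      rw [h8, h7]
    · exact h
  obtain ⟨v, hv⟩ : ∃ v, v ∈ (fixF c).erase x := by
    apply Finset.card_pos.1
    rw [Finset.card_erase_of_mem hcx, h4]
    norm_num
  rw [Finset.mem_erase] at hv
  have h8 := hpos v hv.2 hv.1
  -- the prime 7
  obtain ⟨d, hdJ, hd⟩ := exists_order (J := J) (by norm_num : Nat.Prime 7) (by rw [hJc]; norm_num)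
  have hdx : x ∈ fixF d := mem_fixF.2 (hfixx d hdJ)
  have h7 := fix7 hd
  have hxv : x ∉ orb J v := by
    intro h5
    have h6 := orb_out hJx (show v ∉ ({x} : Finset GolayPt) by simpa using hv.1) h5
    simp at h6
  obtain ⟨y, hy⟩ : ∃ y, orb J v ∩ fixF d = {y} := by
    apply Finset.card_eq_one.1
    have h2 : (orb J v).card % 7 = (orb J v ∩ fixF d).card % 7 := modEq_orb (by norm_num) hdJ hd v
    have h3 : (orb J v ∩ fixF d).card ≤ 3 := by
      rw [← h7]
      exact Finset.card_le_card Finset.inter_subset_right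
    rw [h8] at h2
    omega
  have hym : y ∈ orb J v ∩ fixF d := by rw [hy]; exact Finset.mem_singleton_self y
  have hyx : y ≠ x := by rintro rfl; exact hxv (Finset.mem_inter.1 hym).1
  obtain ⟨k, n, h2, h3, h5⟩ := syl7 hdJ hd (fun g hg hgn => by
    have hgy : g • y = y := by
      have h9 : g • y ∈ orb J v ∩ fixF d :=
        Finset.mem_inter.2 ⟨smul_mem_orb hg (Finset.mem_inter.1 hym).1, norm_fixF hgn (Finset.mem_inter.1 hym).2⟩
      rw [hy, Finset.mem_singleton] at h9
      exact h9
    have hgx := hfixx g hg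
    intro p hp
    by_cases hpx : p = x
    · rw [hpx]; exact hgx
    by_cases hpy : p = y
    · rw [hpy]; exact hgy
    have h10 : fixF d = {p, x, y} := by
      symm
      apply Finset.eq_of_subset_of_card_le
      · intro z hz
        rw [Finset.mem_insert, Finset.mem_insert, Finset.mem_singleton] at hz
        rcases hz with rfl | rfl | rfl
        · exact hp
        · exact hdx
        · exact (Finset.mem_inter.1 hym).2
      · rw [h7, Finset.card_insert_of_notMem (by simp [hpx, hpy]), Finset.card_pair hyx.symm]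
    have h11 := norm_fixF hgn hp
    rw [h10, Finset.mem_insert, Finset.mem_insert, Finset.mem_singleton] at h11
    rcases h11 with h11 | h11 | h11
    · exact h11
    · rw [← hgx] at h11; exact absurd (smul_left_cancel _ h11) hpx
    · rw [← hgy] at h11; exact absurd (smul_left_cancel _ h11) hpy)
  rw [hJc] at h2
  have h9 : k * n = 1920 := by
    have : 7 * (k * n) = 7 * 1920 := by rw [← mul_assoc, ← h2]
    exact Nat.eq_of_mul_eq_mul_left (by norm_num) this
  have h10 : k * n % 7 = k % 7 := by
    rw [Nat.mul_mod, h5, mul_one, Nat.mod_mod]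
  rw [h9] at h10
  have h11 : k ≤ 3 := Nat.le_of_dvd (by norm_num) h3
  have h12 : k = 2 := by omega
  rw [h12] at h3
  omega

/-! ### index 276 -/

theorem idx276 {H : Subgroup M24} (hH : Nat.card H = 887040) :
    ∃ s : Finset GolayPt, s.card = 2 ∧ H = stabilizer M24 s := by
  have hduad : ∀ x, (orb H x).card = 2 → ∃ s : Finset GolayPt, s.card = 2 ∧ H = stabilizer M24 s := by
    intro x hx
    refine ⟨_, hx, Subgroup.eq_of_le_of_card_ge (fun g hg => smul_eq_of_inv (orb_inv H x) hg) ?_⟩
    obtain ⟨a, b, hab, he⟩ := Finset.card_eq_two.1 hx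
    rw [hH, he, card_stab_pair hab]
  have hE : H ≤ FX ∅ := fun g _ p hp => absurd hp (by simp)
  have hsz : ∀ v, 2 ∣ (orb H v).card ∧ (orb H v).card ∣ 887040 ∧ (orb H v).card % 11 ≤ 2 ∧
      (orb H v).card % 7 ≤ 3 ∧ (orb H v).card ≤ 24 ∧ 0 < (orb H v).card := by
    intro v
    have h1 := orb_res7 hE (by rw [hH]; norm_num) (y := v) (by simp)
    have h3 := orb_le hE (y := v) (by simp)
    have h4 := orb_dvd H v
    rw [hH] at h4
    rw [Finset.card_empty] at h1 h3
    refine ⟨?_, h4, ?_, h1, by omega, orb_pos H v⟩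
    · have h5 := orb_mul H v
      have h6 : Nat.card (H ⊓ stabilizer M24 v : Subgroup M24) ∣ 10200960 := by
        rw [← card_FX1 (Finset.card_singleton v), ← stab_eq_FX]
        exact Subgroup.card_dvd_of_le inf_le_right
      obtain ⟨m', hm'⟩ := h6
      rw [hH] at h5
      set n := (orb H v).card
      set m := Nat.card (H ⊓ stabilizer M24 v : Subgroup M24)
      have h7 : n * 79695 = 2 * (3465 * m') := by
        have h8 : 128 * (n * 79695) = 128 * (2 * (3465 * m')) := by
          calc 128 * (n * 79695) = n * 10200960 := by ring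
            _ = n * (m * m') := by rw [hm']
            _ = (n * m) * m' := by ring
            _ = 887040 * m' := by rw [h5]
            _ = 128 * (2 * (3465 * m')) := by ring
        exact Nat.eq_of_mul_eq_mul_left (by norm_num) h8
      exact (Nat.Coprime.dvd_mul_right (by norm_num : Nat.Coprime 2 79695)).1 ⟨_, h7⟩
    · obtain ⟨g, hg, ho⟩ := exists_order (J := H) (by norm_num : Nat.Prime 11) (by rw [hH]; norm_num)
      have h5 : (orb H v).card % 11 = (orb H v ∩ fixF g).card % 11 := modEq_orb (by norm_num) hg ho v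
      have h6 := Finset.card_le_card (Finset.inter_subset_right (s₁ := orb H v) (s₂ := fixF g))
      rw [fix11 ho] at h6
      rw [h5]
      exact (Nat.mod_le _ _).trans h6
  have hvals : ∀ n : ℕ, 2 ∣ n → n ∣ 887040 → n % 11 ≤ 2 → n % 7 ≤ 3 → n ≤ 24 → 0 < n →
      n = 2 ∨ n = 22 ∨ n = 24 := by
    intro n h1 h2 h3 h4 h5 h6
    interval_cases n <;> omega
  have hv : ∀ v, (orb H v).card = 2 ∨ (orb H v).card = 22 ∨ (orb H v).card = 24 := by
    intro v
    obtain ⟨a1, a2, a3, a4, a5, a6⟩ := hsz v
    exact hvals _ a1 a2 a3 a4 a5 a6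
  obtain ⟨x⟩ : Nonempty GolayPt := ⟨none⟩
  rcases hv x with h | h | h24
  · exact hduad x h
  · obtain ⟨y, -, -, hy2⟩ := exists_second hE (y := x) (by simp) (by rw [h]; simp)
    rw [Finset.card_empty, h] at hy2
    rcases hv y with h' | h' | h'
    · exact hduad y h'
    · omega
    · omega
  exfalso
  obtain ⟨J, hJ⟩ : ∃ J, J = H ⊓ stabilizer M24 x := ⟨_, rfl⟩
  have hJc : Nat.card J = 36960 := by
    have h1 := orb_mul H x
    rw [h24, hH, ← hJ] at h1
    omega
  have hJx : J ≤ FX {x} := by rw [← stab_eq_FX, hJ]; exact inf_le_right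
  obtain ⟨c, hcJ, hc⟩ := exists_order (J := J) (by norm_num : Nat.Prime 11) (by rw [hJc]; norm_num)
  have hcx : x ∈ fixF c := mem_fixF.2 (hJx hcJ x (Finset.mem_singleton_self x))
  have hf := fix11 hc
  obtain ⟨y, hy⟩ : ∃ y, (fixF c).erase x = {y} := by
    apply Finset.card_eq_one.1
    rw [Finset.card_erase_of_mem hcx, hf]
  have hym : y ∈ (fixF c).erase x := by rw [hy]; exact Finset.mem_singleton_self y
  have hyx : y ≠ x := (Finset.mem_erase.1 hym).1
  have hyx' : y ∉ ({x} : Finset GolayPt) := by simpa using hyx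
  -- the orbit of `y` is trivial
  have h1 : (orb J y).card = 1 := by
    have h2 : (orb J y).card % 11 = (orb J y ∩ fixF c).card % 11 := modEq_orb (by norm_num) hcJ hc y
    have h3 : orb J y ∩ fixF c = {y} := by
      rw [← hy]
      ext w
      rw [Finset.mem_inter, Finset.mem_erase]
      constructor
      · rintro ⟨h4, h5⟩
        refine ⟨?_, h5⟩
        rintro rfl
        have h6 := orb_out hJx hyx' h4
        simp at h6
      · intro h4
        have h5 : w ∈ (fixF c).erase x := Finset.mem_erase.2 h4
        rw [hy, Finset.mem_singleton] at h5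
        exact ⟨by rw [h5]; exact self_mem_orb J y, h4.2⟩
    rw [h3, Finset.card_singleton] at h2
    have h4 := orb_res7 hJx (by rw [hJc]; norm_num) hyx'
    have h5 := orb_dvd J y
    rw [hJc] at h5
    have h6 := orb_le hJx hyx'
    have h7 := orb_pos J y
    rw [Finset.card_singleton] at h4 h6
    have h8 : ∀ n : ℕ, n % 11 = 1 → n % 7 ≤ 2 → n ∣ 36960 → n + 1 ≤ 24 → 0 < n → n = 1 := by
      intro n a1 a2 a3 a4 a5
      have : n ≤ 23 := by omega
      interval_cases n <;> omega
    exact h8 _ (by rw [h2]) h4 h5 h6 h7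
  have hJxy : J ≤ FX (insert y {x}) := by
    rw [FX_insert]
    refine le_inf hJx (fun g hg => ?_)
    obtain ⟨w, hw⟩ := Finset.card_eq_one.1 h1
    have h2 := smul_mem_orb hg (self_mem_orb J y)
    have h3 := self_mem_orb J y
    rw [hw, Finset.mem_singleton] at h2 h3
    rw [mem_stabilizer_iff, h2, ← h3]
  have hs2 : (insert y {x} : Finset GolayPt).card = 2 := by
    rw [Finset.card_insert_of_notMem hyx', Finset.card_singleton]
  obtain ⟨z, hz⟩ : ∃ z, z ∉ (insert y {x} : Finset GolayPt) := by
    by_contra hn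
    push Not at hn
    have h2 := Finset.card_le_card (show (Finset.univ : Finset GolayPt) ⊆ insert y {x} from fun z _ => hn z)
    rw [card_univ24, hs2] at h2
    omega
  have h22 : (orb J z).card = 22 := by
    have h2 : (orb J z).card % 11 = (orb J z ∩ fixF c).card % 11 := modEq_orb (by norm_num) hcJ hc z
    have h3 : orb J z ∩ fixF c = ∅ := by
      rw [Finset.eq_empty_iff_forall_notMem]
      intro w hw
      rw [Finset.mem_inter] at hw
      have h4 := Finset.mem_compl.1 (orb_out hJxy hz hw.1)
      rw [Finset.mem_insert, Finset.mem_singleton, not_or] at h4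
      have h5 : w ∈ (fixF c).erase x := Finset.mem_erase.2 ⟨h4.2, hw.2⟩
      rw [hy, Finset.mem_singleton] at h5
      exact h4.1 h5
    rw [h3, Finset.card_empty] at h2
    have h4 := orb_res7 hJxy (by rw [hJc]; norm_num) hz
    have h5 := orb_dvd J z
    rw [hJc] at h5
    have h6 := orb_le hJxy hz
    have h7 := orb_pos J z
    rw [hs2] at h4 h6
    have h8 : ∀ n : ℕ, n % 11 = 0 → n % 7 ≤ 1 → n ∣ 36960 → n + 2 ≤ 24 → 0 < n → n = 22 := by
      intro n a1 a2 a3 a4 a5
      have : n ≤ 22 := by omega
      interval_cases n <;> omega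
    exact h8 _ (by rw [h2]) h4 h5 h6 h7
  obtain ⟨K, hK⟩ : ∃ K, K = J ⊓ stabilizer M24 z := ⟨_, rfl⟩
  have hKc : Nat.card K = 1680 := by
    have h2 := orb_mul J z
    rw [h22, hJc, ← hK] at h2
    omega
  have hKs : K ≤ FX (insert z (insert y {x})) := by
    rw [FX_insert, hK]
    exact inf_le_inf_right _ hJxy
  obtain ⟨d, hdK, hd⟩ := exists_order (J := K) (by norm_num : Nat.Prime 7) (by rw [hKc]; norm_num)
  have hdF : fixF d = insert z (insert y {x}) := by
    symm
    apply Finset.eq_of_subset_of_card_le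
    · intro w hw
      exact mem_fixF.2 (hKs hdK w hw)
    · rw [fix7 hd, Finset.card_insert_of_notMem hz, hs2]
  obtain ⟨k, n, a1, a2, a3⟩ := syl7 hdK hd (fun g hg _ => by rw [hdF]; exact hKs hg)
  rw [hKc] at a1
  have a4 : k * n = 240 := by
    have : 7 * (k * n) = 7 * 240 := by rw [← mul_assoc, ← a1]
    exact Nat.eq_of_mul_eq_mul_left (by norm_num) this
  have a5 : k * n % 7 = k % 7 := by
    rw [Nat.mul_mod, a3, mul_one, Nat.mod_mod]
  rw [a4] at a5
  have a6 : k ≤ 3 := Nat.le_of_dvd (by norm_num) a2
  have a7 : k = 2 := by omega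
  rw [a7] at a2
  omega

/-! ### index 253 -/

/-- Two four-sets (or smaller): invariance under a pointwise stabiliser. -/
theorem inv_sub {s t : Finset GolayPt} (hs : s.card ≤ 4) (ht : t.card + s.card < 24) (h : FX s ≤ stabilizer M24 t) :
    t ⊆ s := by
  intro w hw
  by_contra hws
  have h1 : sᶜ ⊆ t := by
    intro y hy
    obtain ⟨g, hg, hgy⟩ := exists_FX_map hs hws (Finset.mem_compl.1 hy)
    have h2 : g • t = t := h hg
    rw [← h2, ← hgy]
    exact Finset.smul_mem_smul_finset hw
  have h2 := Finset.card_le_card h1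
  rw [card_compl24] at h2
  omega

/-- an octad whose pointwise stabiliser leaves another octad invariant -/
theorem oct_inv {o o' : Finset GolayPt} (ho : o ∈ octads) (ho' : o' ∈ octads) (h : FX o ≤ stabilizer M24 o') :
    o' = o := by
  apply Finset.eq_of_subset_of_card_le _ (by rw [card_octad ho, card_octad ho'])
  intro w hw
  by_contra hwo
  have h1 : oᶜ ⊆ o' := by
    intro y hy
    obtain ⟨σ, hσ, h2, h3⟩ := fix_trans ho hwo (Finset.mem_compl.1 hy)
    have h4 : (⟨σ, hσ⟩ : M24) ∈ FX o := fun p hp => h2 p hp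
    have h5 : (⟨σ, hσ⟩ : M24) • o' = o' := h h4
    rw [← h5]
    have h6 : (⟨σ, hσ⟩ : M24) • w = y := h3
    rw [← h6]
    exact Finset.smul_mem_smul_finset hw
  have h2 := Finset.card_le_card h1
  rw [card_compl24, card_octad ho, card_octad ho'] at h2
  omega

theorem idx253 (hmax : ∀ o ∈ octads, IsCoatom (stabilizer M24 (o : Finset GolayPt))) {H : Subgroup M24}
    (hH : Nat.card H = 967680) : False := by
  rcases eight_or_trans (H := H) (by rw [hH]; norm_num) with ⟨x, hx⟩ | ht
  · obtain ⟨h1, h2⟩ := octad_orb hx (by rw [hH]; norm_num)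
    have h3 := Subgroup.card_dvd_of_le h2
    rw [hH, Orb.card_stabilizer_octad h1] at h3
    omega
  have hJc : ∀ x : GolayPt, Nat.card (H ⊓ stabilizer M24 x : Subgroup M24) = 40320 := by
    intro x
    have h1 := orb_mul H x
    rw [ht x, card_univ24, hH] at h1
    omega
  have hJx : ∀ x : GolayPt, (H ⊓ stabilizer M24 x : Subgroup M24) ≤ FX {x} := fun x => by
    rw [← stab_eq_FX]; exact inf_le_right
  have htr : ∀ x y : GolayPt, ∃ g ∈ H, g • x = y := fun x y => mem_orb.1 (by rw [ht x]; exact Finset.mem_univ y)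
  rcases order40320 (hJx none) (hJc none) with ⟨d, hd, hdx, hle⟩ | ⟨o, ho, hxo, hle⟩
  · -- duads
    have hall : ∀ y, ∃ d : Finset GolayPt, d.card = 2 ∧ y ∉ d ∧ FX (insert y d) ≤ H ⊓ stabilizer M24 d ∧
        H ⊓ stabilizer M24 y ≤ stabilizer M24 d := by
      intro y
      obtain ⟨g, hg, rfl⟩ := htr none y
      have h1 : H ⊓ stabilizer M24 (none : GolayPt) = stabilizer M24 (none : GolayPt) ⊓ stabilizer M24 d := by
        apply Subgroup.eq_of_le_of_card_ge (le_inf inf_le_right hle)
        rw [hJc]
        exact card_duad_le hd hdx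
      refine ⟨g • d, by rw [Finset.card_smul_finset, hd], ?_, ?_, ?_⟩
      · rwa [Finset.smul_mem_smul_finset_iff]
      · intro a ha
        have h2 : g⁻¹ * a * g ∈ FX (insert none d) := by
          intro p hp
          have h3 : g • p ∈ insert (g • (none : GolayPt)) (g • d) := by
            rw [Finset.mem_insert] at hp ⊢
            rcases hp with rfl | hp
            · left; rfl
            · right; exact Finset.smul_mem_smul_finset hp
          rw [mul_assoc, mul_smul, mul_smul, ha _ h3, inv_smul_smul]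
        have h3 : g⁻¹ * a * g ∈ stabilizer M24 (none : GolayPt) ⊓ stabilizer M24 d := by
          refine Subgroup.mem_inf.2 ⟨h2 _ (Finset.mem_insert_self _ _), ?_⟩
          rw [mem_stabilizer_iff]
          apply Finset.eq_of_subset_of_card_le
          · intro z hz
            rw [Finset.mem_smul_finset] at hz
            obtain ⟨w, hw, rfl⟩ := hz
            rw [h2 w (Finset.mem_insert_of_mem hw)]
            exact hw
          · rw [Finset.card_smul_finset]
        rw [← h1] at h3
        have h4 : a = g * (g⁻¹ * a * g) * g⁻¹ := by group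
        refine Subgroup.mem_inf.2 ⟨?_, ?_⟩
        · rw [h4]; exact mul_mem (mul_mem hg h3.1) (inv_mem hg)
        · have h5 : (g⁻¹ * a * g) • d = d := hle h3
          show a • (g • d) = g • d
          calc a • (g • d) = g • ((g⁻¹ * a * g) • d) := by rw [← mul_smul, ← mul_smul]; congr 1; group
            _ = g • d := by rw [h5]
      · rintro a ⟨ha, hax⟩
        have h2 : g⁻¹ * a * g ∈ H ⊓ stabilizer M24 (none : GolayPt) := by
          refine Subgroup.mem_inf.2 ⟨mul_mem (mul_mem (inv_mem hg) ha) hg, ?_⟩
          show (g⁻¹ * a * g) • (none : GolayPt) = none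
          have h3 : a • (g • (none : GolayPt)) = g • (none : GolayPt) := hax
          rw [mul_assoc, mul_smul, mul_smul, h3, inv_smul_smul]
        have h5 : (g⁻¹ * a * g) • d = d := hle h2
        show a • (g • d) = g • d
        calc a • (g • d) = g • ((g⁻¹ * a * g) • d) := by rw [← mul_smul, ← mul_smul]; congr 1; group
          _ = g • d := by rw [h5]
    choose D hD2 hDn hDF hDs using hall
    have hTc : ∀ y, (insert y (D y)).card = 3 := fun y => by
      rw [Finset.card_insert_of_notMem (hDn y), hD2]
    have hin : ∀ x z, z ∉ insert x (D x) → D z ⊆ insert x (D x) := by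
      intro x z hz
      have h1 : FX (insert z (insert x (D x))) ≤ stabilizer M24 (D z) := by
        intro g hg
        apply hDs z
        refine ⟨(hDF x (FX_anti (Finset.subset_insert _ _) hg)).1, hg z (Finset.mem_insert_self _ _)⟩
      have h2 : D z ⊆ insert z (insert x (D x)) := inv_sub
        (by rw [Finset.card_insert_of_notMem hz, hTc]) (by rw [Finset.card_insert_of_notMem hz, hTc, hD2]; norm_num) h1
      intro w hw
      rcases Finset.mem_insert.1 (h2 hw) with h3 | h3
      · rw [h3] at hw
        exact absurd hw (hDn z)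
      · exact h3
    have hx0 : ∃ z, z ∉ insert none (D none) := by
      by_contra hn
      push Not at hn
      have h2 := Finset.card_le_card (show (Finset.univ : Finset GolayPt) ⊆ insert none (D none) from fun z _ => hn z)
      rw [card_univ24, hTc] at h2
      omega
    obtain ⟨z, hz⟩ := hx0
    have heq : ∀ w, w ∉ insert none (D none) → D w = D z := by
      intro w hw
      by_cases hwz : w = z
      · rw [hwz]
      apply Finset.eq_of_subset_of_card_le _ (by rw [hD2, hD2])
      have h1 := hin none z hz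
      have h2 := hin none w hw
      have h3 : w ∉ insert z (D z) := by
        rw [Finset.mem_insert, not_or]
        exact ⟨hwz, fun h => hw (h1 h)⟩
      have h4 := hin z w h3
      intro v hv
      rcases Finset.mem_insert.1 (h4 hv) with h5 | h5
      · rw [h5] at hv
        exact absurd (h2 hv) hz
      · exact h5
    -- the stabiliser of the duad has an orbit of length 22
    have h22 : orb (H ⊓ stabilizer M24 (D z)) z = (D z)ᶜ := by
      apply Finset.Subset.antisymm
      · apply orb_subset _ (Finset.mem_compl.2 (hDn z))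
        intro g hg y hy
        rw [Finset.mem_compl] at hy ⊢
        intro h1
        apply hy
        have h2 : g • D z = D z := hg.2
        rw [← h2, Finset.smul_mem_smul_finset_iff] at h1
        exact h1
      · intro w hw
        rw [Finset.mem_compl] at hw
        obtain ⟨u, hu⟩ : ∃ u, u ∉ insert w (insert z (insert none (D none))) := by
          by_contra hn
          push Not at hn
          have h2 := Finset.card_le_card (show (Finset.univ : Finset GolayPt) ⊆ insert w (insert z (insert none (D none)))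
            from fun z _ => hn z)
          have h3 := Finset.card_insert_le w (insert z (insert none (D none)))
          have h4 := Finset.card_insert_le z (insert none (D none))
          rw [card_univ24] at h2
          rw [hTc] at h4
          omega
        rw [Finset.mem_insert, Finset.mem_insert, not_or, not_or] at hu
        have hDu := heq u hu.2.2
        obtain ⟨g, hg, hgw⟩ := exists_FX_map (s := insert u (D u)) (by rw [hTc]; norm_num)
          (q := z) (y := w) (by rw [Finset.mem_insert, hDu, not_or]; exact ⟨fun h => hu.2.1 h.symm, hDn z⟩)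
          (by rw [Finset.mem_insert, hDu, not_or]; exact ⟨fun h => hu.1 h.symm, hw⟩)
        refine mem_orb.2 ⟨g, ?_, hgw⟩
        rw [← hDu]
        exact hDF u hg
    have h1 := orb_dvd (H ⊓ stabilizer M24 (D z)) z
    rw [h22, card_compl24, hD2] at h1
    have h2 := h1.trans (Subgroup.card_dvd_of_le inf_le_left)
    rw [hH] at h2
    omega
  · -- heptads
    have hall : ∀ y, ∃ o ∈ octads, y ∈ o ∧ FX o ≤ H ∧ stabilizer M24 y ⊓ stabilizer M24 o = H ⊓ stabilizer M24 y := by
      intro y
      obtain ⟨g, hg, rfl⟩ := htr none y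
      have h1 : H ⊓ stabilizer M24 (none : GolayPt) = stabilizer M24 (none : GolayPt) ⊓ stabilizer M24 o := by
        apply Subgroup.eq_of_le_of_card_ge (le_inf inf_le_right hle)
        rw [hJc, card_heptad ho hxo]
      have h2 : stabilizer M24 (g • (none : GolayPt)) ⊓ stabilizer M24 (g • o) =
          H ⊓ stabilizer M24 (g • (none : GolayPt)) := by
        ext a
        have h3 : (a ∈ stabilizer M24 (g • (none : GolayPt)) ⊓ stabilizer M24 (g • o)) ↔
            g⁻¹ * a * g ∈ stabilizer M24 (none : GolayPt) ⊓ stabilizer M24 o := by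
          rw [Subgroup.mem_inf, Subgroup.mem_inf, mem_stabilizer_iff, mem_stabilizer_iff, mem_stabilizer_iff,
            mem_stabilizer_iff, mul_assoc, mul_smul, mul_smul, mul_smul, mul_smul, inv_smul_eq_iff, inv_smul_eq_iff]
        have h4 : (a ∈ H ⊓ stabilizer M24 (g • (none : GolayPt))) ↔
            g⁻¹ * a * g ∈ H ⊓ stabilizer M24 (none : GolayPt) := by
          rw [Subgroup.mem_inf, Subgroup.mem_inf, mem_stabilizer_iff,
            mem_stabilizer_iff, mul_assoc, mul_smul, mul_smul, inv_smul_eq_iff]
          constructor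
          · rintro ⟨h5, h6⟩
            exact ⟨mul_mem (inv_mem hg) (mul_mem h5 hg), h6⟩
          · rintro ⟨h5, h6⟩
            refine ⟨?_, h6⟩
            have h7 : a = g * (g⁻¹ * (a * g)) * g⁻¹ := by group
            rw [h7]
            exact mul_mem (mul_mem hg h5) (inv_mem hg)
        rw [h3, h4, h1]
      have h5 : g • o ∈ octads := (smul_mem_octads g.2).2 ho
      have h6 : g • (none : GolayPt) ∈ g • o := Finset.smul_mem_smul_finset hxo
      refine ⟨g • o, h5, h6, ?_, h2⟩
      intro a ha
      have h7 : a ∈ stabilizer M24 (g • (none : GolayPt)) ⊓ stabilizer M24 (g • o) := by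
        refine Subgroup.mem_inf.2 ⟨ha _ h6, ?_⟩
        rw [mem_stabilizer_iff]
        apply Finset.eq_of_subset_of_card_le
        · intro z hz
          rw [Finset.mem_smul_finset] at hz
          obtain ⟨w, hw, rfl⟩ := hz
          rw [ha w hw]
          exact hw
        · rw [Finset.card_smul_finset a (g • o)]
      rw [h2] at h7
      exact h7.1
    choose O hO hOm hOF hOs using hall
    have huniq : ∀ x y, y ∈ O x → O y = O x := by
      intro x y hy
      apply oct_inv (hO x) (hO y)
      intro g hg
      have h1 : g ∈ H ⊓ stabilizer M24 y := ⟨hOF x hg, hg y hy⟩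
      rw [← hOs y] at h1
      exact h1.2
    -- the stabiliser of the octad is contained in `H`
    have hst : stabilizer M24 (O none) ≤ H := by
      intro g hg
      have h1 : g • (none : GolayPt) ∈ O none := by
        have h2 : g • O none = O none := hg
        rw [← h2]
        exact Finset.smul_mem_smul_finset (hOm none)
      obtain ⟨h, hh, hhx⟩ := htr none (g • (none : GolayPt))
      -- `h` maps `O none` to `O (g • none) = O none`
      have h3 : h • O none = O none := by
        have h9 : O (g • (none : GolayPt)) = h • O none := ?_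
        · rw [← h9]; exact huniq none _ h1
        apply oct_inv (show h • O none ∈ octads from (smul_mem_octads h.2).2 (hO none)) (hO _)
        intro a ha
        have h4 : a ∈ H ⊓ stabilizer M24 (g • (none : GolayPt)) := by
          refine Subgroup.mem_inf.2 ⟨?_, ?_⟩
          · have h5 : h⁻¹ * a * h ∈ FX (O none) := by
              intro p hp
              rw [mul_assoc, mul_smul, mul_smul, ha _ (Finset.smul_mem_smul_finset hp), inv_smul_smul]
            have h6 := hOF none h5
            have h7 : a = h * (h⁻¹ * a * h) * h⁻¹ := by group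
            rw [h7]
            exact mul_mem (mul_mem hh h6) (inv_mem hh)
          · rw [mem_stabilizer_iff, ← hhx]
            exact ha _ (Finset.smul_mem_smul_finset (hOm none))
        rw [← hOs] at h4
        exact h4.2
      have h4 : h⁻¹ * g ∈ stabilizer M24 (none : GolayPt) ⊓ stabilizer M24 (O none) := by
        constructor
        · show (h⁻¹ * g) • (none : GolayPt) = none
          rw [mul_smul, ← hhx, inv_smul_smul]
        · show (h⁻¹ * g) • O none = O none
          have h5 : g • O none = O none := hg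
          rw [mul_smul, h5, inv_smul_eq_iff, h3]
      rw [hOs] at h4
      have h5 : g = h * (h⁻¹ * g) := by group
      rw [h5]
      exact mul_mem hh h4.1
    rcases eq_or_lt_of_le hst with h | h
    · have h1 := Orb.card_stabilizer_octad (hO none)
      rw [h, hH] at h1
      omega
    · have h1 := (hmax _ (hO none)).2 _ h
      rw [h1, Subgroup.card_top, card_M24x] at hH
      omega

end Cfsg.Agent.M24X.Idx
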