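import Cfsg.Agent.M24X.Idx

/-!
# Subgroups of `M24` of index 1771 (owner: helper92)
-/

set_option autoImplicit false

namespace Cfsg.Agent.M24X.Idx

open Cfsg MulAction Cfsg.Agent.Golay Cfsg.Agent.Golay.Orb Cfsg.Agent.M24X Cfsg.Agent.M24X.L223
open scoped Pointwise

theorem card_FXo {o : Finset GolayPt} (ho : o ∈ octads) : Nat.card (FX o) = 16 := by
  rw [← card_fixM24_octad ho]
  apply Nat.card_congr
  exact {
    toFun := fun g => ⟨g.1.1, mem_fixM24.2 ⟨g.1.2, fun p hp => g.2 p hp⟩⟩
    invFun := fun g => ⟨⟨g.1, (mem_fixM24.1 g.2).1⟩, fun p hp => (mem_fixM24.1 g.2).2 p hp⟩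
    left_inv := fun _ => rfl
    right_inv := fun _ => rfl }

theorem FX_six {o s : Finset GolayPt} (ho : o ∈ octads) (hs : s ⊆ o) (h6 : 6 ≤ s.card) : FX s ≤ FX o :=
  fun g hg => six_fix ho hs h6 g.2 (fun p hp => hg p hp)

/-- the stabiliser of a point outside an octad, in the octad stabiliser -/
theorem card_oct_out {o : Finset GolayPt} (ho : o ∈ octads) {x : GolayPt} (hx : x ∉ o) :
    Nat.card (stabilizer M24 o ⊓ stabilizer M24 x : Subgroup M24) = 20160 := by
  have h1 := orb_mul (stabilizer M24 o) x
  have h2 : orb (stabilizer M24 o) x = oᶜ := by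
    apply Finset.Subset.antisymm
    · apply orb_subset _ (Finset.mem_compl.2 hx)
      intro g hg y hy
      rw [Finset.mem_compl] at hy ⊢
      intro h1
      apply hy
      have h2 : g • o = o := hg
      rw [← h2, Finset.smul_mem_smul_finset_iff] at h1
      exact h1
    · intro y hy
      obtain ⟨σ, hσ, h3, h4⟩ := fix_trans ho hx (Finset.mem_compl.1 hy)
      refine mem_orb.2 ⟨⟨σ, hσ⟩, ?_, h4⟩
      rw [mem_stabilizer_iff]
      apply Finset.eq_of_subset_of_card_le
      · intro z hz
        rw [Finset.mem_smul_finset] at hz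
        obtain ⟨w, hw, rfl⟩ := hz
        have : (⟨σ, hσ⟩ : M24) • w = w := h3 w hw
        rw [this]
        exact hw
      · rw [Finset.card_smul_finset]
  rw [h2, card_compl24, card_octad ho, Orb.card_stabilizer_octad ho] at h1
  omega

theorem exists_oct {J : Subgroup M24} {x : GolayPt} (hJ : J ≤ FX {x}) (hc : 128 ∣ Nat.card J) :
    ∃ o ∈ octads, x ∈ o ∧ FX o ≤ J := by
  have : Fact (Nat.Prime 2) := ⟨Nat.prime_two⟩
  obtain ⟨T', hT'⟩ := Sylow.exists_subgroup_card_pow_prime (G := J) 2 (n := 7) (by norm_num; exact hc)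
  obtain ⟨T, hT⟩ : ∃ T, T = T'.map J.subtype := ⟨_, rfl⟩
  have hTJ : T ≤ J := by rw [hT]; exact Subgroup.map_subtype_le T'
  have hTc : Nat.card T = 2 ^ 7 := by rw [hT, Subgroup.card_map_of_injective J.subtype_injective, hT']
  have hTp : IsPGroup 2 T := IsPGroup.of_card hTc
  have hTx : T ≤ stabilizer M24 x := by rw [stab_eq_FX]; exact hTJ.trans hJ
  let act : MulAction T {o : Finset GolayPt // o ∈ octads} :=
    { smul := fun g o => ⟨(g : M24) • o.1, (smul_mem_octads (g : M24).2).2 o.2⟩
      one_smul := fun o => Subtype.ext (one_smul M24 o.1)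
      mul_smul := fun a b o => Subtype.ext (mul_smul (a : M24) (b : M24) o.1) }
  obtain ⟨⟨o, ho⟩, hfix⟩ := hTp.nonempty_fixed_point_of_prime_not_dvd_card {o : Finset GolayPt // o ∈ octads} (by
    have h1 : Nat.card {o : Finset GolayPt // o ∈ octads} = 759 := ncard_octads
    rw [h1]
    norm_num)
  have hTo : T ≤ stabilizer M24 o := fun g hg => congrArg Subtype.val (hfix ⟨g, hg⟩)
  have hxo : x ∈ o := by
    by_contra hn
    have h1 := Subgroup.card_dvd_of_le (le_inf hTo hTx)
    rw [hTc, card_oct_out ho hn] at h1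
    norm_num at h1
  refine ⟨o, ho, hxo, ?_⟩
  have hVp : IsPGroup 2 (FX o) := IsPGroup.of_card (n := 4) (by rw [card_FXo ho]; norm_num)
  have hnorm : T ≤ Subgroup.normalizer (FX o : Set M24) := by
    have key : ∀ g ∈ T, ∀ h ∈ FX o, g * h * g⁻¹ ∈ FX o := by
      intro g hg h hh p hp
      have h1 : g⁻¹ • p ∈ o := by
        have h2 : g⁻¹ • o = o := hTo (inv_mem hg)
        rw [← h2]
        exact Finset.smul_mem_smul_finset hp
      rw [mul_smul, mul_smul, hh _ h1, smul_inv_smul]
    intro g hg
    rw [Subgroup.mem_normalizer_iff]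
    intro h
    refine ⟨key g hg h, fun h1 => ?_⟩
    have h2 := key g⁻¹ (inv_mem hg) _ h1
    have h3 : g⁻¹ * (g * h * g⁻¹) * g⁻¹⁻¹ = h := by group
    rwa [h3] at h2
  have hsup := hTp.to_sup_of_normal_right' hVp hnorm
  have hle : T ⊔ FX o ≤ stabilizer M24 x ⊓ stabilizer M24 o := by
    refine sup_le (le_inf hTx hTo) (le_inf ?_ ?_)
    · intro g hg
      exact hg x hxo
    · intro g hg
      rw [mem_stabilizer_iff]
      apply Finset.eq_of_subset_of_card_le
      · intro z hz
        rw [Finset.mem_smul_finset] at hz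
        obtain ⟨w, hw, rfl⟩ := hz
        rw [hg w hw]
        exact hw
      · rw [Finset.card_smul_finset]
  have h1 := Subgroup.card_dvd_of_le hle
  rw [card_heptad ho hxo] at h1
  obtain ⟨k, hk⟩ := hsup.exists_card_eq
  rw [hk] at h1
  have hk7 : k ≤ 7 := by
    by_contra hn
    have h2 : 2 ^ 8 ∣ 40320 := (pow_dvd_pow 2 (by omega : 8 ≤ k)).trans h1
    norm_num at h2
  have heq : T = T ⊔ FX o := by
    apply Subgroup.eq_of_le_of_card_ge le_sup_left
    rw [hk, hTc]
    exact Nat.pow_le_pow_right (by norm_num) hk7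
  calc FX o ≤ T ⊔ FX o := le_sup_right
    _ = T := heq.symm
    _ ≤ J := hTJ

theorem orb_compl {J : Subgroup M24} {o : Finset GolayPt} (ho : o ∈ octads) (hJ : FX o ≤ J) {w : GolayPt}
    (hw : w ∉ o) : oᶜ ⊆ orb J w := by
  intro y hy
  obtain ⟨σ, hσ, h1, h2⟩ := fix_trans ho hw (Finset.mem_compl.1 hy)
  exact mem_orb.2 ⟨⟨σ, hσ⟩, hJ (fun p hp => h1 p hp), h2⟩

/-- a point stabiliser of a transitive subgroup of order 138240 leaves a tetrad invariant -/
theorem tetrad {H : Subgroup M24} (hJc : ∀ x : GolayPt, Nat.card (H ⊓ stabilizer M24 x : Subgroup M24) = 5760)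
    (htr : ∀ x y : GolayPt, ∃ g ∈ H, g • x = y) (x : GolayPt) :
    ∃ t : Finset GolayPt, t.card = 4 ∧ x ∈ t ∧ FX t ≤ H ∧ H ⊓ stabilizer M24 x ≤ stabilizer M24 t := by
  obtain ⟨J, hJ⟩ : ∃ J, J = H ⊓ stabilizer M24 x := ⟨_, rfl⟩
  have hc : Nat.card J = 5760 := by rw [hJ]; exact hJc x
  have hJH : J ≤ H := by rw [hJ]; exact inf_le_left
  have hJx : J ≤ FX {x} := by rw [← stab_eq_FX, hJ]; exact inf_le_right
  rw [← hJ]
  have hfx : ∀ g ∈ J, g • x = x := fun g hg => hJx hg x (Finset.mem_singleton_self x)
  obtain ⟨o, ho, hxo, hoJ⟩ := exists_oct hJx (by rw [hc]; norm_num)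
  obtain ⟨w, hw⟩ : ∃ w, w ∉ o := by
    by_contra hn
    push Not at hn
    have h2 := Finset.card_le_card (show (Finset.univ : Finset GolayPt) ⊆ o from fun z _ => hn z)
    rw [card_univ24, card_octad ho] at h2
    omega
  have hwx : w ∉ ({x} : Finset GolayPt) := by
    rw [Finset.mem_singleton]
    rintro rfl
    exact hw hxo
  have hO := orb_compl ho hoJ hw
  have h16 := Finset.card_le_card hO
  rw [card_compl24, card_octad ho] at h16
  have h23 := orb_le hJx hwx
  rw [Finset.card_singleton] at h23
  have hdvd := orb_dvd J w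
  rw [hc] at hdvd
  have hxO : x ∉ orb J w := fun h => by
    have := orb_out hJx hwx h
    simp at this
  obtain ⟨R, hR⟩ : ∃ R, R = (insert x (orb J w))ᶜ := ⟨_, rfl⟩
  have hRc : R.card + (orb J w).card = 23 := by
    have h1 : R.card = 24 - ((orb J w).card + 1) := by
      rw [hR, card_compl24, Finset.card_insert_of_notMem hxO]
    omega
  have hxR : x ∉ R := by rw [hR]; simp
  have hRo : insert x R ⊆ o := by
    intro z hz
    rcases Finset.mem_insert.1 hz with rfl | hz
    · exact hxo
    · by_contra hn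
      rw [hR, Finset.mem_compl, Finset.mem_insert, not_or] at hz
      exact hz.2 (hO (Finset.mem_compl.2 hn))
  have hRinv : ∀ g ∈ J, ∀ y ∈ R, g • y ∈ R := by
    intro g hg y hy
    rw [hR, Finset.mem_compl, Finset.mem_insert, not_or] at hy ⊢
    refine ⟨fun h => hy.1 ?_, fun h => hy.2 ?_⟩
    · rw [← hfx g hg] at h
      exact smul_left_cancel _ h
    · have h1 := smul_mem_orb (inv_mem hg) h
      rwa [inv_smul_smul] at h1
  have hvals : (orb J w).card = 16 ∨ (orb J w).card = 18 ∨ (orb J w).card = 20 := by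
    have h1 : ∀ n : ℕ, 24 - 8 ≤ n → n + 1 ≤ 24 → n ∣ 5760 → n = 16 ∨ n = 18 ∨ n = 20 := by
      intro n a1 a2 a3
      have : n ≤ 23 := by omega
      have : 16 ≤ n := by omega
      interval_cases n <;> omega
    exact h1 _ h16 h23 hdvd
  rcases hvals with hn | hn | hn
  · -- 16
    exfalso
    have hR7 : R.card = 7 := by omega
    have hRo' : insert x R = o := by
      apply Finset.eq_of_subset_of_card_le hRo
      rw [card_octad ho, Finset.card_insert_of_notMem hxR, hR7]
    obtain ⟨c, hcJ, hc5⟩ := exists_order (J := J) Nat.prime_five (by rw [hc]; norm_num)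
    obtain ⟨v, hv⟩ : ∃ v, v ∈ R \ fixF c := by
      apply Finset.card_pos.1
      have h1 := Finset.le_card_sdiff (fixF c) R
      rw [fix5 hc5, hR7] at h1
      omega
    rw [Finset.mem_sdiff] at hv
    have hsub : orb J v ⊆ R := orb_subset hRinv hv.1
    have h5 : 5 ≤ (orb J v).card := by
      rw [← card_orb_prime Nat.prime_five hc5 hv.2]
      apply Finset.card_le_card
      intro z hz
      obtain ⟨g, hg, rfl⟩ := mem_orb.1 hz
      exact mem_orb.2 ⟨g, (Subgroup.zpowers_le.2 hcJ) hg, rfl⟩
    have h7 := Finset.card_le_card hsub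
    rw [hR7] at h7
    have hd := orb_dvd J v
    rw [hc] at hd
    have h56 : (orb J v).card = 5 ∨ (orb J v).card = 6 := by
      have h1 : ∀ n : ℕ, 5 ≤ n → n ≤ 7 → n ∣ 5760 → n = 5 ∨ n = 6 := by
        intro n a1 a2 a3
        interval_cases n <;> omega
      exact h1 _ h5 h7 hd
    rcases h56 with h5' | h6
    · -- an orbit of length 5
      obtain ⟨a, ha⟩ : ∃ a, a ∈ R \ orb J v := by
        apply Finset.card_pos.1
        rw [Finset.card_sdiff_of_subset hsub, hR7, h5']
        norm_num
      rw [Finset.mem_sdiff] at ha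
      have h1 : orb J a ⊆ R \ orb J v := by
        intro z hz
        rw [Finset.mem_sdiff]
        refine ⟨orb_subset hRinv ha.1 hz, fun h => ?_⟩
        exact (Finset.disjoint_left.1 (orb_disj ha.2)) h hz
      have h2 := Finset.card_le_card h1
      rw [Finset.card_sdiff_of_subset hsub, hR7, h5'] at h2
      have h3 := orb_mul J a
      rw [hc] at h3
      obtain ⟨K, hK⟩ : ∃ K, K = J ⊓ stabilizer M24 a := ⟨_, rfl⟩
      rw [← hK] at h3
      have hKc : 2880 ≤ Nat.card K := by
        by_contra hlt
        have h4 : (orb J a).card * Nat.card K ≤ 2 * 2879 := Nat.mul_le_mul h2 (by omega)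
        omega
      have hKinv : ∀ g ∈ K, ∀ y ∈ orb J v, g • y ∈ orb J v := fun g hg y hy =>
        smul_mem_orb (by rw [hK] at hg; exact hg.1) hy
      obtain ⟨k, hk, hkd, -⟩ := card_kernel hKinv
      rw [h5'] at hkd
      have hk120 : k ≤ 120 := Nat.le_of_dvd (by norm_num) hkd
      have h4 : K ⊓ FX (orb J v) ≤ FX o := by
        have h5 : insert a (insert x (orb J v)) ⊆ o := by
          rw [← hRo']
          intro z hz
          rw [Finset.mem_insert, Finset.mem_insert] at hz
          rcases hz with rfl | rfl | hz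
          · exact Finset.mem_insert_of_mem ha.1
          · exact Finset.mem_insert_self _ _
          · exact Finset.mem_insert_of_mem (hsub hz)
        have hxv : x ∉ orb J v := fun h => hxR (hsub h)
        refine le_trans ?_ (FX_six ho h5 ?_)
        · rintro g ⟨hg1, hg2⟩ p hp
          rw [hK] at hg1
          rw [Finset.mem_insert, Finset.mem_insert] at hp
          rcases hp with rfl | rfl | hp
          · exact hg1.2
          · exact hfx g hg1.1
          · exact hg2 p hp
        · have hax : a ∉ insert x (orb J v) := by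
            rw [Finset.mem_insert, not_or]
            refine ⟨?_, ha.2⟩
            rintro rfl
            exact hxR ha.1
          rw [Finset.card_insert_of_notMem hax, Finset.card_insert_of_notMem hxv, h5']
          norm_num
      have h6 := Subgroup.card_le_of_le h4
      rw [card_FXo ho] at h6
      have h7 : k * Nat.card (K ⊓ FX (orb J v) : Subgroup M24) ≤ 120 * 16 := Nat.mul_le_mul hk120 h6
      omega
    · -- an orbit of length 6
      obtain ⟨y, hy⟩ : ∃ y, R \ orb J v = {y} := by
        apply Finset.card_eq_one.1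
        rw [Finset.card_sdiff_of_subset hsub, hR7, h6]
      have hyR : y ∈ R \ orb J v := by rw [hy]; exact Finset.mem_singleton_self y
      rw [Finset.mem_sdiff] at hyR
      have hfy : ∀ g ∈ J, g • y = y := by
        intro g hg
        have h1 : g • y ∈ R \ orb J v := by
          rw [Finset.mem_sdiff]
          refine ⟨hRinv g hg y hyR.1, fun h => hyR.2 ?_⟩
          have h1 := smul_mem_orb (inv_mem hg) h
          rwa [inv_smul_smul] at h1
        rw [hy, Finset.mem_singleton] at h1
        exact h1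
      have hyx : y ≠ x := by rintro rfl; exact hxR hyR.1
      -- the second fixed point of the stabiliser of `v`
      obtain ⟨g, hg, hgv⟩ := htr x v
      have hfz : ∀ a ∈ H ⊓ stabilizer M24 v, a • (g • y) = g • y := by
        rintro a ⟨ha1, ha2⟩
        have h1 : g⁻¹ * a * g ∈ J := by
          rw [hJ]
          refine Subgroup.mem_inf.2 ⟨mul_mem (mul_mem (inv_mem hg) ha1) hg, ?_⟩
          have h2 : a • v = v := ha2
          rw [mem_stabilizer_iff, mul_assoc, mul_smul, mul_smul, hgv, h2, ← hgv, inv_smul_smul]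
        have h2 := hfy _ h1
        rw [mul_assoc, mul_smul, mul_smul, inv_smul_eq_iff] at h2
        exact h2
      have hzv : g • y ≠ v := by
        rw [← hgv]
        intro h
        exact hyx (smul_left_cancel _ h)
      have hJv : ¬ ∀ a ∈ J, a • v = v := by
        intro h
        have h1 : orb J v ⊆ {v} := by
          intro z hz
          obtain ⟨a, ha, rfl⟩ := mem_orb.1 hz
          rw [Finset.mem_singleton]
          exact h a ha
        have h2 := Finset.card_le_card h1
        rw [h6, Finset.card_singleton] at h2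
        omega
      have hHvc := hJc v
      have hJeq : ∀ u : GolayPt, (∀ a ∈ H ⊓ stabilizer M24 v, a • u = u) → (∀ a ∈ J, a • u = u) → False := by
        intro u h1 h2
        apply hJv
        have h3 : H ⊓ stabilizer M24 v = H ⊓ stabilizer M24 u :=
          Subgroup.eq_of_le_of_card_ge (le_inf inf_le_left (fun a ha => h1 a ha)) (by rw [hHvc, hJc u])
        have h4 : J = H ⊓ stabilizer M24 u :=
          Subgroup.eq_of_le_of_card_ge (le_inf hJH (fun a ha => h2 a ha)) (by rw [hc, hJc u])
        intro a ha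
        rw [h4, ← h3] at ha
        exact ha.2
      have hzx : g • y ≠ x := by
        intro h
        rw [h] at hfz
        exact hJeq x hfz hfx
      have hzy : g • y ≠ y := by
        intro h
        rw [h] at hfz
        exact hJeq y hfz hfy
      have hvx : v ≠ x := by rintro rfl; exact hxR hv.1
      have hvy : v ≠ y := by rintro rfl; exact hyR.2 (self_mem_orb J _)
      -- four fixed points
      have h4 : ({g • y, v, y, x} : Finset GolayPt).card = 4 := by
        rw [Finset.card_insert_of_notMem, Finset.card_insert_of_notMem, Finset.card_insert_of_notMem,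
          Finset.card_singleton]
        · simpa using hyx
        · simp [hvx, hvy]
        · simp [hzv, hzx, hzy]
      have h1 := orb_mul J v
      rw [h6, hc] at h1
      have h2 : J ⊓ stabilizer M24 v ≤ FX {g • y, v, y, x} := by
        rintro a ⟨ha1, ha2⟩ p hp
        rw [Finset.mem_insert, Finset.mem_insert, Finset.mem_insert, Finset.mem_singleton] at hp
        rcases hp with rfl | rfl | rfl | rfl
        · exact hfz a ⟨hJH ha1, ha2⟩
        · exact ha2
        · exact hfy a ha1
        · exact hfx a ha1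
      have h3 : J ⊓ stabilizer M24 v = FX {g • y, v, y, x} := by
        apply Subgroup.eq_of_le_of_card_ge h2
        rw [card_FX4 h4]
        omega
      have h5 : FX {g • y, v, y, x} ≤ stabilizer M24 (orb J v) := by
        rw [← h3]
        exact fun a ha => smul_eq_of_inv (orb_inv J v) ha.1
      have h8 := Finset.card_le_card (inv_sub (by rw [h4]) (by rw [h4, h6]; norm_num) h5)
      rw [h4, h6] at h8
      omega
  · -- 18
    exfalso
    have hR5 : R.card = 5 := by omega
    obtain ⟨k, hk, hkd, -⟩ := card_kernel hRinv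
    rw [hR5] at hkd
    have hk120 : k ≤ 120 := Nat.le_of_dvd (by norm_num) hkd
    have h1 : J ⊓ FX R ≤ FX o := by
      refine le_trans ?_ (FX_six ho hRo (by rw [Finset.card_insert_of_notMem hxR, hR5]))
      rintro g ⟨hg1, hg2⟩ p hp
      rcases Finset.mem_insert.1 hp with rfl | hp
      · exact hfx g hg1
      · exact hg2 p hp
    have h2 := Subgroup.card_le_of_le h1
    rw [card_FXo ho] at h2
    have h3 : k * Nat.card (J ⊓ FX R : Subgroup M24) ≤ 120 * 16 := Nat.mul_le_mul hk120 h2
    omega
  · -- 20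
    have hR3 : R.card = 3 := by omega
    have h4 : (insert x R).card = 4 := by rw [Finset.card_insert_of_notMem hxR, hR3]
    obtain ⟨k, hk, hkd, -⟩ := card_kernel hRinv
    rw [hR3] at hkd
    have hk6 : k ≤ 6 := Nat.le_of_dvd (by norm_num) hkd
    have h1 : J ⊓ FX R ≤ FX (insert x R) := by
      rintro g ⟨hg1, hg2⟩ p hp
      rcases Finset.mem_insert.1 hp with rfl | hp
      · exact hfx g hg1
      · exact hg2 p hp
    have h2 : J ⊓ FX R = FX (insert x R) := by
      apply Subgroup.eq_of_le_of_card_ge h1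
      rw [card_FX4 h4]
      by_contra hlt
      have h3 : k * Nat.card (J ⊓ FX R : Subgroup M24) ≤ 6 * 959 := Nat.mul_le_mul hk6 (by omega)
      omega
    refine ⟨insert x R, h4, Finset.mem_insert_self _ _, ?_, ?_⟩
    · rw [← h2]
      exact inf_le_left.trans hJH
    · intro g hg
      have h3 : ∀ g ∈ J, ∀ y ∈ insert x R, g • y ∈ insert x R := by
        intro g hg y hy
        rcases Finset.mem_insert.1 hy with rfl | hy
        · rw [hfx g hg]; exact Finset.mem_insert_self _ _
        · exact Finset.mem_insert_of_mem (hRinv g hg y hy)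
      exact smul_eq_of_inv h3 hg

theorem idx1771 {H : Subgroup M24} (hH : Nat.card H = 138240) : ∃ S ∈ sextets, H = stabilizer M24 S := by
  rcases eight_or_trans (H := H) (by rw [hH]; norm_num) with ⟨x, hx⟩ | ht
  · exfalso
    obtain ⟨h1, h2⟩ := octad_orb hx (by rw [hH]; norm_num)
    have h3 := Subgroup.card_dvd_of_le h2
    rw [hH, Orb.card_stabilizer_octad h1] at h3
    omega
  have hJc : ∀ x : GolayPt, Nat.card (H ⊓ stabilizer M24 x : Subgroup M24) = 5760 := by
    intro x
    have h1 := orb_mul H x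
    rw [ht x, card_univ24, hH] at h1
    omega
  have htr : ∀ x y : GolayPt, ∃ g ∈ H, g • x = y := fun x y => mem_orb.1 (by rw [ht x]; exact Finset.mem_univ y)
  choose t ht4 htm htF htS using tetrad hJc htr
  have huniq : ∀ x y, y ∈ t x → t y = t x := by
    intro x y hy
    apply Finset.eq_of_subset_of_card_le _ (by rw [ht4, ht4])
    apply inv_sub (by rw [ht4]) (by rw [ht4, ht4]; norm_num)
    intro g hg
    exact htS y ⟨htF x hg, hg y hy⟩
  have hdisj : ∀ x z, t x ≠ t z → Disjoint (t x) (t z) := by
    intro x z h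
    rw [Finset.disjoint_left]
    intro v hv hv'
    exact h ((huniq x v hv).symm.trans (huniq z v hv'))
  have hoct : ∀ x z, t x ≠ t z → t x ∪ t z ∈ octads := by
    intro x z h
    have hz : z ∉ t x := fun h' => h (huniq x z h').symm
    obtain ⟨o, ho, hso⟩ := exists_octad (s := insert z (t x)) (by rw [Finset.card_insert_of_notMem hz, ht4])
    have h1 : t z ⊆ o := by
      intro w hw
      by_contra hwo
      have h2 : oᶜ ⊆ t z := by
        intro y hy
        obtain ⟨σ, hσ, h2, h3⟩ := fix_trans ho hwo (Finset.mem_compl.1 hy)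
        have h4 : (⟨σ, hσ⟩ : M24) ∈ FX (insert z (t x)) := fun p hp => h2 p (hso hp)
        have h5 : (⟨σ, hσ⟩ : M24) ∈ H ⊓ stabilizer M24 z :=
          ⟨htF x (FX_anti (Finset.subset_insert _ _) h4), h4 z (Finset.mem_insert_self _ _)⟩
        have h6 : (⟨σ, hσ⟩ : M24) • t z = t z := htS z h5
        have h7 : (⟨σ, hσ⟩ : M24) • w = y := h3
        rw [← h6, ← h7]
        exact Finset.smul_mem_smul_finset hw
      have h3 := Finset.card_le_card h2
      rw [card_compl24, card_octad ho, ht4] at h3
      omega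
    have h2 : t x ∪ t z = o := by
      apply Finset.eq_of_subset_of_card_le (Finset.union_subset ((Finset.subset_insert _ _).trans hso) h1)
      rw [Finset.card_union_of_disjoint (hdisj x z h), ht4, ht4, card_octad ho]
    rw [h2]
    exact ho
  have hmap : ∀ g ∈ H, ∀ x, g • t x = t (g • x) := by
    intro g hg x
    symm
    apply Finset.eq_of_subset_of_card_le _ (by rw [Finset.card_smul_finset, ht4, ht4])
    apply inv_sub (by rw [Finset.card_smul_finset, ht4]) (by rw [Finset.card_smul_finset, ht4, ht4]; norm_num)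
    intro a ha
    apply htS (g • x)
    refine Subgroup.mem_inf.2 ⟨?_, ha _ (Finset.smul_mem_smul_finset (htm x))⟩
    have h5 : g⁻¹ * a * g ∈ FX (t x) := by
      intro p hp
      rw [mul_assoc, mul_smul, mul_smul, ha _ (Finset.smul_mem_smul_finset hp), inv_smul_smul]
    have h6 := htF x h5
    have h7 : a = g * (g⁻¹ * a * g) * g⁻¹ := by group
    rw [h7]
    exact mul_mem (mul_mem hg h6) (inv_mem hg)
  obtain ⟨S, hS⟩ : ∃ S : Finset (Finset GolayPt), S = Finset.univ.image t := ⟨_, rfl⟩
  have hmem : ∀ s, s ∈ S ↔ ∃ x, t x = s := by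
    intro s
    rw [hS, Finset.mem_image]
    simp
  have hScard : S.card = 6 := by
    have h1 : S.biUnion id = Finset.univ := by
      rw [Finset.eq_univ_iff_forall]
      intro x
      rw [Finset.mem_biUnion]
      exact ⟨t x, (hmem _).2 ⟨x, rfl⟩, htm x⟩
    have h2 : (S.biUnion id).card = ∑ s ∈ S, s.card := by
      apply Finset.card_biUnion
      intro a ha b hb hab
      obtain ⟨u, rfl⟩ := (hmem a).1 ha
      obtain ⟨v, rfl⟩ := (hmem b).1 hb
      exact hdisj u v hab
    rw [h1, card_univ24, Finset.sum_congr rfl (g := fun _ => 4) (fun s hs => by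
      obtain ⟨u, rfl⟩ := (hmem s).1 hs
      exact ht4 u), Finset.sum_const, smul_eq_mul] at h2
    omega
  have hsext : S ∈ sextets := by
    refine ⟨hScard, fun s hs => ?_, fun a ha b hb hab => ?_⟩
    · obtain ⟨u, rfl⟩ := (hmem s).1 hs
      exact ht4 u
    · obtain ⟨u, rfl⟩ := (hmem a).1 ha
      obtain ⟨v, rfl⟩ := (hmem b).1 hb
      exact hoct u v hab
  refine ⟨S, hsext, ?_⟩
  apply Subgroup.eq_of_le_of_card_ge
  · intro g hg
    rw [mem_stabilizer_iff]
    apply Finset.eq_of_subset_of_card_le
    · intro s hs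
      rw [Finset.mem_smul_finset] at hs
      obtain ⟨s', hs', rfl⟩ := hs
      obtain ⟨u, rfl⟩ := (hmem s').1 hs'
      rw [hmap g hg]
      exact (hmem _).2 ⟨_, rfl⟩
    · rw [Finset.card_smul_finset]
  · rw [card_sext_stab hsext, hH]

end Cfsg.Agent.M24X.Idx
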