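import Cfsg.Agent.M24X.M23sub
import Cfsg.Agent.Golay.Gens
import Cfsg.Agent.H90.M24Fix

/-!
# `PSL(2, 23)` in `M24` and `23:11` in `M23` (owner: helper92)
-/

set_option autoImplicit false

namespace Cfsg.Agent.M24X.L223

open Cfsg MulAction Cfsg.Agent.Golay Cfsg.Agent.Golay.Orb Cfsg.Agent.M24X
open scoped Pointwise

section gen

variable {G : Type*} [Group G] [Finite G]

/-- relative Sylow count for a cyclic subgroup of prime order -/
theorem rel_sylow {J : Subgroup G} {c : G} {p : ℕ} (hp : p.Prime) (hc : c ∈ J) (ho : orderOf c = p)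
    (h2 : ¬ p ^ 2 ∣ Nat.card J) :
    ∃ n : ℕ, Nat.card (Subgroup.normalizer (Subgroup.zpowers c : Set G) ⊓ J : Subgroup G) * n = Nat.card J ∧
      n ≡ 1 [MOD p] := by
  have : Fact p.Prime := ⟨hp⟩
  have hle : Subgroup.zpowers c ≤ J := Subgroup.zpowers_le.2 hc
  set P : Subgroup J := (Subgroup.zpowers c).subgroupOf J with hP
  have hcP : Nat.card P = p := by
    rw [hP, Nat.card_congr (Subgroup.subgroupOfEquivOfLe hle).toEquiv, Nat.card_zpowers, ho]
  have hd : p ∣ Nat.card J := by
    have := Subgroup.card_subgroup_dvd_card P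
    rwa [hcP] at this
  have hpos : Nat.card J ≠ 0 := Nat.card_pos.ne'
  have hf : (Nat.card J).factorization p = 1 := by
    have h3 : 1 ≤ (Nat.card J).factorization p := (hp.dvd_iff_one_le_factorization hpos).1 hd
    have h4 : ¬ 2 ≤ (Nat.card J).factorization p := fun h => h2 ((hp.pow_dvd_iff_le_factorization hpos).2 h)
    omega
  let S : Sylow p J := Sylow.ofCard P (by rw [hcP, hf, pow_one])
  have h1 := card_sylow_modEq_one (p := p) (G := J)
  rw [S.card_eq_index_normalizer] at h1
  refine ⟨_, ?_, h1⟩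
  have h5 : (Subgroup.normalizer (Subgroup.zpowers c : Set G)).subgroupOf J =
      Subgroup.normalizer ((S : Subgroup J) : Set J) := Subgroup.subgroupOf_normalizer_eq hle
  have h6 : Nat.card (Subgroup.normalizer (Subgroup.zpowers c : Set G) ⊓ J : Subgroup G) =
      Nat.card ((Subgroup.normalizer (Subgroup.zpowers c : Set G)).subgroupOf J) := by
    rw [← Subgroup.subgroupOf_map_subtype, Subgroup.card_map_of_injective J.subtype_injective]
  rw [h6, h5]
  exact Subgroup.card_mul_index _

/-- the normaliser of a self-centralising subgroup of prime order -/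
theorem card_norm {N : Subgroup G} {c : G} {p : ℕ} (hp : p.Prime) (ho : orderOf c = p)
    (hN : N ≤ Subgroup.normalizer (Subgroup.zpowers c : Set G)) (hc : c ∈ N)
    (hC : ∀ g ∈ N, g * c = c * g → g ∈ Subgroup.zpowers c) : ∃ k, Nat.card N = p * k ∧ k ∣ p - 1 := by
  have : Fact p.Prime := ⟨hp⟩
  let φ : N →* MulAut (Subgroup.zpowers c) :=
    (Subgroup.zpowers c).normalizerMonoidHom.comp (Subgroup.inclusion hN)
  have hle : Subgroup.zpowers c ≤ N := Subgroup.zpowers_le.2 hc
  have hker : φ.ker = (Subgroup.zpowers c).subgroupOf N := by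
    ext g
    rw [MonoidHom.mem_ker, Subgroup.mem_subgroupOf]
    constructor
    · intro h
      apply hC g.1 g.2
      have h1 := congrArg (fun a : MulAut (Subgroup.zpowers c) => (a ⟨c, Subgroup.mem_zpowers c⟩ : G)) h
      have h2 : (g : G) * c * (g : G)⁻¹ = c := h1
      rw [mul_inv_eq_iff_eq_mul] at h2
      exact h2
    · intro h
      ext ⟨x, hx⟩
      show (g : G) * x * (g : G)⁻¹ = x
      obtain ⟨i, hi⟩ := Subgroup.mem_zpowers_iff.1 h
      obtain ⟨j, hj⟩ := Subgroup.mem_zpowers_iff.1 hx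
      rw [← hi, ← hj]
      rw [mul_inv_eq_iff_eq_mul, ← zpow_add, ← zpow_add, add_comm]
  have h1 := Subgroup.card_mul_index φ.ker
  rw [Subgroup.index_ker, hker, Nat.card_congr (Subgroup.subgroupOfEquivOfLe hle).toEquiv, Nat.card_zpowers, ho] at h1
  refine ⟨_, h1.symm, ?_⟩
  have h2 := Subgroup.card_subgroup_dvd_card φ.range
  rw [IsCyclic.card_mulAut, Nat.card_zpowers, ho, Nat.totient_prime hp] at h2
  exact h2

end gen

/-- divisors of 40320 -/
theorem divs : ∀ m < 202, 40320 % m = 0 → ((m % 23 = 1 → (m % 11 = 1 ∨ m % 11 = 5) → m = 1) ∧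
    ((40320 / m) % 23 = 1 → ((40320 / m) % 11 = 1 ∨ (40320 / m) % 11 = 5) → m = 1)) := by
  decide +kernel

theorem divs' {m : ℕ} (h : m ∣ 40320) (h1 : m % 23 = 1) (h2 : m % 11 = 1 ∨ m % 11 = 5) : m = 1 ∨ m = 40320 := by
  obtain ⟨k, hk⟩ := h
  have hm : 0 < m := by
    rcases Nat.eq_zero_or_pos m with rfl | h
    · omega
    · exact h
  have hk0 : 0 < k := by
    rcases Nat.eq_zero_or_pos k with rfl | h
    · omega
    · exact h
  by_cases hlt : m < 202
  · exact Or.inl ((divs m hlt (Nat.mod_eq_zero_of_dvd ⟨k, hk⟩)).1 h1 h2)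
  · right
    have hk2 : k < 202 := by
      by_contra h3
      have : 202 * 202 ≤ m * k := Nat.mul_le_mul (by omega) (by omega)
      omega
    have h3 : 40320 / k = m := by rw [hk]; exact Nat.mul_div_cancel _ hk0
    have h4 := (divs k hk2 (Nat.mod_eq_zero_of_dvd ⟨m, by rw [hk, Nat.mul_comm]⟩)).2 (by rw [h3]; exact h1)
      (by rw [h3]; exact h2)
    rw [h4, mul_one] at hk
    exact hk.symm

/-! ### centralisers of elements of order 23 and 11 -/

theorem fix23 {g : M24} (hg : orderOf g = 23) : (fixF g).card = 1 := by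
  have h1 := modEq_fixF_univ (by norm_num) hg
  have h2 := card_fixF_le hg (k := 1) (fun s hs => card_FX2 hs) (by norm_num)
  have h3 : (fixF g).card % 23 = 1 := by rw [← h1]
  omega

theorem card_orb_prime {c : M24} {p : ℕ} (hp : p.Prime) (hc : orderOf c = p) {y : GolayPt} (hy : y ∉ fixF c) :
    (orb (Subgroup.zpowers c) y).card = p := by
  have h1 := orb_dvd (Subgroup.zpowers c) y
  rw [Nat.card_zpowers, hc] at h1
  rcases (Nat.dvd_prime hp).1 h1 with h | h
  · exfalso
    obtain ⟨w, hw⟩ := Finset.card_eq_one.1 h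
    have h2 := self_mem_orb (Subgroup.zpowers c) y
    have h3 := smul_mem_orb (Subgroup.mem_zpowers c) h2
    rw [hw, Finset.mem_singleton] at h2 h3
    exact hy (mem_fixF.2 (h3.trans h2.symm))
  · exact h

theorem comm_fix {h c : M24} (hc : h * c = c * h) {y : GolayPt} (hy : h • y = y) :
    h ∈ FX (orb (Subgroup.zpowers c) y) := by
  intro z hz
  obtain ⟨g, hg, rfl⟩ := mem_orb.1 hz
  obtain ⟨i, rfl⟩ := Subgroup.mem_zpowers_iff.1 hg
  have : h * c ^ i = c ^ i * h := (Commute.zpow_right hc i).eq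
  rw [← mul_smul, this, mul_smul, hy]

/-- an element commuting with `c` and moving a point inside its `⟨c⟩`-orbit lies in `⟨c⟩` -/
theorem mem_of_orb {g c : M24} {p : ℕ} (hp : p.Prime) (h9 : 9 ≤ p) (hc : orderOf c = p) (hg : g * c = c * g)
    {y : GolayPt} (hy : y ∉ fixF c) (h : g • y ∈ orb (Subgroup.zpowers c) y) : g ∈ Subgroup.zpowers c := by
  obtain ⟨a, ha, hay⟩ := mem_orb.1 h
  obtain ⟨i, rfl⟩ := Subgroup.mem_zpowers_iff.1 ha
  have hci : c ^ i * c = c * c ^ i := (Commute.zpow_left (Commute.refl c) i).eq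
  have h1 : ((c ^ i)⁻¹ * g) * c = c * ((c ^ i)⁻¹ * g) := by
    have h2 : (c ^ i)⁻¹ * c = c * (c ^ i)⁻¹ := by
      rw [inv_mul_eq_iff_eq_mul, ← mul_assoc, hci, mul_inv_cancel_right]
    rw [mul_assoc, hg, ← mul_assoc, h2, mul_assoc]
  have h3 : ((c ^ i)⁻¹ * g) • y = y := by rw [mul_smul, ← hay, inv_smul_smul]
  have h4 := comm_fix h1 h3
  rw [FX_nine (by rw [card_orb_prime hp hc hy]; exact h9), Subgroup.mem_bot] at h4
  have h5 : g = c ^ i := by rw [inv_mul_eq_one] at h4; exact h4.symm
  rw [h5]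
  exact ha

theorem comm_fixF {g c : M24} (hg : g * c = c * g) {y : GolayPt} : g • y ∈ fixF c ↔ y ∈ fixF c := by
  rw [mem_fixF, mem_fixF, ← mul_smul, ← hg, mul_smul]
  exact (MulAction.injective g).eq_iff

theorem orb_zp_out {c : M24} {y z : GolayPt} (hy : y ∉ fixF c) (hz : z ∈ orb (Subgroup.zpowers c) y) :
    z ∉ fixF c := by
  obtain ⟨g, hg, rfl⟩ := mem_orb.1 hz
  obtain ⟨i, rfl⟩ := Subgroup.mem_zpowers_iff.1 hg
  rw [comm_fixF (Commute.zpow_left (Commute.refl c) i).eq]
  exact hy

theorem cent23 {g c : M24} (hc : orderOf c = 23) (hg : g * c = c * g) : g ∈ Subgroup.zpowers c := by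
  have hp : Nat.Prime 23 := by norm_num
  have h1 := fix23 hc
  obtain ⟨y, hy⟩ : ∃ y, y ∉ fixF c := by
    by_contra hn
    push Not at hn
    have h2 := Finset.card_le_card (show (Finset.univ : Finset GolayPt) ⊆ fixF c from fun z _ => hn z)
    rw [card_univ24, h1] at h2
    omega
  apply mem_of_orb hp (by norm_num) hc hg hy
  by_contra hn
  have h3 : orb (Subgroup.zpowers c) y ⊆ (insert (g • y) (fixF c))ᶜ := by
    intro z hz
    rw [Finset.mem_compl, Finset.mem_insert]
    rintro (h | h)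
    · rw [h] at hz; exact hn hz
    · exact orb_zp_out hy hz h
  have h4 := Finset.card_le_card h3
  rw [card_orb_prime hp hc hy, card_compl24, Finset.card_insert_of_notMem (by rwa [comm_fixF hg]), h1] at h4
  omega

theorem fixF_inv {h : M24} (h2 : h * h = 1) (h1 : h ≠ 1) : (fixF h).card = 8 ∨ (fixF h).card = 0 :=
  H90.inv_fix_card h.2 (congrArg Subtype.val h2) (fun h' => h1 (Subtype.ext h'))

theorem cent11 {g d : M24} (hd : orderOf d = 11) (hg : g * d = d * g) {x : GolayPt} (hx : d • x = x)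
    (hgx : g • x = x) : g ∈ Subgroup.zpowers d := by
  have hp : Nat.Prime 11 := by norm_num
  have h1 := fix11 hd
  obtain ⟨z, hz⟩ : ∃ y, y ∉ fixF d := by
    by_contra hn
    push Not at hn
    have h2 := Finset.card_le_card (show (Finset.univ : Finset GolayPt) ⊆ fixF d from fun z _ => hn z)
    rw [card_univ24, h1] at h2
    omega
  by_cases hgz : g • z ∈ orb (Subgroup.zpowers d) z
  · exact mem_of_orb hp (by norm_num) hd hg hz hgz
  exfalso
  have hgz' : g • z ∉ fixF d := by rwa [comm_fixF hg]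
  have hgg : (g * g) * d = d * (g * g) := by rw [mul_assoc, hg, ← mul_assoc, hg, mul_assoc]
  have h3 : (g * g) • z ∈ orb (Subgroup.zpowers d) z := by
    by_contra hn
    have h4 : (g * g) • z ∈ orb (Subgroup.zpowers d) (g • z) := by
      by_contra hn2
      have hdis1 : Disjoint (orb (Subgroup.zpowers d) z) (orb (Subgroup.zpowers d) (g • z)) := orb_disj hgz
      have hsub : orb (Subgroup.zpowers d) z ∪ orb (Subgroup.zpowers d) (g • z) ⊆
          (insert ((g * g) • z) (fixF d))ᶜ := by
        intro w hw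
        rw [Finset.mem_compl, Finset.mem_insert]
        rcases Finset.mem_union.1 hw with hw | hw
        · rintro (h | h)
          · rw [h] at hw; exact hn hw
          · exact orb_zp_out hz hw h
        · rintro (h | h)
          · rw [h] at hw; exact hn2 hw
          · exact orb_zp_out hgz' hw h
      have h5 := Finset.card_le_card hsub
      rw [Finset.card_union_of_disjoint hdis1, card_orb_prime hp hd hz, card_orb_prime hp hd hgz', card_compl24,
        Finset.card_insert_of_notMem (by rwa [comm_fixF hgg]), h1] at h5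
      omega
    obtain ⟨a, ha, haz⟩ := mem_orb.1 h4
    apply hgz
    refine mem_orb.2 ⟨a, ha, ?_⟩
    obtain ⟨i, rfl⟩ := Subgroup.mem_zpowers_iff.1 ha
    have h5 : g * d ^ i = d ^ i * g := (Commute.zpow_right hg i).eq
    rw [mul_smul, ← mul_smul, ← h5, mul_smul] at haz
    exact (MulAction.injective g) haz
  have h4 := mem_of_orb hp (by norm_num) hd hgg hz h3
  obtain ⟨i, hi⟩ := Subgroup.mem_zpowers_iff.1 h4
  have h5 : g * d ^ (5 * i) = d ^ (5 * i) * g := (Commute.zpow_right hg _).eq
  obtain ⟨h, hh⟩ : ∃ h, h = g * d ^ (5 * i) := ⟨_, rfl⟩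
  have h6 : h * h = 1 := by
    have h7 : h * h = (g * g) * d ^ (10 * i) := by
      rw [hh]
      calc g * d ^ (5 * i) * (g * d ^ (5 * i)) = g * (d ^ (5 * i) * g) * d ^ (5 * i) := by group
        _ = g * (g * d ^ (5 * i)) * d ^ (5 * i) := by rw [h5]
        _ = g * g * (d ^ (5 * i) * d ^ (5 * i)) := by group
        _ = (g * g) * d ^ (10 * i) := by rw [← zpow_add]; congr 2; ring
    rw [h7, ← hi, ← zpow_add, show i + 10 * i = (11 : ℕ) * i by push_cast; ring, zpow_mul, zpow_natCast, ← hd,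
      pow_orderOf_eq_one, one_zpow]
  have h7 : h ≠ 1 := by
    intro h8
    apply hgz
    have h9 : g = (d ^ (5 * i))⁻¹ := by rw [hh, mul_eq_one_iff_eq_inv] at h8; exact h8
    rw [h9]
    exact smul_mem_orb (inv_mem (zpow_mem (Subgroup.mem_zpowers d) _)) (self_mem_orb _ _)
  have hhd : h * d = d * h := by
    have : d ^ (5 * i) * d = d * d ^ (5 * i) := (Commute.zpow_left (Commute.refl d) _).eq
    rw [hh, mul_assoc, this, ← mul_assoc, hg, mul_assoc]
  have h8 : fixF h ⊆ fixF d := by
    intro w hw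
    by_contra hn
    have h9 := comm_fix hhd (mem_fixF.1 hw)
    rw [FX_nine (by rw [card_orb_prime hp hd hn]; norm_num), Subgroup.mem_bot] at h9
    exact h7 h9
  have h9 : x ∈ fixF h := by
    rw [mem_fixF, hh, mul_smul]
    have h10 : d ^ (5 * i) • x = x := by
      have : d ^ (5 * i) ∈ stabilizer M24 x := zpow_mem hx _
      exact this
    rw [h10, hgx]
  rcases fixF_inv h6 h7 with h10 | h10
  · have := Finset.card_le_card h8
    omega
  · rw [Finset.card_eq_zero] at h10
    rw [h10] at h9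
    exact absurd h9 (by simp)

theorem card_M24x : Nat.card M24 = 244823040 := by
  have := card_FX0
  rwa [FX_empty, Subgroup.card_top] at this

/-- The normaliser of a subgroup of order 23 in `M24`. -/
theorem norm23 {c : M24} (hc : orderOf c = 23) :
    Nat.card (Subgroup.normalizer (Subgroup.zpowers c : Set M24) : Subgroup M24) = 253 := by
  obtain ⟨n, hn, hn1⟩ := rel_sylow (J := (⊤ : Subgroup M24)) (by norm_num) (Subgroup.mem_top c) hc
    (by rw [Subgroup.card_top, card_M24x]; norm_num)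
  rw [inf_top_eq, Subgroup.card_top, card_M24x] at hn
  obtain ⟨k, hk, hkd⟩ := card_norm (by norm_num) hc (le_refl _)
    (Subgroup.le_normalizer (Subgroup.mem_zpowers c)) (fun g _ hg => cent23 hc hg)
  rw [hk] at hn ⊢
  have hk2 : k ≤ 22 := Nat.le_of_dvd (by norm_num) hkd
  have h1 : k * n = 10644480 := by
    have : 23 * (k * n) = 23 * 10644480 := by rw [← mul_assoc, hn]
    exact Nat.eq_of_mul_eq_mul_left (by norm_num) this
  have h2 : k * n % 23 = k % 23 := by
    have := (Nat.ModEq.refl (n := 23) k).mul hn1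
    rw [mul_one] at this
    exact this
  rw [h1] at h2
  have h3 : k = 11 := by omega
  rw [h3]

/-- The normaliser of a subgroup of order 11 in `M23`. -/
theorem norm11 {d : M24} (hd : orderOf d = 11) {x : GolayPt} (hx : d • x = x) :
    Nat.card (Subgroup.normalizer (Subgroup.zpowers d : Set M24) ⊓ FX {x} : Subgroup M24) = 55 := by
  have hdx : d ∈ FX {x} := fun p hp => by rw [Finset.mem_singleton.1 hp]; exact hx
  have hcard : Nat.card (FX {x}) = 10200960 := card_FX1 (Finset.card_singleton x)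
  obtain ⟨n, hn, hn1⟩ := rel_sylow (J := FX {x}) (by norm_num) hdx hd
    (by rw [hcard]; norm_num)
  rw [hcard] at hn
  obtain ⟨k, hk, hkd⟩ := card_norm (N := Subgroup.normalizer (Subgroup.zpowers d : Set M24) ⊓ FX {x})
    (by norm_num) hd inf_le_left ⟨Subgroup.le_normalizer (Subgroup.mem_zpowers d), hdx⟩
    (fun g hg hgd => cent11 hd hgd hx (hg.2 x (Finset.mem_singleton_self x)))
  rw [hk] at hn ⊢
  have hk2 : k ≤ 10 := Nat.le_of_dvd (by norm_num) hkd
  have h1 : k * n = 927360 := by
    have : 11 * (k * n) = 11 * 927360 := by rw [← mul_assoc, hn]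
    exact Nat.eq_of_mul_eq_mul_left (by norm_num) this
  have h2 : k * n % 11 = k % 11 := by
    have := (Nat.ModEq.refl (n := 11) k).mul hn1
    rw [mul_one] at this
    exact this
  rw [h1] at h2
  have h3 : k = 5 := by omega
  rw [h3]

/-! ### the two maximal subgroups -/

section main

variable {B : Subgroup M24} {c d : M24} {x : GolayPt}

theorem card_B (hc : orderOf c = 23) (hd : orderOf d = 11) (hcB : c ∈ B) (hdB : d ∈ B)
    (hN : B ≤ Subgroup.normalizer (Subgroup.zpowers c : Set M24)) : Nat.card B = 253 := by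
  have h1 := Subgroup.card_dvd_of_le hN
  rw [norm23 hc] at h1
  have h2 : 23 ∣ Nat.card B := by
    rw [← hc, ← Nat.card_zpowers]
    exact Subgroup.card_dvd_of_le (Subgroup.zpowers_le.2 hcB)
  have h3 : 11 ∣ Nat.card B := by
    rw [← hd, ← Nat.card_zpowers]
    exact Subgroup.card_dvd_of_le (Subgroup.zpowers_le.2 hdB)
  have h4 : 23 * 11 ∣ Nat.card B := Nat.Coprime.mul_dvd_of_dvd_of_dvd (by norm_num) h2 h3
  exact Nat.dvd_antisymm h1 h4

theorem max_B (hc : orderOf c = 23) (hd : orderOf d = 11) (hcB : c ∈ B) (hdB : d ∈ B)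
    (hN : B ≤ Subgroup.normalizer (Subgroup.zpowers c : Set M24)) {J : Subgroup M24} (hBJ : B ≤ J)
    (hJ : J ≤ FX {x}) : J = B ∨ J = FX {x} := by
  have hB := card_B hc hd hcB hdB hN
  have hcard : Nat.card (FX {x}) = 10200960 := card_FX1 (Finset.card_singleton x)
  have hJd := Subgroup.card_dvd_of_le hJ
  rw [hcard] at hJd
  obtain ⟨m, hm⟩ := Subgroup.card_dvd_of_le hBJ
  rw [hB] at hm
  have hmd : m ∣ 40320 := by
    rw [hm, show (10200960 : ℕ) = 253 * 40320 by norm_num] at hJd
    exact Nat.dvd_of_mul_dvd_mul_left (by norm_num) hJd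
  have hdx : d • x = x := hJ (hBJ hdB) x (Finset.mem_singleton_self x)
  obtain ⟨n, hn, hn1⟩ := rel_sylow (J := J) (p := 23) (by norm_num) (hBJ hcB) hc
    (fun h => absurd (h.trans hJd) (by norm_num))
  have h1 : Nat.card (Subgroup.normalizer (Subgroup.zpowers c : Set M24) ⊓ J : Subgroup M24) = 253 := by
    apply le_antisymm
    · rw [← norm23 hc]
      exact Subgroup.card_le_of_le inf_le_left
    · rw [← hB]
      exact Subgroup.card_le_of_le (le_inf hN hBJ)
  rw [h1, hm] at hn
  have hmn : n = m := Nat.eq_of_mul_eq_mul_left (by norm_num) hn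
  have h23 : m % 23 = 1 := by rw [← hmn]; exact hn1
  obtain ⟨n', hn', hn1'⟩ := rel_sylow (J := J) (p := 11) (by norm_num) (hBJ hdB) hd
    (fun h => absurd (h.trans hJd) (by norm_num))
  have h2 : Nat.card (Subgroup.normalizer (Subgroup.zpowers d : Set M24) ⊓ J : Subgroup M24) ∣ 55 := by
    rw [← norm11 hd hdx]
    exact Subgroup.card_dvd_of_le (inf_le_inf_left _ hJ)
  have h3 : 11 ∣ Nat.card (Subgroup.normalizer (Subgroup.zpowers d : Set M24) ⊓ J : Subgroup M24) := by
    conv_lhs => rw [← hd, ← Nat.card_zpowers]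
    exact Subgroup.card_dvd_of_le (le_inf Subgroup.le_normalizer (Subgroup.zpowers_le.2 (hBJ hdB)))
  obtain ⟨k, hk⟩ := h3
  rw [hk] at h2 hn'
  have hk5 : k = 1 ∨ k = 5 := by
    have : k ∣ 5 := Nat.dvd_of_mul_dvd_mul_left (k := 11) (by norm_num) h2
    exact (Nat.dvd_prime Nat.prime_five).1 this
  have h11 : m % 11 = 1 ∨ m % 11 = 5 := by
    have h4 : n' % 11 = 1 := hn1'
    rw [hm] at hn'
    rcases hk5 with rfl | rfl
    · left; omega
    · right; omega
  rcases divs' hmd h23 h11 with h | h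
  · left
    symm
    apply Subgroup.eq_of_le_of_card_ge hBJ
    rw [hm, hB, h]
  · right
    apply Subgroup.eq_of_le_of_card_ge hJ
    rw [hm, hcard, h]

theorem max_L (hc : orderOf c = 23) (hd : orderOf d = 11) (hcB : c ∈ B) (hdB : d ∈ B)
    (hN : B ≤ Subgroup.normalizer (Subgroup.zpowers c : Set M24)) (hBx : B ≤ FX {x}) {J : Subgroup M24}
    (hBJ : B ≤ J) (ht : ∀ y : GolayPt, ∃ g ∈ J, g • x = y) :
    Nat.card J = 6072 ∨ J = ⊤ := by
  have hB := card_B hc hd hcB hdB hN
  have h1 := orb_mul J x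
  have h2 : orb J x = Finset.univ := Finset.eq_univ_iff_forall.2 fun y => mem_orb.2 (ht y)
  rw [h2, card_univ24] at h1
  have hst : stabilizer M24 x = FX {x} := by
    ext g
    rw [mem_FX, mem_stabilizer_iff]
    simp
  rw [hst] at h1
  rcases max_B hc hd hcB hdB hN (J := J ⊓ FX {x}) (le_inf hBJ hBx) inf_le_right with h | h
  · left
    rw [← h1, h, hB]
  · right
    rw [h, card_FX1 (Finset.card_singleton x)] at h1
    apply Subgroup.eq_top_of_card_eq
    rw [← h1, card_M24x]

end main

end Cfsg.Agent.M24X.L223
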