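import Cfsg.Agent.M24X.Max
import Cfsg.Agent.Golay.Coset

/-! Linear maps of the code preserving the octads up to complements come from the group. -/

set_option autoImplicit false

namespace Cfsg.Agent.M24X.LinOct

open Cfsg MulAction Cfsg.Agent.Golay Cfsg.Agent.Golay.Coset Cfsg.Agent.M24X
open scoped Pointwise

theorem three {p q r : Prop} : ¬(p ↔ q) → ¬(p ↔ r) → ¬(q ↔ r) → False := by tauto

theorem other {p q : Prop} (h : ¬(p ↔ q)) (hp : ¬p) : q := by tauto

/-- the functional of a set of coordinates -/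
def fS (S : Finset GolayPt) (w : GolayPt → ZMod 2) : ZMod 2 := ∑ i ∈ S, w i

theorem fS_eq (S : Finset GolayPt) (w : GolayPt → ZMod 2) :
    fS S w = ((support₂ w ∩ S).card : ZMod 2) := by
  have h1 : ∀ i, w i = if i ∈ support₂ w then 1 else 0 := by
    intro i
    by_cases h : w i = 0
    · simp [support₂, h]
    · have h' : w i = 1 := zmod2_ne_zero h
      simp [support₂, h']
  rw [fS, Finset.sum_congr rfl (fun i _ => h1 i), Finset.sum_ite_mem, Finset.sum_const,
    Finset.inter_comm]
  simp

theorem cast_one_iff {n : ℕ} : (n : ZMod 2) = 1 ↔ Odd n := by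
  rw [← ZMod.natCast_ne_zero_iff_odd]
  constructor
  · intro h; rw [h]; exact one_ne_zero
  · exact zmod2_ne_zero

theorem fS_code {S : Finset GolayPt} (hS : S ∈ codeSets) {w : GolayPt → ZMod 2}
    (hw : w ∈ golayCode) : fS S w = 0 := by
  rw [fS_eq, ZMod.natCast_eq_zero_iff_even]
  exact even_card_inter (mem_golayCode_iff_support.1 hw) hS

theorem fS_symmDiff (S T : Finset GolayPt) (w : GolayPt → ZMod 2) :
    fS (symmDiff S T) w = fS S w + fS T w := by
  have h1 : ∀ U : Finset GolayPt, fS U w = ∑ i, wordOf U i * w i := by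
    intro U
    simp [fS, wordOf]
  have h2 : ∀ i, wordOf (symmDiff S T) i = wordOf S i + wordOf T i := by
    intro i
    simp only [wordOf, Finset.mem_symmDiff]
    by_cases h : i ∈ S <;> by_cases h' : i ∈ T <;> simp [h, h']
    decide
  rw [h1, h1, h1, ← Finset.sum_add_distrib]
  exact Finset.sum_congr rfl fun i _ => by rw [h2, add_mul]

theorem fS_pair {a b : GolayPt} (h : a ≠ b) (w : GolayPt → ZMod 2) : fS {a, b} w = w a + w b := by
  rw [fS, Finset.sum_pair h]

/-- representing functionals by small sets -/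
theorem rep (f : golayCode →ₗ[ZMod 2] ZMod 2) :
    ∃ S : Finset GolayPt, S.card ≤ 4 ∧ ∀ c : golayCode, f c = fS S c := by
  obtain ⟨F, hF⟩ := LinearMap.exists_extend f
  let S0 : Finset GolayPt := Finset.univ.filter fun i => F (Pi.single i 1) = 1
  have h0 : ∀ w : GolayPt → ZMod 2, F w = fS S0 w := by
    intro w
    have hw : w = ∑ i, w i • (Pi.single i (1 : ZMod 2) : GolayPt → ZMod 2) := by
      ext j
      simp [Finset.sum_apply, Pi.single_apply]
    conv_lhs => rw [hw]
    rw [map_sum, fS, Finset.sum_filter]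
    apply Finset.sum_congr rfl
    intro i _
    rw [map_smul, smul_eq_mul]
    by_cases h : F (Pi.single i 1) = 1
    · rw [if_pos h, h, mul_one]
    · rw [if_neg h]
      have : F (Pi.single i 1) = 0 := by
        by_contra hn
        exact h (zmod2_ne_zero hn)
      rw [this, mul_zero]
  obtain ⟨t, ht⟩ := near_nonempty S0
  rw [mem_near] at ht
  refine ⟨t, ht.1, fun c => ?_⟩
  have h1 : f c = F c := by rw [← hF]; rfl
  have h2 := fS_code ht.2 c.2
  rw [fS_symmDiff] at h2
  rw [h1, h0]
  exact (CharTwo.add_eq_zero).1 h2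

/-- code words (as sets) of octad type with odd intersection with a set -/
def B (S : Finset GolayPt) : Set (Finset GolayPt) :=
  {s | s ∈ codeSets ∧ (s.card = 8 ∨ s.card = 16) ∧ Odd (s ∩ S).card}

theorem B_smul {σ : Equiv.Perm GolayPt} (hσ : σ ∈ M24) (S : Finset GolayPt) :
    (B (σ • S)).ncard = (B S).ncard := by
  have h : B (σ • S) = (fun s : Finset GolayPt => σ • s) '' B S := by
    ext s
    constructor
    · rintro ⟨h1, h2, h3⟩
      refine ⟨σ⁻¹ • s, ⟨?_, ?_, ?_⟩, smul_inv_smul _ _⟩
      · exact (smul_mem_supports (inv_mem hσ)).2 h1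
      · rw [Finset.card_smul_finset]; exact h2
      · have : σ⁻¹ • s ∩ S = σ⁻¹ • (s ∩ σ • S) := by
          rw [Finset.smul_finset_inter, inv_smul_smul]
        rw [this, Finset.card_smul_finset]; exact h3
    · rintro ⟨t, ⟨h1, h2, h3⟩, rfl⟩
      refine ⟨(smul_mem_supports hσ).2 h1, ?_, ?_⟩
      · rw [Finset.card_smul_finset]; exact h2
      · show Odd (σ • t ∩ σ • S).card
        rw [← Finset.smul_finset_inter, Finset.card_smul_finset]; exact h3
  rw [h, Set.ncard_image_of_injective _ (MulAction.injective σ)]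

/-- the Boolean test -/
def pB (m n : ℕ) : Bool :=
  (Nat.beq (pop n) 8 || Nat.beq (pop n) 16) && Nat.beq (pop (Nat.land n m) % 2) 1

theorem ncard_B {m k : ℕ} (hm : m < 2 ^ 24) (h : countBin (fun n => pB m (enc n)) 12 0 = k) :
    (B (ofMask m)).ncard = k := by
  rw [← h, ← ncard_supports (pB m)]
  congr 1
  ext s
  have e1 : ∀ a b : ℕ, Nat.beq a b = true ↔ a = b := fun a b =>
    ⟨Nat.eq_of_beq_eq_true, fun h => h ▸ Nat.beq_refl a⟩
  have e2 : Nat.land (maskOf s) m = maskOf (s ∩ ofMask m) := by
    rw [maskOf_inter, maskOf_ofMask hm]; rfl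
  show (s ∈ codeSets ∧ (s.card = 8 ∨ s.card = 16) ∧ Odd (s ∩ ofMask m).card) ↔
    (s ∈ codeSets ∧ pB m (maskOf s) = true)
  rw [pB, Bool.and_eq_true, Bool.or_eq_true, e1, e1, e1, e2, ← card_eq_pop, ← card_eq_pop,
    Nat.odd_iff]

theorem cnt0 : countBin (fun n => pB 0 (enc n)) 12 0 = 0 := by decide +kernel
theorem cnt1 : countBin (fun n => pB 1 (enc n)) 12 0 = 759 := by decide +kernel
theorem cnt3 : countBin (fun n => pB 3 (enc n)) 12 0 = 704 := by decide +kernel
theorem cnt7 : countBin (fun n => pB 7 (enc n)) 12 0 = 759 := by decide +kernel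
theorem cnt15 : countBin (fun n => pB 15 (enc n)) 12 0 = 768 := by decide +kernel

theorem to_mask {S : Finset GolayPt} {m : ℕ} (h : S.card = (ofMask m).card) (h5 : S.card ≤ 5) :
    (B S).ncard = (B (ofMask m)).ncard := by
  obtain ⟨σ, hσ, h1, -⟩ := exists_map_two (s := S) (t := S) (s' := ofMask m) (t' := ofMask m) h h
    (by rw [Finset.inter_self, Finset.inter_self, h]) (by rw [Finset.union_self]; exact h5)
  rw [← h1, B_smul hσ]

theorem card_B {S : Finset GolayPt} (h4 : S.card ≤ 4) :
    (B S).ncard = if S.card = 0 then 0 else if S.card = 2 then 704 else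
      if S.card = 4 then 768 else 759 := by
  have h : S.card = 0 ∨ S.card = 1 ∨ S.card = 2 ∨ S.card = 3 ∨ S.card = 4 := by omega
  rcases h with h | h | h | h | h
  · rw [to_mask (m := 0) (by rw [h, card_ofMask]; decide +kernel) (by omega),
      ncard_B (by norm_num) cnt0, h]; rfl
  · rw [to_mask (m := 1) (by rw [h, card_ofMask]; decide +kernel) (by omega),
      ncard_B (by norm_num) cnt1, h]; rfl
  · rw [to_mask (m := 3) (by rw [h, card_ofMask]; decide +kernel) (by omega),
      ncard_B (by norm_num) cnt3, h]; rfl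
  · rw [to_mask (m := 7) (by rw [h, card_ofMask]; decide +kernel) (by omega),
      ncard_B (by norm_num) cnt7, h]; rfl
  · rw [to_mask (m := 15) (by rw [h, card_ofMask]; decide +kernel) (by omega),
      ncard_B (by norm_num) cnt15, h]; rfl

/-- the code is its own dual -/
theorem dual {T : Finset GolayPt} (h : ∀ w ∈ golayCode, fS T w = 0) : T ∈ codeSets := by
  obtain ⟨t, ht⟩ := near_nonempty T
  rw [mem_near] at ht
  have h1 : ∀ w ∈ golayCode, fS t w = 0 := by
    intro w hw
    have h2 := fS_code ht.2 hw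
    rw [fS_symmDiff, h w hw, zero_add] at h2
    exact h2
  have h0 : B t = ∅ := by
    rw [Set.eq_empty_iff_forall_notMem]
    rintro s ⟨hs, -, ho⟩
    obtain ⟨w, hw, rfl⟩ := hs
    have h2 := h1 w hw
    rw [fS_eq, ZMod.natCast_eq_zero_iff_even] at h2
    exact (Nat.not_even_iff_odd.2 ho) h2
  have h3 := card_B ht.1
  rw [h0, Set.ncard_empty] at h3
  have h4 : t.card = 0 := by
    by_contra hn
    rw [if_neg hn] at h3
    split_ifs at h3
  rw [Finset.card_eq_zero.1 h4] at ht
  have h5 : symmDiff T (∅ : Finset GolayPt) = T := symmDiff_bot T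
  rw [h5] at ht
  exact ht.2

variable (x : golayCode ≃ₗ[ZMod 2] golayCode)

/-- codewords of octad type -/
def oct (c : golayCode) : Prop :=
  (support₂ (c : GolayPt → ZMod 2)).card = 8 ∨ (support₂ (c : GolayPt → ZMod 2)).card = 16

def A (S : Finset GolayPt) : Set golayCode := {c | oct c ∧ fS S c = 1}

theorem card_A (S : Finset GolayPt) : (A S).ncard = (B S).ncard := by
  have h : B S = (fun c : golayCode => support₂ (c : GolayPt → ZMod 2)) '' A S := by
    ext s
    constructor
    · rintro ⟨⟨w, hw, rfl⟩, h2, h3⟩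
      refine ⟨⟨w, hw⟩, ⟨h2, ?_⟩, rfl⟩
      rw [fS_eq]; exact cast_one_iff.2 h3
    · rintro ⟨c, ⟨h1, h2⟩, rfl⟩
      refine ⟨⟨c, c.2, rfl⟩, h1, ?_⟩
      rw [fS_eq] at h2; exact cast_one_iff.1 h2
  rw [h, Set.ncard_image_of_injective]
  intro c d hcd
  exact Subtype.ext (support₂_injective hcd)

theorem one_mem : (1 : GolayPt → ZMod 2) ∈ golayCode :=
  Submodule.subset_span (Or.inr rfl)

variable {x}

theorem pair_of (hoct : ∀ c, oct (x c) ↔ oct c)
    {a b : GolayPt} (hab : a ≠ b) : ∃ S : Finset GolayPt, S.card = 2 ∧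
      ∀ c : golayCode, fS S (x c) = (c : GolayPt → ZMod 2) a + (c : GolayPt → ZMod 2) b := by
  let f0 : golayCode →ₗ[ZMod 2] ZMod 2 :=
    ((LinearMap.proj a : (GolayPt → ZMod 2) →ₗ[ZMod 2] ZMod 2) +
      (LinearMap.proj b : (GolayPt → ZMod 2) →ₗ[ZMod 2] ZMod 2)) ∘ₗ golayCode.subtype
  obtain ⟨S, hS4, hS⟩ := rep (f0 ∘ₗ x.symm.toLinearMap)
  have hf : ∀ c : golayCode, fS S (x c) =
      (c : GolayPt → ZMod 2) a + (c : GolayPt → ZMod 2) b := by
    intro c
    rw [← hS (x c)]
    simp [f0]
  refine ⟨S, ?_, hf⟩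
  have hA : A S = x '' A {a, b} := by
    ext c
    constructor
    · rintro ⟨h2, h3⟩
      refine ⟨x.symm c, ⟨?_, ?_⟩, x.apply_symm_apply c⟩
      · rw [← hoct, x.apply_symm_apply]; exact h2
      · rw [fS_pair hab, ← hf, x.apply_symm_apply]; exact h3
    · rintro ⟨d, ⟨h2, h3⟩, rfl⟩
      refine ⟨(hoct d).2 h2, ?_⟩
      rw [hf, ← fS_pair hab]; exact h3
  have hcard : (B S).ncard = (B {a, b}).ncard := by
    rw [← card_A, ← card_A, hA, Set.ncard_image_of_injective _ x.injective]
  have h2 : ({a, b} : Finset GolayPt).card = 2 := Finset.card_pair hab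
  rw [card_B hS4, card_B (by omega), h2] at hcard
  by_contra hn
  simp only [if_neg hn] at hcard
  norm_num at hcard
  split_ifs at hcard <;> omega

/-- The main result. -/
theorem main (hoct : ∀ c, oct (x c) ↔ oct c) :
    ∃ σ ∈ M24, ∀ c : golayCode, ((x c : golayCode) : GolayPt → ZMod 2) =
      (fun p => (c : GolayPt → ZMod 2) (σ.symm p)) ∨
      ((x c : golayCode) : GolayPt → ZMod 2) =
      (fun p => (c : GolayPt → ZMod 2) (σ.symm p)) + fun _ => (1 : ZMod 2) := by
  have hP0 : ∀ a b : GolayPt, ∃ S : Finset GolayPt, a ≠ b → (S.card = 2 ∧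
      ∀ c : golayCode, fS S (x c) = (c : GolayPt → ZMod 2) a + (c : GolayPt → ZMod 2) b) := by
    intro a b
    by_cases h : a = b
    · exact ⟨∅, fun hn => absurd h hn⟩
    · obtain ⟨S, hS⟩ := pair_of hoct h
      exact ⟨S, fun _ => hS⟩
  choose P hP using hP0
  -- additivity
  have hadd : ∀ a b c : GolayPt, a ≠ b → a ≠ c → b ≠ c → symmDiff (P a b) (P a c) = P b c := by
    intro a b c hab hac hbc
    have hT : symmDiff (symmDiff (P a b) (P a c)) (P b c) ∈ codeSets := by
      apply dual
      intro w hw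
      obtain ⟨d, hd⟩ := x.surjective ⟨w, hw⟩
      have hd' : w = (x d : GolayPt → ZMod 2) := by rw [hd]
      rw [fS_symmDiff, fS_symmDiff, hd', (hP a b hab).2, (hP a c hac).2, (hP b c hbc).2]
      have : ∀ u v w : ZMod 2, u + v + (u + w) + (v + w) = 0 := by decide
      exact this _ _ _
    apply symmDiff_eq_empty
    apply eq_empty_of_card_lt hT
    have e1 := card_symmDiff_add (P a b) (P a c)
    have e2 := card_symmDiff_add (symmDiff (P a b) (P a c)) (P b c)
    rw [(hP a b hab).1, (hP a c hac).1] at e1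
    rw [(hP b c hbc).1] at e2
    omega
  have hsymm : ∀ a b : GolayPt, a ≠ b → P a b = P b a := by
    intro a b hab
    have hT : symmDiff (P a b) (P b a) ∈ codeSets := by
      apply dual
      intro w hw
      obtain ⟨d, hd⟩ := x.surjective ⟨w, hw⟩
      have hd' : w = (x d : GolayPt → ZMod 2) := by rw [hd]
      rw [fS_symmDiff, hd', (hP a b hab).2, (hP b a hab.symm).2]
      have : ∀ u v : ZMod 2, u + v + (v + u) = 0 := by decide
      exact this _ _
    apply symmDiff_eq_empty
    apply eq_empty_of_card_lt hT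
    have e1 := card_symmDiff_add (P a b) (P b a)
    rw [(hP a b hab).1, (hP b a hab.symm).1] at e1
    omega
  have hone : ∀ a b c : GolayPt, a ≠ b → a ≠ c → b ≠ c → (P a b ∩ P a c).card = 1 := by
    intro a b c hab hac hbc
    have e1 := card_symmDiff_add (P a b) (P a c)
    rw [hadd a b c hab hac hbc, (hP a b hab).1, (hP a c hac).1, (hP b c hbc).1] at e1
    omega
  have hfresh : ∀ s : Finset GolayPt, s.card ≤ 4 → ∃ b, b ∉ s := by
    intro s hs
    by_contra hn
    push Not at hn
    have : s = Finset.univ := Finset.eq_univ_iff_forall.2 hn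
    rw [this, Finset.card_univ] at hs
    exact absurd hs (by decide)
  -- the centre of the star
  have hcen : ∀ a : GolayPt, ∃ u : GolayPt, ∀ b, a ≠ b → u ∈ P a b := by
    intro a
    obtain ⟨b1, hb1⟩ := hfresh {a} (by simp)
    obtain ⟨b2, hb2⟩ := hfresh {a, b1} (Finset.card_le_two.trans (by norm_num))
    simp only [Finset.mem_insert, Finset.mem_singleton, not_or] at hb1 hb2
    have h12 := hone a b1 b2 (Ne.symm hb1) (Ne.symm hb2.1) (Ne.symm hb2.2)
    obtain ⟨u, hu⟩ := Finset.card_eq_one.1 h12
    refine ⟨u, fun b3 hb3 => ?_⟩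
    by_contra hn
    have hu1 : u ∈ P a b1 := (Finset.mem_inter.1 (hu ▸ Finset.mem_singleton_self u)).1
    have hu2 : u ∈ P a b2 := (Finset.mem_inter.1 (hu ▸ Finset.mem_singleton_self u)).2
    have h31 : b3 ≠ b1 := by rintro rfl; exact hn hu1
    have h32 : b3 ≠ b2 := by rintro rfl; exact hn hu2
    obtain ⟨b4, hb4⟩ := hfresh {a, b1, b2, b3} Finset.card_le_four
    simp only [Finset.mem_insert, Finset.mem_singleton, not_or] at hb4
    obtain ⟨ha4, h41, h42, h43⟩ := hb4
    -- the three sides
    have key : ∀ b b' : GolayPt, a ≠ b → a ≠ b' → b ≠ b' → ∀ v w : GolayPt, v ≠ w →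
        v ∈ P a b → w ∈ P a b → ¬ (v ∈ P a b' ↔ w ∈ P a b') := by
      intro b b' hab hab' hbb' v w hvw hv hw hiff
      have hc := hone a b b' hab hab' hbb'
      have heq : P a b = {v, w} := by
        symm
        apply Finset.eq_of_subset_of_card_le
        · intro y hy
          simp only [Finset.mem_insert, Finset.mem_singleton] at hy
          rcases hy with rfl | rfl
          · exact hv
          · exact hw
        · rw [(hP a b hab).1, Finset.card_pair hvw]
      by_cases hv' : v ∈ P a b'
      · have hw' := hiff.1 hv'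
        have : ({v, w} : Finset GolayPt) ⊆ P a b ∩ P a b' := by
          intro y hy
          simp only [Finset.mem_insert, Finset.mem_singleton] at hy
          rw [Finset.mem_inter]
          rcases hy with rfl | rfl
          · exact ⟨hv, hv'⟩
          · exact ⟨hw, hw'⟩
        have := Finset.card_le_card this
        rw [Finset.card_pair hvw, hc] at this
        omega
      · have hw' : w ∉ P a b' := fun h => hv' (hiff.2 h)
        have : P a b ∩ P a b' = ∅ := by
          rw [heq, Finset.eq_empty_iff_forall_notMem]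
          intro y hy
          simp only [Finset.mem_inter, Finset.mem_insert, Finset.mem_singleton] at hy
          rcases hy with ⟨rfl | rfl, hy⟩
          · exact hv' hy
          · exact hw' hy
        rw [this] at hc
        simp at hc
    have hsec : ∀ b, a ≠ b → u ∈ P a b → ∃ v, v ≠ u ∧ v ∈ P a b := by
      intro b hab hub
      have : 1 < (P a b).card := by rw [(hP a b hab).1]; norm_num
      obtain ⟨v, hv, hne⟩ := Finset.exists_mem_ne this u
      exact ⟨v, hne, hv⟩
    obtain ⟨v, hvu, hv1⟩ := hsec b1 (Ne.symm hb1) hu1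
    obtain ⟨w, hwu, hw2⟩ := hsec b2 (Ne.symm hb2.1) hu2
    have k1 := key b1 b3 (Ne.symm hb1) hb3 (Ne.symm h31) u v (Ne.symm hvu) hu1 hv1
    have k2 := key b2 b3 (Ne.symm hb2.1) hb3 (Ne.symm h32) u w (Ne.symm hwu) hu2 hw2
    have hv3 : v ∈ P a b3 := other k1 hn
    have hw3 : w ∈ P a b3 := other k2 hn
    have hvw : v ≠ w := by
      rintro rfl
      have : v ∈ P a b1 ∩ P a b2 := Finset.mem_inter.2 ⟨hv1, hw2⟩
      rw [hu, Finset.mem_singleton] at this
      exact hvu this
    have k3 := key b1 b4 (Ne.symm hb1) (Ne.symm ha4) (Ne.symm h41) u v (Ne.symm hvu) hu1 hv1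
    have k4 := key b2 b4 (Ne.symm hb2.1) (Ne.symm ha4) (Ne.symm h42) u w (Ne.symm hwu) hu2 hw2
    have k5 := key b3 b4 hb3 (Ne.symm ha4) (Ne.symm h43) v w hvw hv3 hw3
    exact three k3 k4 k5
  choose π hπ using hcen
  have hπne : ∀ a b, a ≠ b → π a ≠ π b := by
    intro a b hab he
    obtain ⟨c, hc⟩ := hfresh {a, b} (Finset.card_le_two.trans (by norm_num))
    simp only [Finset.mem_insert, Finset.mem_singleton, not_or] at hc
    have e1 := hadd c a b hc.1 hc.2 hab
    have m1 : π a ∈ P c a := by rw [hsymm c a hc.1]; exact hπ a c (Ne.symm hc.1)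
    have m2 : π a ∈ P c b := by rw [hsymm c b hc.2, he]; exact hπ b c (Ne.symm hc.2)
    have m3 : π a ∈ P a b := hπ a b hab
    rw [← e1, Finset.mem_symmDiff] at m3
    rcases m3 with ⟨-, h⟩ | ⟨-, h⟩
    · exact h m2
    · exact h m1
  have hPπ : ∀ a b, a ≠ b → P a b = {π a, π b} := by
    intro a b hab
    symm
    apply Finset.eq_of_subset_of_card_le
    · intro y hy
      simp only [Finset.mem_insert, Finset.mem_singleton] at hy
      rcases hy with rfl | rfl
      · exact hπ a b hab
      · rw [hsymm a b hab]; exact hπ b a (Ne.symm hab)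
    · rw [(hP a b hab).1, Finset.card_pair (hπne a b hab)]
  have hinj : Function.Injective π := by
    intro a b hab
    by_contra hn
    exact hπne a b hn hab
  let σ : Equiv.Perm GolayPt := Equiv.ofBijective π (Finite.injective_iff_bijective.1 hinj)
  have hσ : ∀ a, σ a = π a := fun a => rfl
  have hrel : ∀ (c : golayCode) (a b : GolayPt),
      ((x c : golayCode) : GolayPt → ZMod 2) (σ a) + (c : GolayPt → ZMod 2) a =
        ((x c : golayCode) : GolayPt → ZMod 2) (σ b) + (c : GolayPt → ZMod 2) b := by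
    intro c a b
    by_cases hab : a = b
    · rw [hab]
    have h2 := (hP a b hab).2 c
    rw [hPπ a b hab, fS_pair (hπne a b hab)] at h2
    rw [hσ, hσ]
    have : ∀ p q r s : ZMod 2, p + q = r + s → p + r = q + s := by decide
    exact this _ _ _ _ h2
  have hmain : ∀ c : golayCode, ((x c : golayCode) : GolayPt → ZMod 2) =
      (fun p => (c : GolayPt → ZMod 2) (σ.symm p)) ∨
      ((x c : golayCode) : GolayPt → ZMod 2) =
      (fun p => (c : GolayPt → ZMod 2) (σ.symm p)) + fun _ => (1 : ZMod 2) := by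
    intro c
    have h2 : ∀ p, ((x c : golayCode) : GolayPt → ZMod 2) p +
        (c : GolayPt → ZMod 2) (σ.symm p) =
        ((x c : golayCode) : GolayPt → ZMod 2) (σ none) + (c : GolayPt → ZMod 2) none := by
      intro p
      have := hrel c (σ.symm p) none
      rwa [Equiv.apply_symm_apply] at this
    rcases eq_or_ne (((x c : golayCode) : GolayPt → ZMod 2) (σ none) +
      (c : GolayPt → ZMod 2) none) 0 with h0 | h0
    · left
      funext p
      have := h2 p
      rw [h0] at this
      exact CharTwo.add_eq_zero.1 this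
    · right
      funext p
      have := h2 p
      rw [zmod2_ne_zero h0] at this
      have h3 : ∀ u v : ZMod 2, u + v = 1 → u = v + 1 := by decide
      exact h3 _ _ this
  refine ⟨σ, ?_, hmain⟩
  -- σ preserves the code
  have hpres : ∀ s ∈ codeSets, σ • s ∈ codeSets := by
    rintro s ⟨w, hw, rfl⟩
    have e1 : σ • support₂ w = support₂ (fun p => w (σ.symm p)) := by
      ext p
      rw [← Finset.inv_smul_mem_iff]
      simp only [support₂, Finset.mem_filter, Finset.mem_univ, true_and]
      rfl
    rw [e1]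
    refine ⟨_, ?_, rfl⟩
    rcases hmain ⟨w, hw⟩ with h | h
    · have := (x ⟨w, hw⟩).2
      rw [h] at this
      exact this
    · have h3 := golayCode.add_mem (x ⟨w, hw⟩).2 one_mem
      rw [h] at h3
      have h4 : (fun p => w (σ.symm p)) + (fun _ => (1 : ZMod 2)) + 1 =
          (fun p => w (σ.symm p)) := by
        funext p
        have : ∀ u : ZMod 2, u + 1 + 1 = u := by decide
        exact this _
      have h5 : ((⟨w, hw⟩ : golayCode) : GolayPt → ZMod 2) = w := rfl
      rw [h5] at h3
      rw [h4] at h3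
      exact h3
  show σ ∈ stabilizer _ _
  rw [mem_stabilizer_iff]
  apply Set.eq_of_subset_of_ncard_le
  · rintro _ ⟨s, hs, rfl⟩
    exact hpres s hs
  · rw [Set.ncard_smul_set]
  · exact Set.toFinite _

theorem card_perm (σ : Equiv.Perm GolayPt) (w : GolayPt → ZMod 2) :
    (support₂ (fun p => w (σ.symm p))).card = (support₂ w).card := by
  have e1 : σ • support₂ w = support₂ (fun p => w (σ.symm p)) := by
    ext p
    rw [← Finset.inv_smul_mem_iff]
    simp only [support₂, Finset.mem_filter, Finset.mem_univ, true_and]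
    rfl
  rw [← e1, Finset.card_smul_finset]

theorem card_add_one (w : GolayPt → ZMod 2) :
    (support₂ (w + fun _ => (1 : ZMod 2))).card + (support₂ w).card = 24 := by
  have e1 : support₂ (w + fun _ => (1 : ZMod 2)) = (support₂ w)ᶜ := by
    ext p
    simp only [support₂, Finset.mem_filter, Finset.mem_univ, true_and, Finset.mem_compl]
    have : ∀ u : ZMod 2, u + 1 ≠ 0 ↔ ¬ u ≠ 0 := by decide
    exact this _
  rw [e1, Finset.card_compl]
  have h1 : (support₂ w).card ≤ Fintype.card GolayPt := Finset.card_le_univ _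
  have h2 : Fintype.card GolayPt = 24 := by decide
  omega

theorem oct_of (hx : ∀ c : golayCode, ∃ σ ∈ M24, ((x c : golayCode) : GolayPt → ZMod 2) =
      (fun p => (c : GolayPt → ZMod 2) (σ.symm p)) ∨
      ((x c : golayCode) : GolayPt → ZMod 2) =
      (fun p => (c : GolayPt → ZMod 2) (σ.symm p)) + fun _ => (1 : ZMod 2)) (c : golayCode) :
    oct (x c) ↔ oct c := by
  obtain ⟨σ, -, h | h⟩ := hx c
  · rw [oct, oct, h, card_perm]
  · have h1 := card_add_one (fun p => (c : GolayPt → ZMod 2) (σ.symm p))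
    rw [card_perm] at h1
    rw [oct, oct, h]
    omega

end Cfsg.Agent.M24X.LinOct
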