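import Cfsg.Agent.M24X.PtStab

/-!
# Subgroups of the Mathieu group of degree 22 of index 56 and 210 (owner: helper92)
-/

set_option autoImplicit false

namespace Cfsg.Agent.M24X

open Cfsg MulAction Cfsg.Agent.Golay Cfsg.Agent.Golay.Orb
open scoped Pointwise

theorem card_stab_dvd {J : Subgroup M24} {s : Finset GolayPt} (hJ : J ≤ FX s) (y : GolayPt) :
    Nat.card (J ⊓ stabilizer M24 y : Subgroup M24) ∣ Nat.card (FX (insert y s)) := by
  rw [FX_insert]
  exact Subgroup.card_dvd_of_le (inf_le_inf_right _ hJ)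

theorem orb_out {J : Subgroup M24} {s : Finset GolayPt} (hJ : J ≤ FX s) {y : GolayPt} (hy : y ∉ s) :
    orb J y ⊆ sᶜ := by
  intro z hz
  rw [Finset.mem_compl]
  intro hzs
  obtain ⟨g, hg, rfl⟩ := mem_orb.1 hz
  have h1 := hJ hg _ hzs
  have h2 := smul_left_cancel _ h1
  rw [h2] at hzs
  exact hy hzs

theorem card_compl24 {s : Finset GolayPt} : sᶜ.card = 24 - s.card := by
  rw [Finset.card_compl, card_golayPt]

/-- Orbits of a subgroup of order divisible by 45 and not by 7 in a three-point stabiliser. -/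
theorem six_fifteen {K : Subgroup M24} {s : Finset GolayPt} (hs : s.card = 3) (hK : K ≤ FX s)
    (h45 : 45 ∣ Nat.card K) (h7 : ¬ 7 ∣ Nat.card K) :
    ∃ y0, y0 ∉ s ∧ (orb K y0).card = 6 ∧ ∀ y, y ∉ s → y ∉ orb K y0 → (orb K y).card = 15 := by
  obtain ⟨g, hg, ho⟩ := exists_order (J := K) Nat.prime_five ((by norm_num : 5 ∣ 45).trans h45)
  have h4 := fix5 ho
  have hsF : s ⊆ fixF g := fun z hz => mem_fixF.2 (hK hg z hz)
  obtain ⟨y0, hy0⟩ : ∃ y0, fixF g \ s = {y0} := by
    apply Finset.card_eq_one.1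
    rw [Finset.card_sdiff_of_subset hsF, h4, hs]
  have hy0s : y0 ∉ s := by
    have : y0 ∈ fixF g \ s := by rw [hy0]; exact Finset.mem_singleton_self _
    exact (Finset.mem_sdiff.1 this).2
  have hy0F : y0 ∈ fixF g := by
    have : y0 ∈ fixF g \ s := by rw [hy0]; exact Finset.mem_singleton_self _
    exact (Finset.mem_sdiff.1 this).1
  have h3 : ∀ y, y ∉ s → (orb K y).card % 3 = 0 := by
    intro y hy
    have h1 := orb_mul K y
    have h2 := card_stab_dvd hK y
    rw [card_FX4 (by rw [Finset.card_insert_of_notMem hy, hs])] at h2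
    have h5 : 9 ∣ (orb K y).card * Nat.card (K ⊓ stabilizer M24 y : Subgroup M24) := by
      rw [h1]; exact (by norm_num : 9 ∣ 45).trans h45
    by_contra hn
    have h6 : Nat.Coprime (3 ^ 2) (orb K y).card := by
      apply Nat.Coprime.pow_left
      exact (Nat.Prime.coprime_iff_not_dvd Nat.prime_three).2 (fun h => hn (Nat.mod_eq_zero_of_dvd h))
    have h8 : 3 ^ 2 ∣ Nat.card (K ⊓ stabilizer M24 y : Subgroup M24) := h6.dvd_of_dvd_mul_left h5
    exact absurd (h8.trans h2) (by norm_num)
  have hint : ∀ y, y ∉ s → orb K y ∩ fixF g ⊆ {y0} := by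
    intro y hy z hz
    rw [Finset.mem_inter] at hz
    rw [← hy0, Finset.mem_sdiff]
    exact ⟨hz.2, Finset.mem_compl.1 (orb_out hK hy hz.1)⟩
  have hpos : ∀ y, 0 < (orb K y).card := fun y => Finset.card_pos.2 ⟨y, self_mem_orb K y⟩
  have hle : ∀ y, y ∉ s → (orb K y).card ≤ 21 := by
    intro y hy
    have h1 := Finset.card_le_card (orb_out hK hy)
    rw [card_compl24, hs] at h1
    exact h1
  have h0 : (orb K y0).card = 6 := by
    have h1 := modEq_orb Nat.prime_five hg ho y0
    have h2 : orb K y0 ∩ fixF g = {y0} := by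
      apply Finset.Subset.antisymm (hint y0 hy0s)
      rw [Finset.singleton_subset_iff, Finset.mem_inter]
      exact ⟨self_mem_orb _ _, hy0F⟩
    rw [h2, Finset.card_singleton] at h1
    have h5 : (orb K y0).card % 5 = 1 := h1
    have h6 := h3 y0 hy0s
    have h8 := hle y0 hy0s
    have h9 : (orb K y0).card ≠ 21 := by
      intro h
      apply h7
      rw [← orb_mul K y0, h]
      exact Dvd.dvd.mul_right (by norm_num) _
    omega
  refine ⟨y0, hy0s, h0, ?_⟩
  intro y hy hyo
  have h1 := modEq_orb Nat.prime_five hg ho y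
  have hdis := orb_disj hyo
  have h2 : orb K y ∩ fixF g = ∅ := by
    rw [← Finset.subset_empty]
    intro z hz
    have h5 := Finset.mem_singleton.1 (hint y hy hz)
    rw [h5] at hz
    exact absurd (Finset.mem_inter.1 hz).1 (Finset.disjoint_left.1 hdis (self_mem_orb K y0))
  rw [h2, Finset.card_empty] at h1
  have h5 : (orb K y).card % 5 = 0 := h1
  have h6 := h3 y hy
  have h8 : (orb K y0 ∪ orb K y).card ≤ 21 := by
    have h9 := Finset.card_le_card (Finset.union_subset (orb_out hK hy0s) (orb_out hK hy))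
    rw [card_compl24, hs] at h9
    exact h9
  rw [Finset.card_union_of_disjoint hdis, h0] at h8
  have := hpos y
  omega

/-- orbit sizes of a group of order divisible by 11 fixing two points -/
theorem orb_eleven {J : Subgroup M24} {s : Finset GolayPt} (hs : s.card = 2) (hJ : J ≤ FX s)
    (h11 : 11 ∣ Nat.card J) {y : GolayPt} (hy : y ∉ s) : (orb J y).card = 11 ∨ (orb J y).card = 22 := by
  obtain ⟨g, hg, ho⟩ := exists_order (J := J) (by norm_num : Nat.Prime 11) h11
  have h2 := fix11 ho
  have hsF : s = fixF g := Finset.eq_of_subset_of_card_le (fun z hz => mem_fixF.2 (hJ hg z hz)) (by rw [h2, hs])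
  have h1 := modEq_orb (by norm_num : Nat.Prime 11) hg ho y
  have h3 : orb J y ∩ fixF g = ∅ := by
    rw [← hsF, ← Finset.subset_empty]
    intro z hz
    rw [Finset.mem_inter] at hz
    exact absurd hz.2 (Finset.mem_compl.1 (orb_out hJ hy hz.1))
  rw [h3, Finset.card_empty] at h1
  have h5 : (orb J y).card % 11 = 0 := h1
  have h6 := Finset.card_le_card (orb_out hJ hy)
  rw [card_compl24, hs] at h6
  have h7 : 0 < (orb J y).card := Finset.card_pos.2 ⟨y, self_mem_orb J y⟩
  omega

/-! ### The case of order 7920 -/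

section O7920

variable {J : Subgroup M24} {s : Finset GolayPt}

theorem no11 (hs : s.card = 2) (hJ : J ≤ FX s) (hc : Nat.card J = 7920) {x : GolayPt} (hx : x ∉ s) :
    (orb J x).card = 22 := by
  rcases orb_eleven hs hJ (by rw [hc]; norm_num) hx with h | h
  swap
  · exact h
  exfalso
  have h1 := orb_mul J x
  rw [h, hc] at h1
  have h2 : Nat.card (J ⊓ stabilizer M24 x : Subgroup M24) = 720 := by omega
  have hK : J ⊓ stabilizer M24 x ≤ FX (insert x s) := by rw [FX_insert]; exact inf_le_inf_right _ hJ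
  have h3 : (insert x s).card = 3 := by rw [Finset.card_insert_of_notMem hx, hs]
  obtain ⟨y0, hy0, h6, h15⟩ := six_fifteen h3 hK (by rw [h2]; norm_num) (by rw [h2]; norm_num)
  obtain ⟨y, hy, hy'⟩ : ∃ y ∈ orb J x, y ∉ insert x (orb (J ⊓ stabilizer M24 x) y0) := by
    by_contra hn
    push Not at hn
    have h4 := Finset.card_le_card (show orb J x ⊆ insert x (orb (J ⊓ stabilizer M24 x) y0) from hn)
    have h5 := Finset.card_insert_le x (orb (J ⊓ stabilizer M24 x) y0)
    omega
  rw [Finset.mem_insert, not_or] at hy'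
  have hys : y ∉ insert x s := by
    rw [Finset.mem_insert, not_or]
    exact ⟨hy'.1, Finset.mem_compl.1 (orb_out hJ hx hy)⟩
  have h7 := h15 y hys hy'.2
  have h8 : orb (J ⊓ stabilizer M24 x) y ⊆ orb J x :=
    orb_subset (J := J ⊓ stabilizer M24 x) (s := orb J x)
      (fun g hg z hz => smul_mem_orb (Subgroup.mem_inf.1 hg).1 hz) hy
  have := Finset.card_le_card h8
  omega

/-- the suborbit of size 6 -/
noncomputable def D6 (J : Subgroup M24) (s : Finset GolayPt) (x : GolayPt) : Finset GolayPt :=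
  Finset.univ.filter fun y => y ∉ insert x s ∧ (orb (J ⊓ stabilizer M24 x) y).card = 6

theorem mem_D6 {x y : GolayPt} : y ∈ D6 J s x ↔ y ∉ insert x s ∧ (orb (J ⊓ stabilizer M24 x) y).card = 6 := by
  simp [D6]

theorem card_stab360 (hs : s.card = 2) (hJ : J ≤ FX s) (hc : Nat.card J = 7920) {x : GolayPt} (hx : x ∉ s) :
    Nat.card (J ⊓ stabilizer M24 x : Subgroup M24) = 360 := by
  have h1 := orb_mul J x
  rw [no11 hs hJ hc hx, hc] at h1
  omega

theorem orb_all (hs : s.card = 2) (hJ : J ≤ FX s) (hc : Nat.card J = 7920) {x : GolayPt} (hx : x ∉ s) :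
    orb J x = sᶜ :=
  Finset.eq_of_subset_of_card_le (orb_out hJ hx) (by rw [card_compl24, hs, no11 hs hJ hc hx])

theorem D6_spec (hs : s.card = 2) (hJ : J ≤ FX s) (hc : Nat.card J = 7920) {x : GolayPt} (hx : x ∉ s) :
    (D6 J s x).card = 6 ∧ (∀ y ∈ D6 J s x, orb (J ⊓ stabilizer M24 x) y = D6 J s x) ∧
      ∀ y, y ∉ insert x s → y ∉ D6 J s x →
        orb (J ⊓ stabilizer M24 x) y = (insert x s ∪ D6 J s x)ᶜ := by
  have h2 := card_stab360 hs hJ hc hx
  have hK : J ⊓ stabilizer M24 x ≤ FX (insert x s) := by rw [FX_insert]; exact inf_le_inf_right _ hJ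
  have h3 : (insert x s).card = 3 := by rw [Finset.card_insert_of_notMem hx, hs]
  obtain ⟨y0, hy0, h6, h15⟩ := six_fifteen h3 hK (by rw [h2]; norm_num) (by rw [h2]; norm_num)
  have hD : D6 J s x = orb (J ⊓ stabilizer M24 x) y0 := by
    ext y
    rw [mem_D6]
    constructor
    · rintro ⟨h, h'⟩
      by_contra hn
      have := h15 y h hn
      omega
    · intro h
      exact ⟨Finset.mem_compl.1 (orb_out hK hy0 h), by rw [orb_eq h, h6]⟩
  refine ⟨by rw [hD, h6], ?_, ?_⟩
  · intro y hy
    rw [hD] at hy ⊢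
    exact orb_eq hy
  · intro y hy hyD
    rw [hD] at hyD ⊢
    apply Finset.eq_of_subset_of_card_le
    · intro z hz
      rw [Finset.mem_compl, Finset.mem_union, not_or]
      refine ⟨Finset.mem_compl.1 (orb_out hK hy hz), ?_⟩
      intro h
      exact Finset.disjoint_left.1 (orb_disj hyD) h hz
    · have hd : Disjoint (insert x s) (orb (J ⊓ stabilizer M24 x) y0) := by
        rw [Finset.disjoint_left]
        intro z hz hzo
        exact Finset.mem_compl.1 (orb_out hK hy0 hzo) hz
      rw [card_compl24, Finset.card_union_of_disjoint hd, h3, h6, h15 y hy hyD]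

theorem D6_symm (hs : s.card = 2) (hJ : J ≤ FX s) (hc : Nat.card J = 7920) {x y : GolayPt} (hx : x ∉ s)
    (h : y ∈ D6 J s x) : x ∈ D6 J s y := by
  rw [mem_D6] at h ⊢
  obtain ⟨h1, h2⟩ := h
  rw [Finset.mem_insert, not_or] at h1
  refine ⟨?_, ?_⟩
  · rw [Finset.mem_insert, not_or]
    exact ⟨fun h => h1.1 h.symm, hx⟩
  · have h3 := orb_mul (J ⊓ stabilizer M24 x) y
    have h4 := orb_mul (J ⊓ stabilizer M24 y) x
    rw [card_stab360 hs hJ hc hx, h2] at h3
    rw [card_stab360 hs hJ hc h1.2] at h4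
    have h5 : J ⊓ stabilizer M24 y ⊓ stabilizer M24 x = J ⊓ stabilizer M24 x ⊓ stabilizer M24 y := by
      rw [inf_assoc, inf_assoc, inf_comm (stabilizer M24 y)]
    rw [h5] at h4
    have h6 : Nat.card (J ⊓ stabilizer M24 x ⊓ stabilizer M24 y : Subgroup M24) = 60 := by omega
    rw [h6] at h4
    omega

theorem smul_D6 (hJ : J ≤ FX s) {x : GolayPt} {g : M24} (hg : g ∈ J) :
    D6 J s (g • x) = g • D6 J s x := by
  have key : ∀ (x y : GolayPt) (g : M24), g ∈ J → y ∈ D6 J s x → g • y ∈ D6 J s (g • x) := by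
    intro x y g hg hy
    rw [mem_D6] at hy ⊢
    obtain ⟨h1, h2⟩ := hy
    rw [Finset.mem_insert, not_or] at h1
    refine ⟨?_, ?_⟩
    · rw [Finset.mem_insert, not_or]
      refine ⟨fun h => h1.1 (smul_left_cancel _ h), fun h => ?_⟩
      have h3 := hJ hg _ h
      have h4 := smul_left_cancel _ h3
      rw [h4] at h
      exact h1.2 h
    · have h3 : orb (J ⊓ stabilizer M24 (g • x)) (g • y) = g • orb (J ⊓ stabilizer M24 x) y := by
        ext z
        rw [mem_orb, Finset.mem_smul_finset]
        constructor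
        · rintro ⟨k, ⟨hk, hkx⟩, rfl⟩
          refine ⟨g⁻¹ • k • g • y, mem_orb.2 ⟨g⁻¹ * k * g, ⟨J.mul_mem (J.mul_mem (J.inv_mem hg) hk) hg, ?_⟩, ?_⟩, ?_⟩
          · show _ ∈ stabilizer M24 x
            rw [mem_stabilizer_iff, mul_smul, mul_smul, (hkx : k • g • x = g • x), inv_smul_smul]
          · rw [mul_smul, mul_smul]
          · rw [smul_inv_smul]
        · rintro ⟨w, hw, rfl⟩
          obtain ⟨k, ⟨hk, hkx⟩, rfl⟩ := mem_orb.1 hw
          refine ⟨g * k * g⁻¹, ⟨J.mul_mem (J.mul_mem hg hk) (J.inv_mem hg), ?_⟩, ?_⟩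
          · show _ ∈ stabilizer M24 (g • x)
            rw [mem_stabilizer_iff, mul_smul, mul_smul, inv_smul_smul, (hkx : k • x = x)]
          · rw [mul_smul, mul_smul, inv_smul_smul]
      rw [h3, Finset.card_smul_finset, h2]
  ext y
  rw [Finset.mem_smul_finset]
  constructor
  · intro h
    refine ⟨g⁻¹ • y, ?_, smul_inv_smul _ _⟩
    have := key _ _ g⁻¹ (inv_mem hg) h
    rwa [inv_smul_smul] at this
  · rintro ⟨z, hz, rfl⟩
    exact key _ _ g hg hz

/-- the block `{x} ∪ D6 x` -/
noncomputable def C7 (J : Subgroup M24) (s : Finset GolayPt) (x : GolayPt) : Finset GolayPt :=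
  insert x (D6 J s x)

theorem not_mem_D6 {x : GolayPt} : x ∉ D6 J s x := fun h => (mem_D6.1 h).1 (Finset.mem_insert_self _ _)

theorem card_C7 (hs : s.card = 2) (hJ : J ≤ FX s) (hc : Nat.card J = 7920) {x : GolayPt} (hx : x ∉ s) :
    (C7 J s x).card = 7 := by
  rw [C7, Finset.card_insert_of_notMem not_mem_D6, (D6_spec hs hJ hc hx).1]

theorem smul_C7 (hJ : J ≤ FX s) {x : GolayPt} {g : M24} (hg : g ∈ J) : C7 J s (g • x) = g • C7 J s x := by
  rw [C7, C7, Finset.smul_finset_insert, smul_D6 hJ hg]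

theorem D6_out {x y : GolayPt} (h : y ∈ D6 J s x) : y ∉ s := fun hy =>
  (mem_D6.1 h).1 (Finset.mem_insert_of_mem hy)

theorem D6_disj (hs : s.card = 2) (hJ : J ≤ FX s) (hc : Nat.card J = 7920) {x z : GolayPt} (hx : x ∉ s)
    (hz : z ∈ D6 J s x) : D6 J s x ∩ D6 J s z = ∅ := by
  by_contra hne
  obtain ⟨w, hw⟩ := Finset.nonempty_of_ne_empty hne
  rw [Finset.mem_inter] at hw
  obtain ⟨hwx, hwz⟩ := hw
  have hzs : z ∉ s := D6_out hz
  have hzx : z ≠ x := fun h => not_mem_D6 (h ▸ hz)
  have hwz' : w ≠ z := fun h => not_mem_D6 (h ▸ hwz)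
  obtain ⟨c6, horb, -⟩ := D6_spec hs hJ hc hx
  -- the group fixing `x` and `z`
  have hc60 : Nat.card (J ⊓ stabilizer M24 x ⊓ stabilizer M24 z : Subgroup M24) = 60 := by
    have h3 := orb_mul (J ⊓ stabilizer M24 x) z
    rw [card_stab360 hs hJ hc hx, (mem_D6.1 hz).2] at h3
    omega
  obtain ⟨g, hg, ho⟩ := exists_order (J := J ⊓ stabilizer M24 x ⊓ stabilizer M24 z) Nat.prime_five
    (by rw [hc60]; norm_num)
  have h4 := fix5 ho
  have hF : insert z (insert x s) = fixF g := by
    apply Finset.eq_of_subset_of_card_le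
    · intro p hp
      rw [mem_fixF]
      rcases Finset.mem_insert.1 hp with rfl | hp
      · exact hg.2
      · rcases Finset.mem_insert.1 hp with rfl | hp
        · exact hg.1.2
        · exact hJ hg.1.1 p hp
    · rw [h4, Finset.card_insert_of_notMem (fun h => (mem_D6.1 hz).1 h), Finset.card_insert_of_notMem hx, hs]
  have hsub : orb (J ⊓ stabilizer M24 x ⊓ stabilizer M24 z) w ⊆ (D6 J s x).erase z := by
    intro v hv
    obtain ⟨k, hk, rfl⟩ := mem_orb.1 hv
    rw [Finset.mem_erase]
    refine ⟨?_, ?_⟩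
    · intro h
      have h5 : k • z = z := hk.2
      rw [← h5] at h
      exact hwz' (smul_left_cancel _ h)
    · rw [← horb w hwx]
      exact mem_orb.2 ⟨k, hk.1, rfl⟩
  have h5 : orb (J ⊓ stabilizer M24 x ⊓ stabilizer M24 z) w = (D6 J s x).erase z := by
    apply Finset.eq_of_subset_of_card_le hsub
    rw [Finset.card_erase_of_mem hz, c6]
    have h1 := modEq_orb Nat.prime_five hg ho w
    have h2 : orb (J ⊓ stabilizer M24 x ⊓ stabilizer M24 z) w ∩ fixF g = ∅ := by
      rw [← Finset.subset_empty, ← hF]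
      intro v hv
      rw [Finset.mem_inter] at hv
      have h6 := Finset.mem_erase.1 (hsub hv.1)
      rcases Finset.mem_insert.1 hv.2 with h | h
      · exact absurd h h6.1
      · exact absurd h (mem_D6.1 h6.2).1
    rw [h2, Finset.card_empty] at h1
    have h6 : (orb (J ⊓ stabilizer M24 x ⊓ stabilizer M24 z) w).card % 5 = 0 := h1
    have h7 : 0 < (orb (J ⊓ stabilizer M24 x ⊓ stabilizer M24 z) w).card :=
      Finset.card_pos.2 ⟨w, self_mem_orb _ w⟩
    omega
  obtain ⟨cz6, horbz, -⟩ := D6_spec hs hJ hc hzs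
  have h6 : (D6 J s x).erase z ⊆ D6 J s z := by
    rw [← h5, ← horbz w hwz]
    intro v hv
    obtain ⟨k, hk, rfl⟩ := mem_orb.1 hv
    exact mem_orb.2 ⟨k, ⟨hk.1.1, hk.2⟩, rfl⟩
  have hxz : x ∈ D6 J s z := D6_symm hs hJ hc hx hz
  have h7 : C7 J s z = C7 J s x := by
    symm
    apply Finset.eq_of_subset_of_card_le
    · intro v hv
      rw [C7, Finset.mem_insert] at hv ⊢
      rcases hv with rfl | hv
      · exact Or.inr hxz
      · by_cases hvz : v = z
        · exact Or.inl hvz
        · exact Or.inr (h6 (Finset.mem_erase.2 ⟨hvz, hv⟩))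
    · rw [card_C7 hs hJ hc hzs, card_C7 hs hJ hc hx]
  -- all blocks
  have hall : ∀ x' z' : GolayPt, x' ∉ s → z' ∈ D6 J s x' → C7 J s z' = C7 J s x' := by
    intro x' z' hx' hz'
    have h8 : x' ∈ orb J x := by rw [orb_all hs hJ hc hx]; exact Finset.mem_compl.2 hx'
    obtain ⟨a, ha, rfl⟩ := mem_orb.1 h8
    rw [smul_D6 hJ ha, Finset.mem_smul_finset] at hz'
    obtain ⟨v, hv, rfl⟩ := hz'
    rw [← horb z hz] at hv
    obtain ⟨b, hb, rfl⟩ := mem_orb.1 hv
    have hbx : b • x = x := hb.2
    rw [smul_C7 hJ ha, smul_C7 hJ ha, smul_C7 hJ hb.1, h7, ← smul_C7 hJ hb.1, hbx]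
  have hfib : ∀ b ∈ sᶜ.image (C7 J s), (sᶜ.filter fun a => C7 J s a = b).card = 7 := by
    intro b hb
    obtain ⟨a, ha, rfl⟩ := Finset.mem_image.1 hb
    have ha' := Finset.mem_compl.1 ha
    rw [← card_C7 hs hJ hc ha']
    congr 1
    ext v
    rw [Finset.mem_filter]
    constructor
    · rintro ⟨-, h⟩
      rw [← h]
      exact Finset.mem_insert_self _ _
    · intro h
      rcases Finset.mem_insert.1 h with rfl | h
      · exact ⟨ha, rfl⟩
      · exact ⟨Finset.mem_compl.2 (D6_out h), hall _ _ ha' h⟩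
  have h9 := Finset.card_eq_sum_card_image (C7 J s) sᶜ
  rw [Finset.sum_congr rfl hfib, Finset.sum_const, card_compl24, hs] at h9
  simp only [smul_eq_mul] at h9
  omega

theorem D6_two (hs : s.card = 2) (hJ : J ≤ FX s) (hc : Nat.card J = 7920) {x z : GolayPt} (hx : x ∉ s)
    (hz : z ∉ insert x s) (hzD : z ∉ D6 J s x) : (D6 J s x ∩ D6 J s z).card = 2 := by
  obtain ⟨c6, horb, hout⟩ := D6_spec hs hJ hc hx
  have hO := hout z hz hzD
  have h3 : (insert x s).card = 3 := by rw [Finset.card_insert_of_notMem hx, hs]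
  have hd : Disjoint (insert x s) (D6 J s x) := by
    rw [Finset.disjoint_left]
    intro v hv hv'
    exact (mem_D6.1 hv').1 hv
  have hc15 : ((insert x s ∪ D6 J s x)ᶜ).card = 15 := by
    rw [card_compl24, Finset.card_union_of_disjoint hd, h3, c6]
  have hconst : ∀ v ∈ (insert x s ∪ D6 J s x)ᶜ, (D6 J s x ∩ D6 J s v).card = (D6 J s x ∩ D6 J s z).card := by
    intro v hv
    rw [← hO] at hv
    obtain ⟨k, hk, rfl⟩ := mem_orb.1 hv
    have hkx : k • x = x := hk.2
    have h1 : D6 J s x = k • D6 J s x := by rw [← smul_D6 hJ hk.1, hkx]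
    conv_lhs => rw [h1]
    rw [smul_D6 hJ hk.1, ← Finset.smul_finset_inter, Finset.card_smul_finset]
  have hdc := Finset.sum_card_bipartiteAbove_eq_sum_card_bipartiteBelow
    (s := (insert x s ∪ D6 J s x)ᶜ) (t := D6 J s x) (fun v y => y ∈ D6 J s v)
  have hl : ∀ v ∈ (insert x s ∪ D6 J s x)ᶜ,
      (Finset.bipartiteAbove (fun v y => y ∈ D6 J s v) (D6 J s x) v).card
        = (D6 J s x ∩ D6 J s z).card := by
    intro v hv
    rw [← hconst v hv]
    congr 1
  have hr : ∀ y ∈ D6 J s x,
      (Finset.bipartiteBelow (fun v y => y ∈ D6 J s v) (insert x s ∪ D6 J s x)ᶜ y).card = 5 := by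
    intro y hy
    have hys := D6_out hy
    have h1 : Finset.bipartiteBelow (fun v y => y ∈ D6 J s v) (insert x s ∪ D6 J s x)ᶜ y
        = (D6 J s y).erase x := by
      ext v
      simp only [Finset.bipartiteBelow, Finset.mem_filter, Finset.mem_compl, Finset.mem_union,
        Finset.mem_insert, not_or, Finset.mem_erase]
      constructor
      · rintro ⟨⟨⟨hvx, hvs⟩, -⟩, h⟩
        exact ⟨hvx, D6_symm hs hJ hc hvs h⟩
      · rintro ⟨hvx, h⟩
        have hvs := D6_out h
        refine ⟨⟨⟨hvx, hvs⟩, ?_⟩, D6_symm hs hJ hc hys h⟩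
        intro hvD
        have h2 := D6_disj hs hJ hc hx hy
        have h3 : v ∈ D6 J s x ∩ D6 J s y := Finset.mem_inter.2 ⟨hvD, h⟩
        rw [h2] at h3
        exact absurd h3 (Finset.notMem_empty _)
    rw [h1, Finset.card_erase_of_mem (D6_symm hs hJ hc hx hy), (D6_spec hs hJ hc hys).1]
  rw [Finset.sum_congr rfl hl, Finset.sum_congr rfl hr, Finset.sum_const, Finset.sum_const, hc15, c6] at hdc
  simp only [smul_eq_mul] at hdc
  omega

theorem C7_inter (hs : s.card = 2) (hJ : J ≤ FX s) (hc : Nat.card J = 7920) {x z : GolayPt} (hx : x ∉ s)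
    (hz : z ∉ s) (hne : x ≠ z) : (C7 J s x ∩ C7 J s z).card = 2 := by
  by_cases h : z ∈ D6 J s x
  · have h1 : C7 J s x ∩ C7 J s z = {x, z} := by
      have h2 := D6_disj hs hJ hc hx h
      have h3 := D6_symm hs hJ hc hx h
      ext v
      simp only [C7, Finset.mem_inter, Finset.mem_insert, Finset.mem_singleton]
      constructor
      · rintro ⟨h4 | h4, h5 | h5⟩
        · exact Or.inl h4
        · exact Or.inl h4
        · exact Or.inr h5
        · have h6 : v ∈ D6 J s x ∩ D6 J s z := Finset.mem_inter.2 ⟨h4, h5⟩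
          rw [h2] at h6
          exact absurd h6 (Finset.notMem_empty _)
      · rintro (rfl | rfl)
        · exact ⟨Or.inl rfl, Or.inr h3⟩
        · exact ⟨Or.inr h, Or.inl rfl⟩
    rw [h1, Finset.card_pair hne]
  · have hzx : z ∉ insert x s := by
      rw [Finset.mem_insert, not_or]
      exact ⟨fun h => hne h.symm, hz⟩
    have hx' : x ∉ D6 J s z := fun h' => h (D6_symm hs hJ hc hz h')
    have h1 : C7 J s x ∩ C7 J s z = D6 J s x ∩ D6 J s z := by
      ext v
      simp only [C7, Finset.mem_inter, Finset.mem_insert]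
      constructor
      · rintro ⟨h4 | h4, h5 | h5⟩
        · exact absurd (h4.symm.trans h5) hne
        · rw [h4] at h5; exact absurd h5 hx'
        · rw [h5] at h4; exact absurd h4 h
        · exact ⟨h4, h5⟩
      · rintro ⟨h4, h5⟩
        exact ⟨Or.inr h4, Or.inr h5⟩
    rw [h1, D6_two hs hJ hc hx hzx h]

theorem no7920 (hs : s.card = 2) (hJ : J ≤ FX s) (hc : Nat.card J = 7920) : False := by
  classical
  let N : Matrix {y : GolayPt // y ∉ s} {y : GolayPt // y ∉ s} ℚ :=
    Matrix.of fun x y => if (y : GolayPt) ∈ C7 J s x then 1 else 0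
  let Z : Matrix {y : GolayPt // y ∉ s} {y : GolayPt // y ∉ s} ℤ :=
    Matrix.of fun x y => if (y : GolayPt) ∈ C7 J s x then 1 else 0
  have hcard : Fintype.card {y : GolayPt // y ∉ s} = 22 := by
    rw [Fintype.card_subtype]
    have : (Finset.univ.filter fun y : GolayPt => y ∉ s) = sᶜ := by ext y; simp
    rw [this, card_compl24, hs]
  have hNZ : N.det = (Z.det : ℚ) := by
    have h1 : N = (Int.castRingHom ℚ).mapMatrix Z := by
      ext x y
      simp only [N, Z, Matrix.of_apply, RingHom.mapMatrix_apply, Matrix.map_apply]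
      split_ifs <;> simp
    rw [h1, ← RingHom.map_det]
    rfl
  have hprod : N * N.transpose = (5 : ℚ) • (1 + Matrix.replicateCol Unit (fun _ => (2 / 5 : ℚ))
      * Matrix.replicateRow Unit (fun _ => (1 : ℚ))) := by
    ext x z
    have hsum : (N * N.transpose) x z = ((C7 J s x ∩ C7 J s z).card : ℚ) := by
      rw [Matrix.mul_apply]
      have h1 : ∀ y : {y : GolayPt // y ∉ s}, N x y * N.transpose y z
          = if (y : GolayPt) ∈ C7 J s x ∩ C7 J s z then 1 else 0 := by
        intro y
        simp only [N, Matrix.of_apply, Matrix.transpose_apply, Finset.mem_inter]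
        by_cases hy1 : (y : GolayPt) ∈ C7 J s x <;> by_cases hy2 : (y : GolayPt) ∈ C7 J s z <;> simp [hy1, hy2]
      rw [Finset.sum_congr rfl (fun y _ => h1 y), Finset.sum_boole]
      congr 1
      rw [← Finset.card_map (Function.Embedding.subtype fun y : GolayPt => y ∉ s)]
      congr 1
      ext v
      simp only [Finset.mem_map, Finset.mem_filter, Finset.mem_univ, true_and,
        Function.Embedding.coe_subtype, Subtype.exists, exists_and_left, exists_prop,
        exists_eq_right_right]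
      constructor
      · rintro ⟨h, -⟩; exact h
      · intro h
        refine ⟨h, ?_⟩
        rcases Finset.mem_insert.1 (Finset.mem_inter.1 h).1 with rfl | h
        · exact x.2
        · exact D6_out h
    rw [hsum]
    simp only [Matrix.smul_apply, Matrix.add_apply, Matrix.mul_apply, Matrix.replicateCol_apply,
      Matrix.replicateRow_apply, Finset.univ_unique, Finset.sum_const, Finset.card_singleton, smul_eq_mul]
    by_cases hxz : x = z
    · subst hxz
      rw [Finset.inter_self, card_C7 hs hJ hc x.2, Matrix.one_apply_eq]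
      norm_num
    · rw [C7_inter hs hJ hc x.2 z.2 (fun h => hxz (Subtype.ext h)), Matrix.one_apply_ne hxz]
      norm_num
  have hdet := congrArg Matrix.det hprod
  rw [Matrix.det_mul, Matrix.det_transpose, Matrix.det_smul, hcard,
    Matrix.det_one_add_replicateCol_mul_replicateRow] at hdet
  have hdot : (fun _ : {y : GolayPt // y ∉ s} => (1 : ℚ)) ⬝ᵥ (fun _ => (2 / 5 : ℚ)) = 44 / 5 := by
    rw [dotProduct]
    simp only [one_mul, Finset.sum_const, Finset.card_univ, hcard]
    norm_num
  rw [hdot, hNZ] at hdet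
  have h1 : (Z.det : ℚ) * Z.det = ((23365020751953125 : ℤ) : ℚ) := by rw [hdet]; norm_num
  have h2 : Z.det * Z.det = 23365020751953125 := by exact_mod_cast h1
  have h3 : |Z.det| * |Z.det| = 23365020751953125 := by rw [abs_mul_abs_self, h2]
  have h4 : 0 ≤ |Z.det| := abs_nonneg _
  rcases lt_or_ge |Z.det| 152856210 with h5 | h5
  · have h6 : |Z.det| ≤ 152856209 := by omega
    nlinarith
  · nlinarith

end O7920

/-! ### Order 2112 -/

theorem no2112 {J : Subgroup M24} {s : Finset GolayPt} (hs : s.card = 2) (hJ : J ≤ FX s)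
    (hc : Nat.card J = 2112) : False := by
  classical
  -- action outside the two points
  let act : MulAction J {y : GolayPt // y ∉ s} :=
    { smul := fun g y => ⟨(g : M24) • (y : GolayPt), fun h => y.2 (by
        have h1 := hJ g.2 _ h
        have h2 := smul_left_cancel _ h1
        rwa [h2] at h)⟩
      one_smul := fun y => Subtype.ext (one_smul _ _)
      mul_smul := fun a b y => Subtype.ext (mul_smul _ _ _) }
  have hsm : ∀ (g : J) (y : {y : GolayPt // y ∉ s}), ((g • y : {y : GolayPt // y ∉ s}) : GolayPt) = (g : M24) • (y : GolayPt) :=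
    fun _ _ => rfl
  have hfaith : FaithfulSMul J {y : GolayPt // y ∉ s} := by
    refine ⟨fun {a b} h => ?_⟩
    apply Subtype.ext
    apply Subtype.ext
    ext1 p
    by_cases hp : p ∈ s
    · have h1 : (a : M24) • p = p := hJ a.2 p hp
      have h2 : (b : M24) • p = p := hJ b.2 p hp
      exact h1.trans h2.symm
    · exact congrArg Subtype.val (h ⟨p, hp⟩)
  have h11 : Nat.Prime 11 := by norm_num
  have : Fact (Nat.Prime 11) := ⟨h11⟩
  obtain ⟨P⟩ : Nonempty (Sylow 11 J) := inferInstance
  have hP : Nat.card P = 11 := by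
    rw [P.card_eq_multiplicity, hc]
    have : Nat.factorization 2112 11 = 1 := by
      rw [show (2112 : ℕ) = 11 * 192 by norm_num, Nat.factorization_mul (by norm_num) (by norm_num)]
      simp [h11.factorization_self, Nat.factorization_eq_zero_of_not_dvd (show ¬ 11 ∣ 192 by norm_num)]
    rw [this, pow_one]
  have hcard : Nat.card {y : GolayPt // y ∉ s} = 11 * 2 := by
    rw [Nat.card_eq_fintype_card, Fintype.card_subtype]
    have : (Finset.univ.filter fun y : GolayPt => y ∉ s) = sᶜ := by ext y; simp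
    rw [this, card_compl24, hs]
  have hfree : ∀ x ∈ (P : Subgroup J), x ≠ 1 → ∀ a : {y : GolayPt // y ∉ s}, x • a ≠ a := by
    intro x hx hx1 a h
    have ho : orderOf (x : M24) = 11 := by
      rw [Subgroup.orderOf_coe]
      have h1 : orderOf x ∣ 11 := by
        rw [← hP]
        exact Subgroup.orderOf_dvd_natCard _ hx
      rcases (Nat.dvd_prime h11).1 h1 with h2 | h2
      · exact absurd (orderOf_eq_one_iff.1 h2) hx1
      · exact h2
    have h2 := fix11 ho
    have h3 : insert (a : GolayPt) s ⊆ fixF (x : M24) := by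
      intro p hp
      rw [mem_fixF]
      rcases Finset.mem_insert.1 hp with rfl | hp
      · exact congrArg Subtype.val h
      · exact hJ x.2 p hp
    have h4 := Finset.card_le_card h3
    rw [Finset.card_insert_of_notMem a.2, hs, h2] at h4
    omega
  obtain ⟨t, n, -, ht, htn, hn⟩ := Cfsg.Agent.SimpleCrit.card_normalizer_of_free P hP hcard hfree
  rw [hc] at htn
  have ht' : t ∣ 20 := by simpa [Nat.factorial] using ht
  have htle : t ≤ 20 := Nat.le_of_dvd (by norm_num) ht'
  have hn' : n % 11 = 1 := hn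
  have h5 : t * n = 192 := by
    have : 11 * (t * n) = 11 * 192 := by rw [← mul_assoc, ← htn]
    omega
  interval_cases t <;> omega

end Cfsg.Agent.M24X
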