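import Cfsg.Agent.M24X.M22sub

/-!
# Subgroups of order 40320 of the Mathieu group of degree 23 (owner: helper92)
-/

set_option autoImplicit false

namespace Cfsg.Agent.M24X

open Cfsg MulAction Cfsg.Agent.Golay Cfsg.Agent.Golay.Orb
open scoped Pointwise

theorem smul_eq_of_inv {J : Subgroup M24} {D : Finset GolayPt} (h : ∀ g ∈ J, ∀ y ∈ D, g • y ∈ D) {g : M24}
    (hg : g ∈ J) : g • D = D := by
  apply Finset.eq_of_subset_of_card_le
  · intro z hz
    rw [Finset.mem_smul_finset] at hz
    obtain ⟨y, hy, rfl⟩ := hz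
    exact h g hg y hy
  · rw [Finset.card_smul_finset]

/-- the action on an invariant set -/
theorem card_kernel {J : Subgroup M24} {D : Finset GolayPt} (h : ∀ g ∈ J, ∀ y ∈ D, g • y ∈ D) :
    ∃ k, Nat.card J = k * Nat.card (J ⊓ FX D : Subgroup M24) ∧ k ∣ D.card.factorial ∧
      (k = D.card.factorial → ∀ π : Equiv.Perm D, ∃ g ∈ J, ∀ y : D, g • (y : GolayPt) = π y) := by
  have hst : ∀ g ∈ J, g • D = D := fun g hg => smul_eq_of_inv h hg
  let φ := resH J D hst
  have hker : φ.ker.map J.subtype = J ⊓ FX D := by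
    ext g
    rw [Subgroup.mem_map, Subgroup.mem_inf]
    constructor
    · rintro ⟨a, ha, rfl⟩
      refine ⟨a.2, fun y hy => ?_⟩
      have h1 : φ a ⟨y, hy⟩ = ⟨y, hy⟩ := by rw [MonoidHom.mem_ker.1 ha]; rfl
      exact congrArg Subtype.val h1
    · rintro ⟨ha, hb⟩
      refine ⟨⟨g, ha⟩, ?_, rfl⟩
      rw [MonoidHom.mem_ker]
      ext1 y
      exact Subtype.ext (hb y y.2)
  have hrange : Nat.card φ.range ∣ D.card.factorial := by
    have h1 := Subgroup.card_subgroup_dvd_card φ.range
    rwa [Nat.card_perm, Nat.card_eq_fintype_card (α := ↥D), Fintype.card_coe] at h1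
  refine ⟨Nat.card φ.range, ?_, hrange, ?_⟩
  · rw [← hker, Subgroup.card_map_of_injective J.subtype_injective, ← Subgroup.index_ker, mul_comm]
    exact φ.ker.card_mul_index.symm
  · intro hk π
    have h1 : φ.range = ⊤ := by
      apply Subgroup.eq_top_of_card_eq
      rw [hk, Nat.card_perm, Nat.card_eq_fintype_card, Fintype.card_coe]
    have h2 : π ∈ φ.range := by rw [h1]; exact Subgroup.mem_top _
    obtain ⟨a, rfl⟩ := h2
    exact ⟨a, a.2, fun y => rfl⟩

theorem orb_inv (J : Subgroup M24) (y : GolayPt) : ∀ g ∈ J, ∀ z ∈ orb J y, g • z ∈ orb J y :=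
  fun _ hg _ hz => smul_mem_orb hg hz

theorem orb_pos (J : Subgroup M24) (y : GolayPt) : 0 < (orb J y).card :=
  Finset.card_pos.2 ⟨y, self_mem_orb J y⟩

theorem orb_dvd (J : Subgroup M24) (y : GolayPt) : (orb J y).card ∣ Nat.card J := Dvd.intro _ (orb_mul J y)

/-- residues of the orbit sizes -/
theorem orb_res7 {J : Subgroup M24} {s : Finset GolayPt} (hJ : J ≤ FX s) (h7 : 7 ∣ Nat.card J)
    {y : GolayPt} (hy : y ∉ s) : (orb J y).card % 7 ≤ 3 - s.card := by
  obtain ⟨g, hg, ho⟩ := exists_order (J := J) (by norm_num : Nat.Prime 7) h7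
  have h3 := fix7 ho
  have hsF : s ⊆ fixF g := fun z hz => mem_fixF.2 (hJ hg z hz)
  have h1 : (orb J y).card % 7 = (orb J y ∩ fixF g).card % 7 := modEq_orb (by norm_num) hg ho y
  have h2 : orb J y ∩ fixF g ⊆ fixF g \ s := by
    intro z hz
    rw [Finset.mem_inter] at hz
    exact Finset.mem_sdiff.2 ⟨hz.2, Finset.mem_compl.1 (orb_out hJ hy hz.1)⟩
  have h4 := Finset.card_le_card h2
  rw [Finset.card_sdiff_of_subset hsF, h3] at h4
  rw [h1]
  exact (Nat.mod_le _ _).trans h4

theorem orb_res5 {J : Subgroup M24} {s : Finset GolayPt} (hJ : J ≤ FX s) (h5 : 5 ∣ Nat.card J)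
    {y : GolayPt} (hy : y ∉ s) : (orb J y).card % 5 ≤ 4 - s.card := by
  obtain ⟨g, hg, ho⟩ := exists_order (J := J) Nat.prime_five h5
  have h3 := fix5 ho
  have hsF : s ⊆ fixF g := fun z hz => mem_fixF.2 (hJ hg z hz)
  have h1 : (orb J y).card % 5 = (orb J y ∩ fixF g).card % 5 := modEq_orb Nat.prime_five hg ho y
  have h2 : orb J y ∩ fixF g ⊆ fixF g \ s := by
    intro z hz
    rw [Finset.mem_inter] at hz
    exact Finset.mem_sdiff.2 ⟨hz.2, Finset.mem_compl.1 (orb_out hJ hy hz.1)⟩
  have h4 := Finset.card_le_card h2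
  rw [Finset.card_sdiff_of_subset hsF, h3] at h4
  rw [h1]
  exact (Nat.mod_le _ _).trans h4

theorem orb_le {J : Subgroup M24} {s : Finset GolayPt} (hJ : J ≤ FX s) {y : GolayPt} (hy : y ∉ s) :
    (orb J y).card + s.card ≤ 24 := by
  have h1 := Finset.card_le_card (orb_out hJ hy)
  rw [card_compl24] at h1
  have h2 := Finset.card_le_univ s
  rw [card_golayPt] at h2
  omega

/-- another orbit outside a given one -/
theorem exists_second {J : Subgroup M24} {s : Finset GolayPt} (hJ : J ≤ FX s) {y : GolayPt} (hy : y ∉ s)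
    (h : (orb J y).card + s.card < 24) :
    ∃ z, z ∉ s ∧ z ∉ orb J y ∧ (orb J y).card + (orb J z).card + s.card ≤ 24 := by
  obtain ⟨z, hz⟩ : ∃ z, z ∉ orb J y ∪ s := by
    by_contra hn
    push Not at hn
    have h1 : (Finset.univ : Finset GolayPt) ⊆ orb J y ∪ s := fun z _ => hn z
    have h2 := Finset.card_le_card h1
    rw [card_univ24] at h2
    have h3 := Finset.card_union_le (orb J y) s
    omega
  rw [Finset.mem_union, not_or] at hz
  refine ⟨z, hz.2, hz.1, ?_⟩
  have hd := orb_disj hz.1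
  have h4 : Disjoint (orb J y ∪ orb J z) s := by
    rw [Finset.disjoint_left]
    intro w hw hws
    rcases Finset.mem_union.1 hw with h5 | h5
    · exact Finset.mem_compl.1 (orb_out hJ hy h5) hws
    · exact Finset.mem_compl.1 (orb_out hJ hz.2 h5) hws
  have h5 := Finset.card_le_univ (orb J y ∪ orb J z ∪ s)
  rw [Finset.card_union_of_disjoint h4, Finset.card_union_of_disjoint hd, card_golayPt] at h5
  exact h5

/-- a group of order 40320 does not fix two points -/
theorem no_two_fixed {J : Subgroup M24} {s : Finset GolayPt} (hs : s.card = 2) (hJ : J ≤ FX s)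
    (hc : Nat.card J = 40320) : False := by
  have hsize : ∀ z, z ∉ s → (orb J z).card ∣ 40320 ∧ (orb J z).card % 7 ≤ 1 ∧ (orb J z).card % 5 ≤ 2 ∧
      (orb J z).card ≤ 22 ∧ 0 < (orb J z).card := by
    intro z hz
    have h1 := orb_res7 hJ (by rw [hc]; norm_num) hz
    have h2 := orb_res5 hJ (by rw [hc]; norm_num) hz
    have h3 := orb_le hJ hz
    have h4 := orb_dvd J z
    rw [hc] at h4
    rw [hs] at h1 h2 h3
    exact ⟨h4, h1, h2, by omega, orb_pos J z⟩
  have hvals : ∀ n : ℕ, n ∣ 40320 → n % 7 ≤ 1 → n % 5 ≤ 2 → n ≤ 22 → 0 < n →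
      n = 1 ∨ n = 7 ∨ n = 15 ∨ n = 21 := by
    intro n h1 h2 h3 h4 h5
    interval_cases n <;> omega
  -- a small orbit
  obtain ⟨z, hz, hz17⟩ : ∃ z, z ∉ s ∧ ((orb J z).card = 1 ∨ (orb J z).card = 7) := by
    obtain ⟨z1, hz1⟩ : ∃ z1, z1 ∉ s := by
      by_contra hn
      push Not at hn
      have h2 := Finset.card_le_card (show (Finset.univ : Finset GolayPt) ⊆ s from fun z _ => hn z)
      rw [card_univ24] at h2
      omega
    obtain ⟨a1, a2, a3, a4, a5⟩ := hsize z1 hz1
    rcases hvals _ a1 a2 a3 a4 a5 with h | h | h | h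
    · exact ⟨z1, hz1, Or.inl h⟩
    · exact ⟨z1, hz1, Or.inr h⟩
    · obtain ⟨z2, hz2, -, hle⟩ := exists_second hJ hz1 (by omega)
      obtain ⟨b1, b2, b3, b4, b5⟩ := hsize z2 hz2
      rcases hvals _ b1 b2 b3 b4 b5 with h' | h' | h' | h'
      · exact ⟨z2, hz2, Or.inl h'⟩
      · exact ⟨z2, hz2, Or.inr h'⟩
      · omega
      · omega
    · obtain ⟨z2, hz2, -, hle⟩ := exists_second hJ hz1 (by omega)
      obtain ⟨b1, b2, b3, b4, b5⟩ := hsize z2 hz2
      rcases hvals _ b1 b2 b3 b4 b5 with h' | h' | h' | h'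
      · exact ⟨z2, hz2, Or.inl h'⟩
      · exact ⟨z2, hz2, Or.inr h'⟩
      · omega
      · omega
  rcases hz17 with h | h
  · -- three fixed points
    have h1 := orb_mul J z
    rw [h, one_mul, hc] at h1
    have h2 := card_stab_dvd hJ z
    rw [h1, card_FX3 (by rw [Finset.card_insert_of_notMem hz, hs])] at h2
    exact absurd (Nat.le_of_dvd (by norm_num) h2) (by norm_num)
  · obtain ⟨k, hk, hkd, -⟩ := card_kernel (orb_inv J z)
    have h1 : J ⊓ FX (orb J z) = ⊥ := by
      rw [eq_bot_iff]
      intro g hg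
      have h2 : g ∈ FX (orb J z ∪ s) := by
        intro p hp
        rcases Finset.mem_union.1 hp with hp | hp
        · exact hg.2 p hp
        · exact hJ hg.1 p hp
      rw [FX_nine] at h2
      · exact h2
      · rw [Finset.card_union_of_disjoint, h, hs]
        rw [Finset.disjoint_left]
        intro w hw
        exact Finset.mem_compl.1 (orb_out hJ hz hw)
    rw [h1, Subgroup.card_bot, mul_one, hc] at hk
    rw [← hk, h] at hkd
    exact absurd (Nat.le_of_dvd (by norm_num [Nat.factorial]) hkd) (by norm_num [Nat.factorial])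

/-- no group of order 40320 fixing a point has an orbit of size 8 -/
theorem no_orb8 {J : Subgroup M24} {x : GolayPt} (hJ : J ≤ FX {x}) (hc : Nat.card J = 40320)
    {y : GolayPt} (hy : y ≠ x) (h8 : (orb J y).card = 8) : False := by
  have hys : y ∉ ({x} : Finset GolayPt) := by simpa using hy
  have hxo : x ∉ orb J y := fun h => Finset.mem_compl.1 (orb_out hJ hys h) (Finset.mem_singleton_self x)
  obtain ⟨k, hk, hkd, hsurj⟩ := card_kernel (orb_inv J y)
  have h1 : J ⊓ FX (orb J y) = ⊥ := by
    rw [eq_bot_iff]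
    intro g hg
    have h2 : g ∈ FX (insert x (orb J y)) := by
      intro p hp
      rcases Finset.mem_insert.1 hp with rfl | hp
      · exact hJ hg.1 p (Finset.mem_singleton_self _)
      · exact hg.2 p hp
    rw [FX_nine] at h2
    · exact h2
    · rw [Finset.card_insert_of_notMem hxo, h8]
  rw [h1, Subgroup.card_bot, mul_one, hc] at hk
  have hs := hsurj (by rw [← hk, h8]; rfl)
  -- octads from transpositions
  have key : ∀ a b : orb J y, a ≠ b → ∃ o ∈ octads, x ∈ o ∧ ∀ c : orb J y, c ≠ a → c ≠ b → (c : GolayPt) ∈ o := by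
    intro a b hab
    obtain ⟨g, hg, hgc⟩ := hs (Equiv.swap a b)
    have hg1 : g ≠ 1 := by
      rintro rfl
      have := hgc a
      rw [one_smul, Equiv.swap_apply_left] at this
      exact hab (Subtype.ext this)
    have hsub : ∀ p ∈ insert x (((orb J y).erase a).erase b), g • p = p := by
      intro p hp
      rcases Finset.mem_insert.1 hp with rfl | hp
      · exact hJ hg p (Finset.mem_singleton_self _)
      · rw [Finset.mem_erase, Finset.mem_erase] at hp
        have := hgc ⟨p, hp.2.2⟩
        rw [Equiv.swap_apply_of_ne_of_ne (fun h => hp.2.1 (congrArg Subtype.val h))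
          (fun h => hp.1 (congrArg Subtype.val h))] at this
        exact this
    obtain ⟨o, ho, hso⟩ := octad_of_fix (s := insert x (((orb J y).erase a).erase b)) (by
      rw [Finset.card_insert_of_notMem (fun h => hxo (Finset.mem_of_mem_erase (Finset.mem_of_mem_erase h))),
        Finset.card_erase_of_mem (Finset.mem_erase.2 ⟨fun h => hab (Subtype.ext h.symm), b.2⟩),
        Finset.card_erase_of_mem a.2, h8]) hsub hg1
    refine ⟨o, ho, hso (Finset.mem_insert_self _ _), fun c hca hcb => hso ?_⟩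
    rw [Finset.mem_insert, Finset.mem_erase, Finset.mem_erase]
    exact Or.inr ⟨fun h => hcb (Subtype.ext h), fun h => hca (Subtype.ext h), c.2⟩
  obtain ⟨e⟩ : Nonempty (Fin 8 ≃ orb J y) := ⟨(Fintype.equivFinOfCardEq (by rw [Fintype.card_coe, h8])).symm⟩
  have hne : ∀ i j : Fin 8, i ≠ j → e i ≠ e j := fun i j h h' => h (e.injective h')
  obtain ⟨o1, ho1, hx1, h01⟩ := key (e 0) (e 1) (hne _ _ (by decide))
  obtain ⟨o2, ho2, hx2, h02⟩ := key (e 0) (e 2) (hne _ _ (by decide))
  obtain ⟨o3, ho3, hx3, h12⟩ := key (e 1) (e 2) (hne _ _ (by decide))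
  let t : Finset GolayPt := insert x (Finset.univ.image fun i : Fin 5 => (e ⟨i + 3, by omega⟩ : GolayPt))
  have ht : 5 ≤ t.card := by
    have h2 : (Finset.univ.image fun i : Fin 5 => (e ⟨i + 3, by omega⟩ : GolayPt)).card = 5 := by
      rw [Finset.card_image_of_injective]
      · simp
      · intro i j hij
        have h3 := e.injective (Subtype.ext hij)
        rw [Fin.mk.injEq] at h3
        exact Fin.ext (by omega)
    calc 5 = _ := h2.symm
      _ ≤ _ := Finset.card_le_card (Finset.subset_insert _ _)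
  have hsub : ∀ (o : Finset GolayPt) (i j : Fin 8), x ∈ o → i.val < 3 → j.val < 3 →
      (∀ c : orb J y, c ≠ e i → c ≠ e j → (c : GolayPt) ∈ o) → t ⊆ o := by
    intro o i j hxo' hi hj h p hp
    rcases Finset.mem_insert.1 hp with rfl | hp
    · exact hxo'
    · rw [Finset.mem_image] at hp
      obtain ⟨l, -, rfl⟩ := hp
      apply h
      · apply hne; intro h'; rw [Fin.ext_iff] at h'; simp at h'; omega
      · apply hne; intro h'; rw [Fin.ext_iff] at h'; simp at h'; omega
  have t1 := hsub o1 0 1 hx1 (by decide) (by decide) h01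
  have t2 := hsub o2 0 2 hx2 (by decide) (by decide) h02
  have t3 := hsub o3 1 2 hx3 (by decide) (by decide) h12
  have e12 : o1 = o2 := octad_eq_of_subset ho1 ho2 t1 t2 ht
  have e13 : o1 = o3 := octad_eq_of_subset ho1 ho3 t1 t3 ht
  have hall : insert x (orb J y) ⊆ o1 := by
    intro p hp
    rcases Finset.mem_insert.1 hp with rfl | hp
    · exact hx1
    · obtain ⟨i, hi⟩ := e.surjective ⟨p, hp⟩
      by_cases h0 : i = 0
      · rw [e13]
        have := h12 (e i) (by rw [h0]; exact hne _ _ (by decide)) (by rw [h0]; exact hne _ _ (by decide))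
        rw [hi] at this; exact this
      · by_cases h2 : i = 1
        · rw [e12]
          have := h02 (e i) (by rw [h2]; exact hne _ _ (by decide)) (by rw [h2]; exact hne _ _ (by decide))
          rw [hi] at this; exact this
        · have := h01 (e i) (hne _ _ h0) (hne _ _ h2)
          rw [hi] at this; exact this
  have := Finset.card_le_card hall
  rw [Finset.card_insert_of_notMem hxo, h8, card_octad ho1] at this
  omega

/-- Subgroups of order 40320 fixing a point. -/
theorem order40320 {J : Subgroup M24} {x : GolayPt} (hJ : J ≤ FX {x}) (hc : Nat.card J = 40320) :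
    (∃ d : Finset GolayPt, d.card = 2 ∧ x ∉ d ∧ J ≤ stabilizer M24 d) ∨
      ∃ o ∈ octads, x ∈ o ∧ J ≤ stabilizer M24 o := by
  have hsize : ∀ z, z ∉ ({x} : Finset GolayPt) → (orb J z).card ∣ 40320 ∧ (orb J z).card % 7 ≤ 2 ∧
      (orb J z).card % 5 ≤ 3 ∧ (orb J z).card ≤ 23 ∧ 0 < (orb J z).card := by
    intro z hz
    have h1 := orb_res7 hJ (by rw [hc]; norm_num) hz
    have h2 := orb_res5 hJ (by rw [hc]; norm_num) hz
    have h3 := orb_le hJ hz
    have h4 := orb_dvd J z
    rw [hc] at h4
    rw [Finset.card_singleton] at h1 h2 h3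
    exact ⟨h4, h1, h2, by omega, orb_pos J z⟩
  have hvals : ∀ n : ℕ, n ∣ 40320 → n % 7 ≤ 2 → n % 5 ≤ 3 → n ≤ 23 → 0 < n →
      (n = 1 ∨ n = 2 ∨ n = 7 ∨ n = 8) ∨ (15 ≤ n ∧ n ≤ 21) := by
    intro n h1 h2 h3 h4 h5
    interval_cases n <;> omega
  obtain ⟨z, hz, hz4⟩ : ∃ z, z ∉ ({x} : Finset GolayPt) ∧ ((orb J z).card = 1 ∨ (orb J z).card = 2 ∨
      (orb J z).card = 7 ∨ (orb J z).card = 8) := by
    obtain ⟨z1, hz1⟩ : ∃ z1, z1 ∉ ({x} : Finset GolayPt) := by
      by_contra hn
      push Not at hn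
      have h2 := Finset.card_le_card (show (Finset.univ : Finset GolayPt) ⊆ {x} from fun z _ => hn z)
      rw [card_univ24, Finset.card_singleton] at h2
      omega
    obtain ⟨a1, a2, a3, a4, a5⟩ := hsize z1 hz1
    rcases hvals _ a1 a2 a3 a4 a5 with h | h
    · exact ⟨z1, hz1, h⟩
    · obtain ⟨z2, hz2, -, hle⟩ := exists_second hJ hz1 (by rw [Finset.card_singleton]; omega)
      rw [Finset.card_singleton] at hle
      obtain ⟨b1, b2, b3, b4, b5⟩ := hsize z2 hz2
      rcases hvals _ b1 b2 b3 b4 b5 with h' | h'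
      · exact ⟨z2, hz2, h'⟩
      · omega
  have hzx : z ≠ x := by simpa using hz
  have hxo : x ∉ orb J z := fun h => Finset.mem_compl.1 (orb_out hJ hz h) (Finset.mem_singleton_self x)
  rcases hz4 with h | h | h | h
  · exfalso
    have hJ2 : J ≤ FX (insert z {x}) := by
      rw [FX_insert]
      refine le_inf hJ (fun g hg => ?_)
      obtain ⟨w, hw⟩ := Finset.card_eq_one.1 h
      have h1 := smul_mem_orb hg (self_mem_orb J z)
      have h2 := self_mem_orb J z
      rw [hw, Finset.mem_singleton] at h1 h2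
      rw [mem_stabilizer_iff, h1, ← h2]
    exact no_two_fixed (by rw [Finset.card_insert_of_notMem hz, Finset.card_singleton]) hJ2 hc
  · left
    exact ⟨orb J z, h, hxo, fun g hg => smul_eq_of_inv (orb_inv J z) hg⟩
  · right
    obtain ⟨k, hk, hkd, -⟩ := card_kernel (orb_inv J z)
    have hk1 : k ≤ 5040 := Nat.le_of_dvd (by norm_num) (by rw [h] at hkd; exact hkd)
    have hne : J ⊓ FX (orb J z) ≠ ⊥ := by
      intro h1
      rw [h1, Subgroup.card_bot, hc] at hk
      omega
    obtain ⟨⟨g, hg⟩, hg0⟩ := (Subgroup.ne_bot_iff_exists_ne_one).1 hne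
    have hg1 : g ≠ 1 := fun h' => hg0 (Subtype.ext h')
    have hfix : g ∈ FX (insert x (orb J z)) := by
      intro p hp
      rcases Finset.mem_insert.1 hp with rfl | hp
      · exact hJ hg.1 p (Finset.mem_singleton_self _)
      · exact hg.2 p hp
    have hc8 : (insert x (orb J z)).card = 8 := by rw [Finset.card_insert_of_notMem hxo, h]
    obtain ⟨o, ho, hso⟩ := octad_of_fix (by omega) hfix hg1
    have heq : insert x (orb J z) = o := Finset.eq_of_subset_of_card_le hso (by rw [card_octad ho, hc8])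
    refine ⟨o, ho, by rw [← heq]; exact Finset.mem_insert_self _ _, fun a ha => ?_⟩
    rw [← heq]
    apply smul_eq_of_inv (J := J) _ ha
    intro b hb p hp
    rcases Finset.mem_insert.1 hp with rfl | hp
    · rw [hJ hb p (Finset.mem_singleton_self _)]
      exact Finset.mem_insert_self _ _
    · exact Finset.mem_insert_of_mem (smul_mem_orb hb hp)
  · exact (no_orb8 hJ hc hzx h).elim

/-! ### Orders of the stabilisers of a duad and of a heptad in the point stabiliser -/

theorem card_duad_le {d : Finset GolayPt} (hd : d.card = 2) {x : GolayPt} (hx : x ∉ d) :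
    Nat.card (stabilizer M24 x ⊓ stabilizer M24 d : Subgroup M24) ≤ 40320 := by
  obtain ⟨a, b, hab, rfl⟩ := Finset.card_eq_two.1 hd
  have h1 := orb_mul (stabilizer M24 x ⊓ stabilizer M24 ({a, b} : Finset GolayPt)) a
  have h2 : orb (stabilizer M24 x ⊓ stabilizer M24 ({a, b} : Finset GolayPt)) a ⊆ {a, b} := by
    apply orb_subset _ (by simp)
    intro g hg y hy
    have h3 : g • ({a, b} : Finset GolayPt) = {a, b} := hg.2
    rw [← h3]
    exact Finset.smul_mem_smul_finset hy
  have h3 : stabilizer M24 x ⊓ stabilizer M24 ({a, b} : Finset GolayPt) ⊓ stabilizer M24 a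
      ≤ FX (insert x {a, b}) := by
    rintro g ⟨⟨hgx, hgd⟩, hga⟩ p hp
    rw [Finset.mem_insert, Finset.mem_insert, Finset.mem_singleton] at hp
    rcases hp with rfl | rfl | rfl
    · exact hgx
    · exact hga
    · have h4 : g • ({a, p} : Finset GolayPt) = {a, p} := hgd
      have h5 : g • p ∈ ({a, p} : Finset GolayPt) := by
        rw [← h4]
        exact Finset.smul_mem_smul_finset (by simp)
      rw [Finset.mem_insert, Finset.mem_singleton] at h5
      rcases h5 with h5 | h5
      · have h6 : g • a = a := hga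
        rw [← h6] at h5
        exact absurd (smul_left_cancel _ h5).symm hab
      · exact h5
  have h4 := Subgroup.card_le_of_le h3
  rw [card_FX3 (by rw [Finset.card_insert_of_notMem hx, hd])] at h4
  have h5 := Finset.card_le_card h2
  rw [hd] at h5
  rw [← h1]
  calc _ ≤ 2 * 20160 := Nat.mul_le_mul h5 h4
    _ = 40320 := by norm_num

theorem orb_octad {o : Finset GolayPt} (ho : o ∈ octads) {x : GolayPt} (hx : x ∈ o) :
    orb (stabilizer M24 o) x = o := by
  apply Finset.Subset.antisymm
  · apply orb_subset _ hx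
    intro g hg y hy
    have h3 : g • o = o := hg
    rw [← h3]
    exact Finset.smul_mem_smul_finset hy
  · intro y hy
    obtain ⟨u, hu, hux⟩ : ∃ u ∈ o, u ≠ x := by
      by_contra hn
      push Not at hn
      have h2 := Finset.card_le_card (show o ⊆ {x} from fun z hz => by simpa using hn z hz)
      rw [card_octad ho, Finset.card_singleton] at h2
      omega
    obtain ⟨v, hv, hvy⟩ : ∃ u ∈ o, u ≠ y := by
      by_contra hn
      push Not at hn
      have h2 := Finset.card_le_card (show o ⊆ {y} from fun z hz => by simpa using hn z hz)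
      rw [card_octad ho, Finset.card_singleton] at h2
      omega
    obtain ⟨σ, hσ, h1, -, h3⟩ := flag_in2 ho ho hux.symm hvy.symm hx hu hy hv
    exact mem_orb.2 ⟨⟨σ, hσ⟩, h3, h1⟩

theorem card_heptad {o : Finset GolayPt} (ho : o ∈ octads) {x : GolayPt} (hx : x ∈ o) :
    Nat.card (stabilizer M24 x ⊓ stabilizer M24 o : Subgroup M24) = 40320 := by
  have h1 := orb_mul (stabilizer M24 o) x
  rw [orb_octad ho hx, card_octad ho, Orb.card_stabilizer_octad ho] at h1
  rw [inf_comm]
  omega

end Cfsg.Agent.M24X
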