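import Cfsg.Agent.M24X.QuartBase

/-!
# Quartets: counts, stabilisers, orbits (owner: helper92)
-/

set_option autoImplicit false

namespace Cfsg.Agent.M24X

open Cfsg MulAction Cfsg.Agent.Golay Cfsg.Agent.Golay.Orb
open scoped Pointwise

/-- joint stabiliser -/
abbrev KQ (d : Finset GolayPt) (Q : Finset (Finset GolayPt)) : Subgroup M24 := stabilizer M24 d ⊓ stabilizer M24 Q

theorem card_ge_of_list {H : Subgroup (Equiv.Perm GolayPt)} {L : List ℕ} (hL : ∀ n ∈ L, InSub H n)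
    (hok : tabsOK L = true) : L.length ≤ Nat.card H := by
  obtain ⟨hnd, hlt⟩ := tabsOK_iff hok
  have hmem : ∀ i : Fin L.length, L[i] ∈ L := fun i => List.getElem_mem _
  choose f hf1 hf2 using fun i : Fin L.length => hL _ (hmem i)
  let g : Fin L.length → H := fun i => ⟨f i, hf1 i⟩
  have hinj : Function.Injective g := by
    intro i j hij
    have h1 : f i = f j := congrArg Subtype.val hij
    have h2 := hf2 i
    rw [h1] at h2
    have h3 := isTable_inj h2 (hf2 j) (hlt _ (hmem i)) (hlt _ (hmem j))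
    exact Fin.ext ((List.Nodup.getElem_inj_iff hnd).1 h3)
  have h := Nat.card_le_card_of_injective g hinj
  rwa [Nat.card_eq_fintype_card, Fintype.card_fin] at h

theorem stab_quartet_le {d : Finset GolayPt} (hd : d ∈ dodecads) {Q : Finset (Finset GolayPt)} (hQ : Q ∈ quartets d) :
    stabilizer M24 Q ≤ stabilizer M24 d := by
  intro g hg
  have hg' : g • Q = Q := hg
  apply Finset.eq_of_subset_of_card_le
  · intro x hx
    change x ∈ g • d at hx
    rw [Finset.mem_smul_finset] at hx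
    obtain ⟨y, hy, rfl⟩ := hx
    obtain ⟨t, ht, hyt⟩ := (quartet_cover hd hQ).1 hy
    apply (quartet_cover hd hQ).2
    refine ⟨g • t, ?_, Finset.smul_mem_smul_finset hyt⟩
    rw [← hg']; exact Finset.smul_mem_smul_finset ht
  · change d.card ≤ (g • d).card
    rw [Finset.card_smul_finset]

def swQ : List ℕ := [0x2aaae7b6ec5d249b1e0098a2119106, 0x29dd454a217d5a05cc46b22e41a60c, 0x2c695b02693b82cbae04521e61486d, 0x2be955ca26b39a49a9093c2ec18440, 0x2bdd4b914c5d4c999e1288ecd40440, 0x2beaeb24edbd1929c4645216680440]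

theorem swQ_valid : allValid swQ = true := by decide +kernel

theorem swQ_swaps : ∀ a ∈ q0L, ∀ b ∈ q0L, a ≠ b → ∃ n ∈ swQ, pmask n a = b ∧ pmask n b = a ∧
      ∀ c ∈ q0L, c ≠ a → c ≠ b → pmask n c = c := by decide +kernel

theorem q_surj : Function.Surjective (actOn Q₀) := actOn_surj_of_tabs Q₀_eq q0L_lt swQ_valid swQ_swaps

/-- action on the four triples -/
def kap : KQ d0 Q₀ →* Equiv.Perm ↥Q₀ := (actOn Q₀).comp (Subgroup.inclusion inf_le_right)

theorem kap_surj : Function.Surjective kap := by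
  intro e
  obtain ⟨g, hg⟩ := q_surj e
  exact ⟨⟨g, stab_quartet_le d0_mem Q₀_mem g.2, g.2⟩, hg⟩

theorem mem_ker_kap {g : KQ d0 Q₀} : g ∈ kap.ker ↔ ∀ t ∈ Q₀, (g : M24) • t = t := by
  rw [← mem_ker_actOn (S := Q₀) (g := ⟨(g : M24), g.2.2⟩)]
  exact Iff.rfl

def kerQ : List ℕ := [0x2beb454aec3b9a99ae04b222618041, 0x2ceb4b36295ba4c79e06522e418440, 0x3aab4bb5ec5b8698960899ac490402, 0x3c6b498ec92b9ac52e04b99e890801, 0x51eb42c96c7b8708dd26b226468801, 0x546b4b0e70bba4c3bd242a16668402, 0x5dab48ca693b86cb96087914668022, 0x5deb478d4c2ba49b1e068926868820, 0x796b458cecbb9b09a928892c690440, 0x7ceb48b6d05386c2dd26590e890041, 0x89eb45c8a9b39b054d86792e818402, 0x8aab47b6f09ba493d988590a618801, 0x996b438d698ba507d988b994468041, 0x9beb4bc950b38692c5843996868440, 0xb2eb42b4e99b870bc584521e690820, 0xb5eb450df08b9a95cd862a0e490022, 0xbaeb43b4ac53a50b3d2499a2818022, 0xbdab49ca307b9ac5a928398a418820]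

theorem kerQ_ok : tabsOK kerQ = true := by decide +kernel
theorem kerQ_valid : allValid kerQ = true := by decide +kernel
theorem kerQ_stab : allStab kerQ (340831 :: q0L) = true := by decide +kernel

theorem kerQ_in {n : ℕ} (hn : n ∈ kerQ) : InSub (kap.ker.map (M24.subtype.comp (KQ d0 Q₀).subtype)) n := by
  obtain ⟨σ, hσ, hT⟩ := exists_mem_M24 (allValid_iff.1 kerQ_valid n hn)
  have h1 : ∀ t ∈ Q₀, (⟨σ, hσ⟩ : M24) • t = t := by
    intro t ht
    obtain ⟨m, hm, rfl⟩ := mem_Q₀.1 ht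
    change σ • ofMask m = ofMask m
    rw [smul_ofMask hT (q0L_lt m hm), allStab_iff.1 kerQ_stab n hn m (List.mem_cons_of_mem _ hm)]
  have h2 : (⟨σ, hσ⟩ : M24) • Q₀ = Q₀ := by
    apply Finset.eq_of_subset_of_card_le
    · intro x hx
      rw [Finset.mem_smul_finset] at hx
      obtain ⟨c, hc, rfl⟩ := hx
      rw [h1 c hc]; exact hc
    · rw [Finset.card_smul_finset]
  have h3 : (⟨σ, hσ⟩ : M24) • d0 = d0 := by
    change σ • ofMask 340831 = ofMask 340831
    rw [smul_ofMask hT (by norm_num), allStab_iff.1 kerQ_stab n hn 340831 (by simp)]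
  exact ⟨σ, ⟨⟨⟨σ, hσ⟩, h3, h2⟩, mem_ker_kap.2 h1, rfl⟩, hT⟩

theorem hom_inj : Function.Injective (M24.subtype.comp (KQ d0 Q₀).subtype) :=
  M24.subtype_injective.comp (KQ d0 Q₀).subtype_injective

theorem card_map_ker : Nat.card (kap.ker.map (M24.subtype.comp (KQ d0 Q₀).subtype)) = Nat.card kap.ker :=
  Nat.card_congr (Subgroup.equivMapOfInjective _ _ hom_inj).symm.toEquiv

theorem card_KQ_eq : Nat.card (KQ d0 Q₀) = Nat.card kap.ker * 24 := by
  have h1 := kap.ker.card_mul_index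
  rw [Subgroup.index_ker, MonoidHom.range_eq_top.2 kap_surj, Subgroup.card_top,
    Nat.card_eq_fintype_card (α := Equiv.Perm ↥Q₀), Fintype.card_perm, Fintype.card_coe, Q₀_mem.1] at h1
  exact h1.symm

theorem ker_ge : 18 ≤ Nat.card kap.ker := by
  have := card_ge_of_list (fun n hn => kerQ_in hn) kerQ_ok
  rw [card_map_ker] at this
  exact this

theorem quartets_eq_orbit : quartets d0 = orbit (stabilizer M24 d0) Q₀ := by
  ext Q
  constructor
  · intro hQ
    obtain ⟨g, hg, h1, h2⟩ := quartet_trans d0_mem d0_mem Q₀_mem hQ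
    exact ⟨⟨⟨g, hg⟩, h1⟩, h2⟩
  · rintro ⟨⟨⟨g, hg⟩, h1⟩, rfl⟩
    have h2 := smul_quartets hg Q₀_mem
    rw [show g • d0 = d0 from h1] at h2
    exact h2

theorem decQ_image_sub : decQ '' (Finset.range 220 : Set ℕ) ⊆ quartets d0 := by
  rintro _ ⟨i, hi, rfl⟩
  exact decQ_mem (Finset.mem_range.1 hi)

theorem ncard_image : (decQ '' (Finset.range 220 : Set ℕ)).ncard = 220 := by
  rw [Set.InjOn.ncard_image, Set.ncard_coe_finset, Finset.card_range]
  intro i hi j hj h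
  exact decQ_inj (Finset.mem_range.1 hi) (Finset.mem_range.1 hj) h

theorem finite_quartets (d : Finset GolayPt) : (quartets d).Finite := Set.toFinite _

theorem base_counts : (quartets d0).ncard = 220 ∧ Nat.card (KQ d0 Q₀) = 432 := by
  have h1 := PermChain.card_eq_orbit_mul (stabilizer M24 d0) Q₀
  rw [← quartets_eq_orbit, card_stabilizer_dodecad d0_mem] at h1
  have h2 : 220 ≤ (quartets d0).ncard := by
    rw [← ncard_image]
    exact Set.ncard_le_ncard decQ_image_sub (finite_quartets d0)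
  have h3 : 432 ≤ Nat.card (KQ d0 Q₀) := by
    rw [card_KQ_eq]; have := ker_ge; omega
  have h4 : Nat.card (KQ d0 Q₀) = Nat.card (stabilizer M24 d0 ⊓ stabilizer M24 Q₀ : Subgroup M24) := rfl
  rw [h4] at h3 ⊢
  generalize (quartets d0).ncard = a at h1 h2 ⊢
  generalize Nat.card (stabilizer M24 d0 ⊓ stabilizer M24 Q₀ : Subgroup M24) = b at h1 h3 ⊢
  constructor
  · by_contra hne
    have h5 : 221 ≤ a := by omega
    have h6 := Nat.mul_le_mul h5 h3
    omega
  · by_contra hne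
    have h5 : 433 ≤ b := by omega
    have h6 := Nat.mul_le_mul h2 h5
    omega

theorem quartets_eq_image : quartets d0 = decQ '' (Finset.range 220 : Set ℕ) := by
  symm
  apply Set.eq_of_subset_of_ncard_le decQ_image_sub
  rw [base_counts.1, ncard_image]

theorem card_ker_kap : Nat.card kap.ker = 18 := by
  have h1 := card_KQ_eq
  rw [base_counts.2] at h1
  omega

theorem ncard_quartets {d : Finset GolayPt} (hd : d ∈ dodecads) : (quartets d).ncard = 220 := by
  obtain ⟨g, hg, h⟩ := M24_dodecad_transitive hd d0_mem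
  rw [← base_counts.1]
  apply Set.ncard_congr (fun Q _ => g • Q)
  · intro Q hQ
    have := smul_quartets hg hQ
    rwa [h] at this
  · intro Q Q' _ _ h'
    exact smul_left_cancel g h'
  · intro Q hQ
    refine ⟨g⁻¹ • Q, ?_, smul_inv_smul _ _⟩
    have h1 := smul_quartets (M24.inv_mem hg) hQ
    rwa [← h, inv_smul_smul] at h1

/-- Standard position of a quartet. -/
theorem quartet_std {d : Finset GolayPt} (hd : d ∈ dodecads) {Q : Finset (Finset GolayPt)} (hQ : Q ∈ quartets d) :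
    ∃ s : M24, s • d = d0 ∧ s • Q = Q₀ := by
  obtain ⟨g, hg, h1, h2⟩ := quartet_trans hd d0_mem hQ Q₀_mem
  exact ⟨⟨g, hg⟩, h1, h2⟩

def stdEquiv {d : Finset GolayPt} {Q : Finset (Finset GolayPt)} {s : M24} (h : s • d = d0 ∧ s • Q = Q₀) :
    KQ d Q ≃* KQ d0 Q₀ :=
  conjEquiv s (fun g => and_congr (conj_mem_stab s g h.1) (conj_mem_stab s g h.2))

/-! ### The normal subgroup of order 9 -/

def nQ : List ℕ := [0x2beb454aec3b9a99ae04b222618041, 0x3aab4bb5ec5b8698960899ac490402, 0x546b4b0e70bba4c3bd242a16668402, 0x5deb478d4c2ba49b1e068926868820, 0x7ceb48b6d05386c2dd26590e890041, 0x89eb45c8a9b39b054d86792e818402, 0x996b438d698ba507d988b994468041, 0xb2eb42b4e99b870bc584521e690820, 0xbdab49ca307b9ac5a928398a418820]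

theorem nQ_closed : closedL nQ = true := by decide +kernel
theorem nQ_ok : tabsOK nQ = true := by decide +kernel
theorem nQ_sub : allB nQ (memL kerQ) = true := by decide +kernel
theorem nQ_cube : ∀ n ∈ nQ, pmul n (pmul n n) = idTab := by decide +kernel
theorem kerQ_lt : ∀ n ∈ kerQ, pmul n (pmul n n) < 32 ^ 24 := by decide +kernel
theorem kerQ_cube : allB kerQ (fun n => match Nat.beq (pmul n (pmul n n)) idTab with
    | true => memL nQ n
    | false => true) = true := by decide +kernel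

theorem kerQ_exhaust {g : KQ d0 Q₀} (hg : g ∈ kap.ker) : ∃ n ∈ kerQ, IsTable n ((g : M24) : Equiv.Perm GolayPt) := by
  refine exhaust (H := kap.ker.map (M24.subtype.comp (KQ d0 Q₀).subtype))
    (fun n hn => kerQ_in hn) kerQ_ok ?_ _ ⟨g, hg, rfl⟩
  rw [card_map_ker, card_ker_kap]; rfl

noncomputable def NQ : Subgroup (KQ d0 Q₀) := listSub _ nQ nQ_closed

theorem mem_NQ {g : KQ d0 Q₀} : g ∈ NQ ↔ g ∈ kap.ker ∧ g ^ 3 = 1 := by
  have e : g ^ 3 = 1 ↔ ((g : M24) : Equiv.Perm GolayPt) ^ 3 = 1 := by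
    rw [← Subgroup.coe_pow, OneMemClass.coe_eq_one, ← Subgroup.coe_pow, OneMemClass.coe_eq_one]
  rw [e]
  constructor
  · rintro ⟨n, hn, hT⟩
    constructor
    · obtain ⟨σ, ⟨k, hk, rfl⟩, hT'⟩ := kerQ_in (memL_iff.1 (allB_iff.1 nQ_sub n hn))
      have h1 : g = k := Subtype.ext (Subtype.ext (isTable_unique hT hT'))
      rw [h1]; exact hk
    · have h1 := cube_table hT
      rw [nQ_cube n hn] at h1
      exact isTable_unique h1 isTable_one
  · rintro ⟨hk, h⟩
    obtain ⟨n, hn, hT⟩ := kerQ_exhaust hk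
    have h1 := cube_table hT
    rw [h] at h1
    have h2 := isTable_inj h1 isTable_one (kerQ_lt n hn) (by decide)
    have h3 := allB_iff.1 kerQ_cube n hn
    rw [h2] at h3
    exact ⟨n, memL_iff.1 h3, hT⟩

theorem NQ_normal : NQ.Normal := by
  constructor
  intro n hn g
  rw [mem_NQ] at hn ⊢
  refine ⟨(MonoidHom.normal_ker kap).conj_mem n hn.1 g, ?_⟩
  rw [conj_pow, hn.2]; group

theorem card_NQ : Nat.card NQ = 9 := by
  unfold NQ
  rw [card_listSub _ _ _ nQ_ok]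
  · rfl
  · intro n hn
    obtain ⟨σ, ⟨k, hk, rfl⟩, hT'⟩ := kerQ_in (memL_iff.1 (allB_iff.1 nQ_sub n hn))
    exact ⟨_, ⟨k, k.2, rfl⟩, hT'⟩

/-! ### The general linear group -/

def glQL : List ℕ := [0x0, 0x0, 0x0, 0x0, 0x0, 0x0, 0x0, 0x0, 0x0, 0x0, 0x0, 0x0, 0xbae957b6289ba44b1cd0524ac18820, 0x515d4b8a329d423b2db07a4ec01904, 0x79eae51a219d100b1450ba56c23643, 0x52eb478626b384499510ba4ec049a3, 0x7968eba22db54c399e505256c20440, 0xb9dd554a22b51a09ac307a4ac1a0c4, 0x0, 0x0, 0x0, 0x3beb458a289b824b5cc92c14c03643, 0x2a9d53b6219d240b3c495c2ec19904, 0x5de8e29a329d503b29a93c1ec20820, 0x2be955ca26b39a49a9093c2ec18440, 0x5aaae3a222b50c09dc292c1ec249a3, 0x3ddd42862db54439be495c14c020c4, 0x0, 0xbdab49ca307b9ac5a928398a418820, 0x54e95b0a307b82c5dd262a0e4049a3, 0x0, 0x55a8e98630bd44c2bd325b4e301904, 0x7cdd4b1a30bd50c2a92d3c96320440, 0x0, 0x7d9d59a230550cc3dd212896023643, 0xbceaeb36305524c3bd22584a01a0c4, 0x0, 0x395d5b8a2d7d0235da48999440260c,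 0x29dd454a217d5a05cc46b22e41a60c, 0x3aeae78628bd0442cccdb49430260c, 0x0, 0x59eb451a22bb9002d8329b5e32260c, 0x2ae8e7b626556443d90198ae01a60c, 0x59695ba232538c33cda2b05e02260c, 0x0, 0x0, 0x9aa8e3a6217d60059448b9ac4649a3, 0xb5eae2a62d7d20359e465226460820, 0x9bdd55a628bd20429cd2536c360440, 0xb2a953a622bba002ac2d7ca6361904, 0x0, 0xb3dd45a6265560439502b866063643, 0x0, 0x9deb42a63253a033ada178ac0620c4, 0x0, 0x3da95986295b84c79608b994403643, 0x2ceb4b36295ba4c79e06522e418440, 0x0, 0x2daae9ca293d1ac52e0178ae019904, 0x5cdd5b1a293d10c51602b85e0249a3, 0x0, 0x5d9d49a2292d4ccb9e12535e320820, 0x3ce8eb0a292d42cbae0d7c943020c4, 0x0, 0x996aebc2325d1237a9a839ac460440, 0xb1e8e542225d5207dc262a26463643, 0x9add47c2283d52455cc128ac0649a3, 0xb16b4bc22d3b92353e425866061904, 0x0, 0xb2dd57c2262d124ba90d3ca6360820, 0x0, 0x99e95542212b920bbc525b6c3620c4, 0x0, 0xba9d43b6225d6407d828998a41c12c, 0x55dd5286325d0437cda6b20e40412c, 0xbbe8e5ca283d5a454cc2b04a01c12c,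 0x0, 0x7de9529a2d3b90355a41989602412c, 0x53eae58a262d024bd9129b4e30412c, 0x7aab43a2212b8c0bcc4db49632412c, 0x0]

def glQ (a b c d : ZMod 3) : ℕ := glQL.getD (27 * a.val + 9 * b.val + 3 * c.val + d.val) 0

theorem glQ_mul : ∀ a b c d a' b' c' d' : ZMod 3, a * d - b * c ≠ 0 → a' * d' - b' * c' ≠ 0 →
    pmul (glQ a b c d) (glQ a' b' c' d') = glQ (a * a' + b * c') (a * b' + b * d') (c * a' + d * c') (c * b' + d * d') := by
  decide +kernel

theorem glQ_ok : ∀ a b c d : ZMod 3, a * d - b * c ≠ 0 → validM24 (glQ a b c d) = true ∧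
    pmask (glQ a b c d) 340831 = 340831 ∧ mapsQ (glQ a b c d) bQ bQ = true ∧ glQ a b c d < 32 ^ 24 := by decide +kernel

theorem glQ_inj : ∀ a b c d : ZMod 3, a * d - b * c ≠ 0 → memL nQ (glQ a b c d) = true → a = 1 ∧ b = 0 ∧ c = 0 ∧ d = 1 := by
  decide +kernel

/-- table of a matrix -/
def glU (A : GL (Fin 2) (ZMod 3)) : ℕ := glQ (A.1 0 0) (A.1 0 1) (A.1 1 0) (A.1 1 1)

theorem glU_mul (A B : GL (Fin 2) (ZMod 3)) : pmul (glU A) (glU B) = glU (A * B) := by
  unfold glU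
  rw [glQ_mul _ _ _ _ _ _ _ _ (det_ne A) (det_ne B)]
  simp only [Units.val_mul, Matrix.mul_apply, Fin.sum_univ_two]

theorem KQ_of_stabQ {n : ℕ} (h : InSub stabQ n) : ∃ g : KQ d0 Q₀, IsTable n ((g : M24) : Equiv.Perm GolayPt) := by
  obtain ⟨σ, hσ, hT⟩ := h
  exact ⟨⟨⟨σ, hσ.1.1⟩, hσ.1.2, hσ.2⟩, hT⟩

theorem glU_spec (A : GL (Fin 2) (ZMod 3)) : ∃ g : KQ d0 Q₀, IsTable (glU A) ((g : M24) : Equiv.Perm GolayPt) := by
  obtain ⟨h1, h2, h3, h4⟩ := glQ_ok _ _ _ _ (det_ne A)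
  exact KQ_of_stabQ (inSub_stabQ h1 h2 h3)

noncomputable def glHomQ : GL (Fin 2) (ZMod 3) →* KQ d0 Q₀ :=
  MonoidHom.mk' (fun A => (glU_spec A).choose) (fun A B => by
    apply Subtype.ext; apply Subtype.ext
    have h1 := isTable_pmul (glU_spec A).choose_spec (glU_spec B).choose_spec
    rw [glU_mul] at h1
    exact isTable_unique (glU_spec (A * B)).choose_spec h1)

theorem nQ_lt : ∀ n ∈ nQ, n < 32 ^ 24 := (tabsOK_iff nQ_ok).2

theorem glHomQ_N {A : GL (Fin 2) (ZMod 3)} (hA : glHomQ A ∈ NQ) : A = 1 := by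
  obtain ⟨n, hn, hT⟩ := hA
  have h1 := (glU_spec A).choose_spec
  have h3 : glU A = n := isTable_inj h1 hT (glQ_ok _ _ _ _ (det_ne A)).2.2.2 (nQ_lt n hn)
  obtain ⟨e1, e2, e3, e4⟩ := glQ_inj _ _ _ _ (det_ne A) (by
    change memL nQ (glU A) = true
    rw [h3]; exact memL_iff.2 hn)
  apply Units.ext
  ext i j
  fin_cases i <;> fin_cases j
  · exact e1
  · exact e2
  · exact e3
  · exact e4

theorem quot_gl (hN : NQ.Normal) : Nonempty (KQ d0 Q₀ ⧸ NQ ≃* GL (Fin 2) (ZMod 3)) := by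
  let ψ : GL (Fin 2) (ZMod 3) →* KQ d0 Q₀ ⧸ NQ := (QuotientGroup.mk' NQ).comp glHomQ
  have h1 : Function.Injective ψ := by
    rw [injective_iff_map_eq_one]
    intro A hA
    exact glHomQ_N ((QuotientGroup.eq_one_iff _).1 hA)
  have h2 : Nat.card (GL (Fin 2) (ZMod 3)) = Nat.card (KQ d0 Q₀ ⧸ NQ) := by
    have h3 := NQ.card_mul_index
    rw [card_NQ, base_counts.2] at h3
    rw [card_gl23]
    change 48 = NQ.index
    omega
  exact ⟨(MulEquiv.ofBijective ψ ((Nat.bijective_iff_injective_and_card _).2 ⟨h1, h2⟩)).symm⟩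

/-! ### Transitivity on points -/

def tpQ : List ℕ := [0x2bdd4b914c5d4c999e1288ecd40440, 0x2bdd58a566551849d912b8ced80041, 0x3a9d5b24a4bd1888cccd7c96380402, 0x3bdd5512ec5d109b16028826133643, 0x2a9d53b6219d240b3c495c2ec19904, 0x2a9d4582728d42db5c693c1ec11106, 0x3cdd4589437d42dbda4c2c229010c8, 0x29dd5b01ed8d0325dc665226413209, 0x29dd454a217d5a05cc46b22e41a60c, 0x2c5d47b166b5524ba900988e18486d, 0x53dd5b08e39d032bada42a22603130, 0x2c5d5992c95d0ccb9e007894143472]

theorem tpQ_ok : allB tpQ (fun n => match validM24 n with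
    | true => (match Nat.beq (pmask n 340831) 340831 with | true => mapsQ n bQ bQ | false => false)
    | false => false) = true := by
  decide +kernel

theorem tpQ_all : ∀ y : GolayPt, y ∈ d0 → ∃ n ∈ tpQ, papp n 0 = idx y := by decide +kernel

theorem base_point {y : GolayPt} (hy : y ∈ d0) : ∃ g ∈ KQ d0 Q₀, g • pt 0 = y := by
  obtain ⟨n, hn, h⟩ := tpQ_all y hy
  have h1 := allB_iff.1 tpQ_ok n hn
  cases h2 : validM24 n with
  | false => simp only [h2] at h1; exact absurd h1 (by simp)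
  | true =>
    simp only [h2] at h1
    cases h3 : Nat.beq (pmask n 340831) 340831 with
    | false => simp only [h3] at h1; exact absurd h1 (by simp)
    | true =>
      simp only [h3] at h1
      obtain ⟨g, hT⟩ := KQ_of_stabQ (inSub_stabQ h2 (Nat.eq_of_beq_eq_true h3) h1)
      refine ⟨g, g.2, ?_⟩
      apply idx_injective
      rw [← h]
      change idx (((g : M24) : Equiv.Perm GolayPt) (pt 0)) = _
      rw [hT, idx_pt (by norm_num)]

theorem quartet_main {d : Finset GolayPt} (hd : d ∈ dodecads) {Q : Finset (Finset GolayPt)} (hQ : Q ∈ quartets d) :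
    Nat.card (KQ d Q) = 432 ∧ (∃ (N : Subgroup (KQ d Q)) (_ : N.Normal), Nat.card N = 9 ∧
      Nonempty (KQ d Q ⧸ N ≃* GL (Fin 2) (ZMod 3))) ∧ ∀ p ∈ d, ∀ q ∈ d, ∃ g ∈ KQ d Q, g • p = q := by
  obtain ⟨s, hs⟩ := quartet_std hd hQ
  let e : KQ d Q ≃* KQ d0 Q₀ := stdEquiv hs
  have hN := NQ_normal
  obtain ⟨f⟩ := quot_gl hN
  let π : KQ d Q →* GL (Fin 2) (ZMod 3) := (f.toMonoidHom.comp (QuotientGroup.mk' NQ)).comp e.toMonoidHom
  have hπ : Function.Surjective π := (f.surjective.comp (QuotientGroup.mk'_surjective NQ)).comp e.surjective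
  have hker : ∀ x, x ∈ π.ker ↔ e x ∈ NQ := by
    intro x
    rw [MonoidHom.mem_ker]
    change f (QuotientGroup.mk' NQ (e x)) = 1 ↔ _
    rw [map_eq_one_iff f f.injective]
    exact QuotientGroup.eq_one_iff _
  refine ⟨?_, ⟨π.ker, inferInstance, ?_, ⟨QuotientGroup.quotientKerEquivOfSurjective π hπ⟩⟩, ?_⟩
  · rw [Nat.card_congr e.toEquiv, base_counts.2]
  · rw [← card_NQ]
    exact Nat.card_congr (e.toEquiv.subtypeEquiv hker)
  · intro p hp q hq
    have hm : ∀ {x}, x ∈ d → s • x ∈ d0 := fun {x} hx => by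
      rw [← hs.1]; exact Finset.smul_mem_smul_finset hx
    obtain ⟨a, ha, ha'⟩ := base_point (hm hp)
    obtain ⟨b, hb, hb'⟩ := base_point (hm hq)
    have hba : b * a⁻¹ ∈ KQ d0 Q₀ := (KQ _ _).mul_mem hb ((KQ _ _).inv_mem ha)
    refine ⟨(e.symm ⟨b * a⁻¹, hba⟩ : KQ d Q), Subtype.mem _, ?_⟩
    change (s⁻¹ * (b * a⁻¹) * s) • p = q
    rw [mul_smul, mul_smul, mul_smul, ← ha', inv_smul_smul, hb', inv_smul_smul]

/-! ### Orbits on quartets -/

/-- invariant -/
def inv23 (F G : Finset (Finset GolayPt)) : ℕ := ∑ o ∈ G, ∑ u ∈ F, ((u ∩ o).card ^ 2 + (u ∩ o).card ^ 3)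

theorem inv23_smul (σ : M24) (F G : Finset (Finset GolayPt)) : inv23 (σ • F) (σ • G) = inv23 F G := by
  unfold inv23
  rw [show σ • G = G.image (fun u => σ • u) from rfl, Finset.sum_image (fun a _ b _ h => smul_left_cancel σ h)]
  apply Finset.sum_congr rfl
  intro o _
  rw [show σ • F = F.image (fun u => σ • u) from rfl, Finset.sum_image (fun a _ b _ h => smul_left_cancel σ h)]
  apply Finset.sum_congr rfl
  intro u _
  rw [← Finset.smul_finset_inter, Finset.card_smul_finset]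

def inv23L (F G : List ℕ) : ℕ := (G.map fun m => (F.map fun u => pop (u &&& m) ^ 2 + pop (u &&& m) ^ 3).sum).sum

theorem inv23_list {F G : List ℕ} (hF : F.Nodup) (hFlt : ∀ u ∈ F, u < 2 ^ 24) (hG : G.Nodup)
    (hGlt : ∀ u ∈ G, u < 2 ^ 24) : inv23 (F.map ofMask).toFinset (G.map ofMask).toFinset = inv23L F G := by
  unfold inv23 inv23L
  rw [List.sum_toFinset _ (map_nodup hG hGlt), List.map_map]
  congr 1
  apply List.map_congr_left
  intro m hm
  change ∑ u ∈ (F.map ofMask).toFinset, ((u ∩ ofMask m).card ^ 2 + (u ∩ ofMask m).card ^ 3) = _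
  rw [List.sum_toFinset _ (map_nodup hF hFlt), List.map_map]
  congr 1
  apply List.map_congr_left
  intro u hu
  change (ofMask u ∩ ofMask m).card ^ 2 + (ofMask u ∩ ofMask m).card ^ 3 = _
  rw [card_eq_pop, ← ofMask_and, maskOf_ofMask (lt_of_le_of_lt Nat.and_le_left (hFlt u hu))]

theorem base_orbit (t : Fin 5) : orbit (KQ d0 Q₀) (decQ (nthD basesQ (t + 1))) =
    decQ '' (((Finset.range 220).filter fun i => tTy (entT certQK i) = t + 1 : Finset ℕ) : Set ℕ) := by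
  have hb : ∀ t : Fin 5, nthD basesQ (t + 1) < 220 ∧ tTy (entT certQK (nthD basesQ (t + 1))) = t + 1 := by
    decide +kernel
  have hinv : ∀ t : Fin 5, inv23 (decQ (nthD basesQ (t + 1))) Q₀ = inv23L (qLst (nthD basesQ (t + 1))) (qLst bQ) := by
    intro t
    exact inv23_list (qLst_nodup (hb t).1) (qLst_lt _) (qLst_nodup (by norm_num)) (qLst_lt _)
  have hinj : Function.Injective fun t : Fin 5 => inv23L (qLst (nthD basesQ (t + 1))) (qLst bQ) := by decide +kernel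
  have hkey : ∀ i < 220, 1 ≤ tTy (entT certQK i) ∧ tTy (entT certQK i) ≤ 5 ∧
      ∃ g ∈ KQ d0 Q₀, g • decQ i = decQ (nthD basesQ (tTy (entT certQK i))) := by
    intro i hi
    obtain ⟨h1, σ, hσ, h2⟩ := certQ_sound gensQK_in certQK_ok i hi
    exact ⟨Nat.one_le_iff_ne_zero.2 h1, Nat.le_of_ble_eq_true (allLT_iff.1 tyQK_ok i hi),
      ⟨σ, hσ.1.1⟩, ⟨hσ.1.2, hσ.2⟩, h2⟩
  ext Q
  constructor
  · rintro ⟨g, rfl⟩
    have hg1 : (g : M24) • d0 = d0 := g.2.1
    have hg2 : (g : M24) • Q₀ = Q₀ := g.2.2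
    have h1 : (g : M24) • decQ (nthD basesQ (t + 1)) ∈ quartets d0 := by
      have := smul_quartets (g : M24).2 (decQ_mem (hb t).1)
      rwa [show ((g : M24) : Equiv.Perm GolayPt) • d0 = d0 from hg1] at this
    rw [quartets_eq_image] at h1
    obtain ⟨i, hi, hi'⟩ := h1
    have hi2 := Finset.mem_range.1 hi
    refine ⟨i, ?_, hi'⟩
    rw [Finset.mem_coe, Finset.mem_filter]
    refine ⟨hi, ?_⟩
    obtain ⟨h3, h4, k, hk, h5⟩ := hkey i hi2
    have h6 : inv23 (decQ (nthD basesQ (tTy (entT certQK i)))) Q₀ = inv23 (decQ (nthD basesQ (t + 1))) Q₀ := by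
      rw [← h5, hi']
      have e1 : inv23 (k • (g : M24) • decQ (nthD basesQ (t + 1))) Q₀ =
          inv23 (k • (g : M24) • decQ (nthD basesQ (t + 1))) (k • (g : M24) • Q₀) := by
        rw [hg2, (hk.2 : k • Q₀ = Q₀)]
      rw [e1, inv23_smul, inv23_smul]
    have h7 := hinv ⟨tTy (entT certQK i) - 1, by omega⟩
    have h8 : tTy (entT certQK i) - 1 + 1 = tTy (entT certQK i) := by omega
    simp only [h8] at h7
    have h9 := hinj (a₁ := ⟨tTy (entT certQK i) - 1, by omega⟩) (a₂ := t) (by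
      simp only [h8]
      rw [← h7, h6, hinv t])
    rw [← h9]
    simp only [h8]
  · rintro ⟨i, hi, rfl⟩
    rw [Finset.mem_coe, Finset.mem_filter, Finset.mem_range] at hi
    obtain ⟨-, -, k, hk, h5⟩ := hkey i hi.1
    rw [hi.2] at h5
    refine ⟨⟨k, hk⟩⁻¹, ?_⟩
    change (k⁻¹ : M24) • decQ (nthD basesQ (t + 1)) = decQ i
    rw [← h5, inv_smul_smul]

theorem base_orbit_card (t : Fin 5) : (orbit (KQ d0 Q₀) (decQ (nthD basesQ (t + 1)))).ncard = ![1, 12, 27, 72, 108] t := by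
  rw [base_orbit, Set.InjOn.ncard_image, Set.ncard_coe_finset]
  · revert t; decide +kernel
  · intro i hi j hj h
    rw [Finset.mem_coe, Finset.mem_filter, Finset.mem_range] at hi hj
    exact decQ_inj hi.1 hj.1 h

theorem base_union : quartets d0 = ⋃ t : Fin 5, orbit (KQ d0 Q₀) (decQ (nthD basesQ (t + 1))) := by
  ext Q
  rw [Set.mem_iUnion, quartets_eq_image]
  constructor
  · rintro ⟨i, hi, rfl⟩
    have hi2 := Finset.mem_range.1 hi
    obtain ⟨h1, -⟩ := certQ_sound gensQK_in certQK_ok i hi2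
    have h2 := Nat.le_of_ble_eq_true (allLT_iff.1 tyQK_ok i hi2)
    refine ⟨⟨tTy (entT certQK i) - 1, by omega⟩, ?_⟩
    rw [base_orbit]
    refine ⟨i, ?_, rfl⟩
    rw [Finset.mem_coe, Finset.mem_filter]
    refine ⟨hi, ?_⟩
    simp only
    omega
  · rintro ⟨t, ht⟩
    rw [base_orbit] at ht
    obtain ⟨i, hi, rfl⟩ := ht
    rw [Finset.mem_coe, Finset.mem_filter] at hi
    exact ⟨i, hi.1, rfl⟩

theorem quartet_orbits {d : Finset GolayPt} (hd : d ∈ dodecads) {Q : Finset (Finset GolayPt)} (hQ : Q ∈ quartets d) :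
    ∃ X : Fin 5 → Finset (Finset GolayPt), X 0 = Q ∧ (∀ t, X t ∈ quartets d) ∧
      (∀ t, (orbit (KQ d Q) (X t)).ncard = ![1, 12, 27, 72, 108] t) ∧ quartets d = ⋃ t, orbit (KQ d Q) (X t) := by
  obtain ⟨s, hs1, hs2⟩ := quartet_std hd hQ
  have hk : ∀ g : M24, g ∈ KQ d Q ↔ s * g * s⁻¹ ∈ KQ d0 Q₀ := fun g =>
    and_congr (conj_mem_stab s g hs1) (conj_mem_stab s g hs2)
  have horb : ∀ Y : Finset (Finset GolayPt), orbit (KQ d Q) (s⁻¹ • Y) = (fun z => s⁻¹ • z) '' orbit (KQ d0 Q₀) Y := by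
    intro Y
    ext z
    constructor
    · rintro ⟨g, rfl⟩
      refine ⟨(s * (g : M24) * s⁻¹) • Y, ⟨⟨s * (g : M24) * s⁻¹, (hk g).1 g.2⟩, rfl⟩, ?_⟩
      change s⁻¹ • (s * (g : M24) * s⁻¹) • Y = (g : M24) • s⁻¹ • Y
      rw [mul_smul, mul_smul, inv_smul_smul]
    · rintro ⟨w, ⟨g, rfl⟩, rfl⟩
      refine ⟨⟨s⁻¹ * (g : M24) * s, (hk _).2 (by
        have : s * (s⁻¹ * (g : M24) * s) * s⁻¹ = g := by group
        rw [this]; exact g.2)⟩, ?_⟩
      change (s⁻¹ * (g : M24) * s) • s⁻¹ • Y = s⁻¹ • (g : M24) • Y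
      rw [mul_smul, mul_smul, smul_inv_smul]
  have hb : ∀ t : Fin 5, nthD basesQ (t + 1) < 220 := by decide +kernel
  have hq : ∀ {Y : Finset (Finset GolayPt)}, Y ∈ quartets d0 → s⁻¹ • Y ∈ quartets d := by
    intro Y hY
    have h1 := smul_quartets (M24.inv_mem s.2) hY
    have h2 : ((s : M24) : Equiv.Perm GolayPt)⁻¹ • d0 = d := by
      rw [← hs1]; exact inv_smul_smul s d
    rw [h2] at h1
    exact h1
  refine ⟨fun t => s⁻¹ • decQ (nthD basesQ (t + 1)), ?_, ?_, ?_, ?_⟩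
  · change s⁻¹ • Q₀ = Q
    rw [← hs2, inv_smul_smul]
  · intro t
    exact hq (decQ_mem (hb t))
  · intro t
    rw [horb, Set.ncard_image_of_injective _ (MulAction.injective s⁻¹), base_orbit_card]
  · ext Y
    rw [Set.mem_iUnion]
    constructor
    · intro hY
      have h1 : s • Y ∈ quartets d0 := by
        have h2 := smul_quartets s.2 hY
        rw [show ((s : M24) : Equiv.Perm GolayPt) • d = d0 from hs1] at h2
        exact h2
      rw [base_union, Set.mem_iUnion] at h1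
      obtain ⟨t, ht⟩ := h1
      refine ⟨t, ?_⟩
      rw [horb]
      exact ⟨_, ht, inv_smul_smul _ _⟩
    · rintro ⟨t, ht⟩
      rw [horb] at ht
      obtain ⟨w, hw, rfl⟩ := ht
      apply hq
      rw [base_union, Set.mem_iUnion]
      exact ⟨t, hw⟩

end Cfsg.Agent.M24X
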