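import Cfsg.Agent.M24X.M11cent

/-!
# Quartets of a dodecad: uniqueness and transitivity (owner: helper92)
-/

set_option autoImplicit false

namespace Cfsg.Agent.M24X

open Cfsg MulAction Cfsg.Agent.Golay Cfsg.Agent.Golay.Orb
open scoped Pointwise

theorem hexad_eq {d h h' : Finset GolayPt} (hh : h ∈ hexadsOn d) (hh' : h' ∈ hexadsOn d) {s : Finset GolayPt}
    (hs : s ⊆ h) (hs' : s ⊆ h') (h5 : 5 ≤ s.card) : h = h' := by
  obtain ⟨-, o, ho, rfl⟩ := hh
  obtain ⟨-, o', ho', rfl⟩ := hh'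
  rw [octad_eq_of_subset ho ho' (fun x hx => (Finset.mem_inter.1 (hs hx)).1)
    (fun x hx => (Finset.mem_inter.1 (hs' hx)).1) h5]

theorem quartet_disjoint {d : Finset GolayPt} {Q : Finset (Finset GolayPt)} (hQ : Q ∈ quartets d)
    {a b : Finset GolayPt} (ha : a ∈ Q) (hb : b ∈ Q) (hab : a ≠ b) : Disjoint a b := by
  have h1 := (hQ.2.2 a ha b hb hab).1
  have h2 := Finset.card_union_add_card_inter a b
  have h3 := (hQ.2.1 a ha).1
  have h4 := (hQ.2.1 b hb).1
  rw [Finset.disjoint_iff_inter_eq_empty, ← Finset.card_eq_zero]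
  omega

theorem quartet_rest {d : Finset GolayPt} (hd : d ∈ dodecads) {Q : Finset (Finset GolayPt)} (hQ : Q ∈ quartets d)
    {t u : Finset GolayPt} (ht : t ∈ Q) (hu : u ∈ Q) (htu : t ≠ u) :
    ∃ v w : Finset GolayPt, Q = {t, u, v, w} ∧ v ∈ Q ∧ w ∈ Q ∧ t ≠ v ∧ t ≠ w ∧ u ≠ v ∧ u ≠ w ∧ v ≠ w ∧
      v ∪ w = d \ (t ∪ u) := by
  have h1 : ((Q.erase t).erase u).card = 2 := by
    rw [Finset.card_erase_of_mem (Finset.mem_erase.2 ⟨htu.symm, hu⟩), Finset.card_erase_of_mem ht, hQ.1]
  obtain ⟨v, w, hvw, h2⟩ := Finset.card_eq_two.1 h1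
  have hv : v ∈ (Q.erase t).erase u := by rw [h2]; simp
  have hw : w ∈ (Q.erase t).erase u := by rw [h2]; simp
  rw [Finset.mem_erase, Finset.mem_erase] at hv hw
  refine ⟨v, w, ?_, hv.2.2, hw.2.2, hv.2.1.symm, hw.2.1.symm, hv.1.symm, hw.1.symm, hvw, ?_⟩
  · rw [← Finset.insert_erase ht, ← Finset.insert_erase (Finset.mem_erase.2 ⟨htu.symm, hu⟩), h2]
  · apply Finset.eq_of_subset_of_card_le
    · intro x hx
      rw [Finset.mem_sdiff, Finset.mem_union]
      rw [Finset.mem_union] at hx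
      have d1 := quartet_disjoint hQ ht hv.2.2 hv.2.1.symm
      have d2 := quartet_disjoint hQ ht hw.2.2 hw.2.1.symm
      have d3 := quartet_disjoint hQ hu hv.2.2 hv.1.symm
      have d4 := quartet_disjoint hQ hu hw.2.2 hw.1.symm
      rcases hx with hx | hx
      · refine ⟨(hQ.2.1 v hv.2.2).2 hx, ?_⟩
        rintro (h | h)
        · exact Finset.disjoint_left.1 d1 h hx
        · exact Finset.disjoint_left.1 d3 h hx
      · refine ⟨(hQ.2.1 w hw.2.2).2 hx, ?_⟩
        rintro (h | h)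
        · exact Finset.disjoint_left.1 d2 h hx
        · exact Finset.disjoint_left.1 d4 h hx
    · have h3 := (hQ.2.2 v hv.2.2 w hw.2.2 hvw).1
      have h4 := (hQ.2.2 t ht u hu htu).1
      have h5 : t ∪ u ⊆ d := Finset.union_subset (hQ.2.1 t ht).2 (hQ.2.1 u hu).2
      have h6 := Finset.card_sdiff_add_card_eq_card h5
      rw [card_dodecad hd] at h6
      omega

/-- The union of a quartet is the dodecad. -/
theorem quartet_cover {d : Finset GolayPt} (hd : d ∈ dodecads) {Q : Finset (Finset GolayPt)} (hQ : Q ∈ quartets d)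
    {x : GolayPt} : x ∈ d ↔ ∃ t ∈ Q, x ∈ t := by
  constructor
  · intro hx
    obtain ⟨t, u, ht, hu, htu⟩ := Finset.one_lt_card_iff.1 (show 1 < Q.card by rw [hQ.1]; norm_num)
    obtain ⟨v, w, -, hv, hw, -, -, -, -, -, h⟩ := quartet_rest hd hQ ht hu htu
    by_cases h1 : x ∈ t ∪ u
    · rw [Finset.mem_union] at h1
      rcases h1 with h1 | h1
      · exact ⟨t, ht, h1⟩
      · exact ⟨u, hu, h1⟩
    · have h2 : x ∈ v ∪ w := by rw [h, Finset.mem_sdiff]; exact ⟨hx, h1⟩
      rw [Finset.mem_union] at h2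
      rcases h2 with h2 | h2
      · exact ⟨v, hv, h2⟩
      · exact ⟨w, hw, h2⟩
  · rintro ⟨t, ht, hx⟩
    exact (hQ.2.1 t ht).2 hx

/-- A quartet is determined by two of its triples. -/
theorem quartet_unique {d : Finset GolayPt} (hd : d ∈ dodecads) {Q Q' : Finset (Finset GolayPt)} (hQ : Q ∈ quartets d)
    (hQ' : Q' ∈ quartets d) {t u : Finset GolayPt} (ht : t ∈ Q) (hu : u ∈ Q) (htu : t ≠ u) (ht' : t ∈ Q')
    (hu' : u ∈ Q') : Q = Q' := by
  obtain ⟨v, w, e, hv, hw, tv, tw, uv, uw, vw, h⟩ := quartet_rest hd hQ ht hu htu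
  obtain ⟨v', w', e', hv', hw', tv', tw', uv', uw', vw', h'⟩ := quartet_rest hd hQ' ht' hu' htu
  -- it suffices to find a common third
  have key : ∀ {v w v' w' : Finset GolayPt}, v ∈ Q → v' ∈ Q' → t ≠ v → t ≠ v' → 2 ≤ (v ∩ v').card → v = v' := by
    intro v w v' w' hv hv' tv tv' h2
    have h3 : t ∪ v = t ∪ v' := by
      apply hexad_eq (hQ.2.2 t ht v hv tv) (hQ'.2.2 t ht' v' hv' tv') (s := t ∪ (v ∩ v'))
      · exact Finset.union_subset_union_right Finset.inter_subset_left
      · exact Finset.union_subset_union_right Finset.inter_subset_right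
      · rw [Finset.card_union_of_disjoint, (hQ.2.1 t ht).1]
        · omega
        · exact Finset.disjoint_of_subset_right Finset.inter_subset_left (quartet_disjoint hQ ht hv tv)
    have h4 : (t ∪ v) \ t = v := by
      rw [Finset.union_sdiff_left, Finset.sdiff_eq_self_of_disjoint]
      exact (quartet_disjoint hQ ht hv tv).symm
    have h5 : (t ∪ v') \ t = v' := by
      rw [Finset.union_sdiff_left, Finset.sdiff_eq_self_of_disjoint]
      exact (quartet_disjoint hQ' ht' hv' tv').symm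
    rw [← h4, h3, h5]
  have third : ∀ {v w w' : Finset GolayPt}, v ∈ Q → w ∈ Q → v ∈ Q' → w' ∈ Q' → v ≠ w → v ≠ w' → v ∪ w = v ∪ w' → w = w' := by
    intro v w w' hv hw hv' hw' vw vw' h
    have h4 : (v ∪ w) \ v = w := by
      rw [Finset.union_sdiff_left, Finset.sdiff_eq_self_of_disjoint]
      exact (quartet_disjoint hQ hv hw vw).symm
    have h5 : (v ∪ w') \ v = w' := by
      rw [Finset.union_sdiff_left, Finset.sdiff_eq_self_of_disjoint]
      exact (quartet_disjoint hQ' hv' hw' vw').symm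
    rw [← h4, h, h5]
  have hsum : (v ∩ v').card + (v ∩ w').card = 3 := by
    rw [← (hQ.2.1 v hv).1, ← Finset.card_union_of_disjoint, ← Finset.inter_union_distrib_left, h', ← h]
    · congr 1
      rw [Finset.inter_eq_left]
      exact Finset.subset_union_left
    · exact Finset.disjoint_of_subset_left Finset.inter_subset_right
        (Finset.disjoint_of_subset_right Finset.inter_subset_right (quartet_disjoint hQ' hv' hw' vw'))
  rcases (by omega : 2 ≤ (v ∩ v').card ∨ 2 ≤ (v ∩ w').card) with h2 | h2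
  · have h3 := key (w := w) (w' := w') hv hv' tv tv' h2
    subst h3
    have h4 := third hv hw hv' hw' vw vw' (h.trans h'.symm)
    rw [e, e', h4]
  · have h3 := key (w := w) (w' := w') hv hw' tv tw' h2
    subst h3
    have h4 := third hv hw hw' hv' vw vw'.symm (h.trans (h'.symm.trans (Finset.union_comm _ _)))
    rw [e, e', h4, Finset.pair_comm v' v]

theorem smul_hexadsOn {d h : Finset GolayPt} {g : Equiv.Perm GolayPt} (hg : g ∈ M24) (hh : h ∈ hexadsOn d) :
    g • h ∈ hexadsOn (g • d) := by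
  obtain ⟨h6, o, ho, rfl⟩ := hh
  refine ⟨by rw [Finset.card_smul_finset]; exact h6, g • o, (smul_mem_octads hg).2 ho, ?_⟩
  rw [← Finset.smul_finset_inter]

theorem smul_quartets {d : Finset GolayPt} {Q : Finset (Finset GolayPt)} {g : Equiv.Perm GolayPt} (hg : g ∈ M24)
    (hQ : Q ∈ quartets d) : g • Q ∈ quartets (g • d) := by
  refine ⟨by rw [Finset.card_smul_finset]; exact hQ.1, ?_, ?_⟩
  · intro t ht
    rw [Finset.mem_smul_finset] at ht
    obtain ⟨s, hs, rfl⟩ := ht
    exact ⟨by rw [Finset.card_smul_finset]; exact (hQ.2.1 s hs).1,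
      Finset.smul_finset_subset_smul_finset (hQ.2.1 s hs).2⟩
  · intro t ht u hu htu
    rw [Finset.mem_smul_finset] at ht hu
    obtain ⟨s, hs, rfl⟩ := ht
    obtain ⟨r, hr, rfl⟩ := hu
    rw [← Finset.smul_finset_union]
    exact smul_hexadsOn hg (hQ.2.2 s hs r hr (fun h => htu (by rw [h])))

/-- Transitivity on disjoint triples uniting to a hexad. -/
theorem triple_pair_trans {d d' t u t' u' : Finset GolayPt} (hd : d ∈ dodecads) (hd' : d' ∈ dodecads)
    (ht : t.card = 3) (hu : u.card = 3) (htu : Disjoint t u) (hh : t ∪ u ∈ hexadsOn d)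
    (ht' : t'.card = 3) (hu' : u'.card = 3) (htu' : Disjoint t' u') (hh' : t' ∪ u' ∈ hexadsOn d') :
    ∃ g ∈ M24, g • d = d' ∧ g • t = t' ∧ g • u = u' := by
  obtain ⟨ρ, hρ, hρd⟩ := M24_dodecad_transitive hd hd'
  obtain ⟨-, o, ho, hod⟩ := hh
  obtain ⟨-, o', ho', hod'⟩ := hh'
  have key : ∀ {t u d : Finset GolayPt}, t.card = 3 → u.card = 3 → Disjoint t u → t ∪ u ⊆ d →
      ∃ x : Fin 5 → GolayPt, Function.Injective x ∧ (∀ i, x i ∈ t ∪ u) ∧ x 0 ∈ t ∧ x 1 ∈ t ∧ x 2 ∈ t ∧
        (∀ p ∈ t, p = x 0 ∨ p = x 1 ∨ p = x 2) := by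
    intro t u d ht hu htu hsub
    obtain ⟨a, b, c, hab, hac, hbc, rfl⟩ := Finset.card_eq_three.1 ht
    obtain ⟨y, hy, hy2⟩ := exists_fam (s := u) (k := 2) (by omega)
    have hn : ∀ i, y i ≠ a ∧ y i ≠ b ∧ y i ≠ c := by
      intro i
      have := Finset.disjoint_right.1 htu (hy i)
      rw [Finset.mem_insert, Finset.mem_insert, Finset.mem_singleton] at this
      push Not at this
      exact this
    have hne : y 0 ≠ y 1 := fun h => absurd (hy2 h) (by decide)
    refine ⟨![a, b, c, y 0, y 1], ?_, ?_, ?_, ?_, ?_, ?_⟩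
    · have h0 := hn 0
      have h1 := hn 1
      intro i j h
      fin_cases i <;> fin_cases j <;> simp_all
    · intro i
      fin_cases i
      · simp
      · simp
      · simp
      · exact Finset.mem_union_right _ (hy 0)
      · exact Finset.mem_union_right _ (hy 1)
    · simp
    · simp
    · simp
    · intro p hp
      rw [Finset.mem_insert, Finset.mem_insert, Finset.mem_singleton] at hp
      exact hp
  have hs1 : t ∪ u ⊆ d := by rw [← hod]; exact Finset.inter_subset_right
  have hs2 : t' ∪ u' ⊆ d' := by rw [← hod']; exact Finset.inter_subset_right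
  obtain ⟨x, hx, x1, x2, x3, x4, x5⟩ := key ht hu htu hs1
  obtain ⟨y, hy, y1, y2, y3, y4, y5⟩ := key ht' hu' htu' hs2
  let r : M24 := ⟨ρ, hρ⟩
  have hr : r • d = d' := hρd
  obtain ⟨s, hs, hsx⟩ := M12_map hd' (fun i => r • x i) y (fun i => by
      rw [← hr]; exact Finset.smul_mem_smul_finset (hs1 (x1 i))) (fun i => hs2 (y1 i))
    (fun i j h => hx (smul_left_cancel r h)) hy
  let g : M24 := s * r
  have hgd : g • d = d' := by
    change (s * r) • d = d'
    rw [mul_smul, hr]; exact hs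
  have hgx : ∀ i, g • x i = y i := fun i => by
    change (s * r) • x i = y i
    rw [mul_smul]; exact hsx i
  have hgo : g • o = o' := by
    have h2 : (Finset.univ.image y).card = 5 := by
      rw [Finset.card_image_of_injective _ hy]; rfl
    apply octad_eq_of_subset (show g • o ∈ octads from (smul_mem_octads g.2).2 ho) ho' (s := Finset.univ.image y)
    · intro q hq
      rw [Finset.mem_image] at hq
      obtain ⟨i, -, rfl⟩ := hq
      rw [← hgx i]
      apply Finset.smul_mem_smul_finset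
      have := x1 i
      rw [← hod] at this
      exact (Finset.mem_inter.1 this).1
    · intro q hq
      rw [Finset.mem_image] at hq
      obtain ⟨i, -, rfl⟩ := hq
      have := y1 i
      rw [← hod'] at this
      exact (Finset.mem_inter.1 this).1
    · rw [h2]
  have hgtu : g • (t ∪ u) = t' ∪ u' := by
    rw [← hod, Finset.smul_finset_inter, hgo, hgd, hod']
  have hgt : g • t = t' := by
    apply Finset.eq_of_subset_of_card_le
    · intro p hp
      rw [Finset.mem_smul_finset] at hp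
      obtain ⟨q, hq, rfl⟩ := hp
      rcases x5 q hq with rfl | rfl | rfl
      · rw [hgx]; exact y2
      · rw [hgx]; exact y3
      · rw [hgx]; exact y4
    · rw [Finset.card_smul_finset, ht, ht']
  refine ⟨g, g.2, hgd, hgt, ?_⟩
  have e1 : u = (t ∪ u) \ t := by
    rw [Finset.union_sdiff_left, Finset.sdiff_eq_self_of_disjoint htu.symm]
  have e2 : u' = (t' ∪ u') \ t' := by
    rw [Finset.union_sdiff_left, Finset.sdiff_eq_self_of_disjoint htu'.symm]
  change g • u = u'
  rw [e1, e2, Finset.smul_finset_sdiff, hgtu, hgt]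

/-- Transitivity on quartets. -/
theorem quartet_trans {d d' : Finset GolayPt} (hd : d ∈ dodecads) (hd' : d' ∈ dodecads)
    {Q Q' : Finset (Finset GolayPt)} (hQ : Q ∈ quartets d) (hQ' : Q' ∈ quartets d') :
    ∃ g ∈ M24, g • d = d' ∧ g • Q = Q' := by
  obtain ⟨t, u, ht, hu, htu⟩ := Finset.one_lt_card_iff.1 (show 1 < Q.card by rw [hQ.1]; norm_num)
  obtain ⟨t', u', ht', hu', htu'⟩ := Finset.one_lt_card_iff.1 (show 1 < Q'.card by rw [hQ'.1]; norm_num)
  obtain ⟨g, hg, h1, h2, h3⟩ := triple_pair_trans hd hd' (hQ.2.1 t ht).1 (hQ.2.1 u hu).1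
    (quartet_disjoint hQ ht hu htu) (hQ.2.2 t ht u hu htu) (hQ'.2.1 t' ht').1 (hQ'.2.1 u' hu').1
    (quartet_disjoint hQ' ht' hu' htu') (hQ'.2.2 t' ht' u' hu' htu')
  refine ⟨g, hg, h1, ?_⟩
  have h4 := smul_quartets hg hQ
  rw [h1] at h4
  apply quartet_unique hd' h4 hQ' (t := t') (u := u') _ _ htu' ht' hu'
  · rw [← h2]; exact Finset.smul_mem_smul_finset ht
  · rw [← h3]; exact Finset.smul_mem_smul_finset hu

end Cfsg.Agent.M24X
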