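import Cfsg.Agent.M24X.TrioTrio
import Cfsg.Agent.M24X.Fix

/-!
# The fifteen trios through an octad (owner: helper92)
-/

set_option autoImplicit false

namespace Cfsg.Agent.M24X

open Cfsg MulAction Cfsg.Agent.Golay Cfsg.Agent.Golay.Orb
open scoped Pointwise

theorem mem_O₀_decT {k : ℕ} (hk : k < 3795) : O₀ ∈ decT k ↔ memTrio (trioA k) (trioB k) 8536111 = true :=
  mem_decT_iff hk (by norm_num)

theorem ncard_base : {T | T ∈ trios ∧ O₀ ∈ T}.ncard = 15 :=
  ncard_trios_count (fun k => memTrio (trioA k) (trioB k) 8536111) (fun _ hk => mem_O₀_decT hk)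
    (by decide +kernel)

theorem O₀_mem_kT : O₀ ∈ decT kT := (mem_O₀_decT (by norm_num)).2 (by decide +kernel)

theorem ty_two : allLT (fun i => match memTrio (trioA i) (trioB i) 8536111 with
    | true => (match Nat.beq i kT with | true => true | false => Nat.beq (tTy (entT certTT i)) 2)
    | false => true) 3795 = true := by decide +kernel

theorem E16_trios : allLT (fun k => match memTrio (trioA k) (trioB k) 8536111 with
    | true => allB e16 (fun n => mapsT n k k)
    | false => true) 3795 = true := by decide +kernel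

/-- two trios with two common octads are equal -/
theorem trio_inter {T T' : Finset (Finset GolayPt)} (hT : T ∈ trios) (hT' : T' ∈ trios) (hne : T ≠ T')
    {a b : Finset GolayPt} (ha : a ∈ T) (hb : b ∈ T) (ha' : a ∈ T') (hb' : b ∈ T') : a = b := by
  by_contra hab
  exact hne ((trio_eq hT ha hb hab).trans (trio_eq hT' ha' hb' hab).symm)

theorem base_two {T : Finset (Finset GolayPt)} (hT : T ∈ trios) (ho : O₀ ∈ T) (hne : T ≠ decT kT) :
    ∃ g ∈ M24, g • decT kT = decT kT ∧ g • T = decT (nthD basesTT 2) := by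
  obtain ⟨k, hk, rfl⟩ := trio_exists_idx hT
  have hsound := certT_sound (H := stabT) inf_le_left gensT_inSub certTT_ok k hk
  have h1 := allLT_iff.1 ty_two k hk
  rw [(mem_O₀_decT hk).1 ho] at h1
  have h2 : Nat.beq k kT = false := by
    cases h3 : Nat.beq k kT with
    | false => rfl
    | true => exact absurd (congrArg decT (Nat.eq_of_beq_eq_true h3)) hne
  simp only [h2] at h1
  have h3 := Nat.eq_of_beq_eq_true h1
  obtain ⟨-, g, hg, h4⟩ := hsound
  rw [h3] at h4
  exact ⟨g, hg.1, hg.2, h4⟩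

theorem base_pair {T T' : Finset (Finset GolayPt)} (hT : T ∈ trios) (ho : O₀ ∈ T) (hne : T ≠ decT kT)
    (hT' : T' ∈ trios) (ho' : O₀ ∈ T') (hne' : T' ≠ decT kT) :
    ∃ g ∈ M24, g • O₀ = O₀ ∧ g • decT kT = decT kT ∧ g • T = T' := by
  obtain ⟨a, ha, h1, h2⟩ := base_two hT ho hne
  obtain ⟨b, hb, h3, h4⟩ := base_two hT' ho' hne'
  have h5 : (b⁻¹ * a) • decT kT = decT kT := by
    rw [mul_smul, h1, inv_smul_eq_iff, h3]
  have h6 : (b⁻¹ * a) • T = T' := by
    rw [mul_smul, h2, ← h4, inv_smul_smul]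
  refine ⟨b⁻¹ * a, M24.mul_mem (M24.inv_mem hb) ha, ?_, h5, h6⟩
  apply trio_inter (decT_mem (k := kT) (by norm_num)) hT' hne'.symm
  · have h7 : (b⁻¹ * a) • O₀ ∈ (b⁻¹ * a) • decT kT := Finset.smul_mem_smul_finset O₀_mem_kT
    rwa [h5] at h7
  · exact O₀_mem_kT
  · rw [← h6]; exact Finset.smul_mem_smul_finset ho
  · exact ho'

theorem to_base {o : Finset GolayPt} {T : Finset (Finset GolayPt)} (hT : T ∈ trios) (ho : o ∈ T) :
    ∃ g ∈ M24, g • o = O₀ ∧ g • T = decT kT := by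
  have key : ∀ {T : Finset (Finset GolayPt)}, T ∈ trios → ∀ {o}, o ∈ T → ∃ a ∈ T, o ≠ a := by
    intro T hT o ho
    have h1 : (T.erase o).Nonempty := by
      rw [← Finset.card_pos, Finset.card_erase_of_mem ho, hT.1]; norm_num
    obtain ⟨a, ha⟩ := h1
    rw [Finset.mem_erase] at ha
    exact ⟨a, ha.2, ha.1.symm⟩
  obtain ⟨a, ha, hne⟩ := key hT ho
  have hk : decT kT ∈ trios := decT_mem (by norm_num)
  obtain ⟨b, hb, hne'⟩ := key hk O₀_mem_kT
  have d1 := hT.2.2 _ ho _ ha hne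
  have d2 := hk.2.2 _ O₀_mem_kT _ hb hne'
  obtain ⟨g, hg, h1, h2⟩ := oct_pair_trans (hT.2.1 _ ho) (hT.2.1 _ ha) (hk.2.1 _ O₀_mem_kT) (hk.2.1 _ hb)
    (by rw [Finset.disjoint_iff_inter_eq_empty.1 d1, Finset.disjoint_iff_inter_eq_empty.1 d2])
  refine ⟨g, hg, h1, ?_⟩
  have h3 : O₀ ∈ g • T := by rw [← h1]; exact Finset.smul_mem_smul_finset ho
  have h4 : b ∈ g • T := by rw [← h2]; exact Finset.smul_mem_smul_finset ha
  rw [trio_eq (smul_mem_trios hg hT) h3 h4 hne', ← trio_eq hk O₀_mem_kT hb hne']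

theorem two_trans {o : Finset GolayPt} {T₁ T₂ T₁' T₂' : Finset (Finset GolayPt)} (h₁ : T₁ ∈ trios) (h₂ : T₂ ∈ trios)
    (h₁' : T₁' ∈ trios) (h₂' : T₂' ∈ trios) (o₁ : o ∈ T₁) (o₂ : o ∈ T₂) (o₁' : o ∈ T₁') (o₂' : o ∈ T₂')
    (hne : T₁ ≠ T₂) (hne' : T₁' ≠ T₂') : ∃ g ∈ M24, g • o = o ∧ g • T₁ = T₁' ∧ g • T₂ = T₂' := by
  obtain ⟨a, ha, a1, a2⟩ := to_base h₁ o₁
  obtain ⟨b, hb, b1, b2⟩ := to_base h₁' o₁'
  obtain ⟨g, hg, g0, g1, g2⟩ := base_pair (T := a • T₂) (T' := b • T₂') (smul_mem_trios ha h₂)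
    (by rw [← a1]; exact Finset.smul_mem_smul_finset o₂)
    (by rw [← a2]; exact fun h => hne (smul_left_cancel a h).symm) (smul_mem_trios hb h₂')
    (by rw [← b1]; exact Finset.smul_mem_smul_finset o₂')
    (by rw [← b2]; exact fun h => hne' (smul_left_cancel b h).symm)
  refine ⟨b⁻¹ * g * a, M24.mul_mem (M24.mul_mem (M24.inv_mem hb) hg) ha, ?_, ?_, ?_⟩
  · rw [mul_smul, mul_smul, a1, g0, inv_smul_eq_iff, b1]
  · rw [mul_smul, mul_smul, a2, g1, inv_smul_eq_iff, b2]
  · rw [mul_smul, mul_smul, g2, inv_smul_smul]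

theorem ncard_trios_through {o : Finset GolayPt} (ho : o ∈ octads) :
    {T | T ∈ trios ∧ o ∈ T}.ncard = 15 := by
  obtain ⟨g, hg, h⟩ := M24_octad_transitive ho O₀_mem
  rw [← ncard_base]
  apply Set.ncard_congr (fun T _ => g • T)
  · rintro T ⟨h1, h2⟩
    exact ⟨smul_mem_trios hg h1, by rw [← h]; exact Finset.smul_mem_smul_finset h2⟩
  · intro T T' _ _ h'
    exact smul_left_cancel g h'
  · rintro T ⟨h1, h2⟩
    refine ⟨g⁻¹ • T, ⟨smul_mem_trios (M24.inv_mem hg) h1, ?_⟩, smul_inv_smul _ _⟩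
    rw [← Finset.smul_mem_smul_finset_iff g, smul_inv_smul, h]
    exact h2

/-- Elements fixing an octad pointwise fix the trios through it. -/
theorem fix_trios {o : Finset GolayPt} (ho : o ∈ octads) {σ : Equiv.Perm GolayPt} (hσ : σ ∈ M24)
    (h : ∀ p ∈ o, σ p = p) {T : Finset (Finset GolayPt)} (hT : T ∈ trios) (hoT : o ∈ T) : σ • T = T := by
  obtain ⟨g, hg, hgo⟩ := M24_octad_transitive ho O₀_mem
  have h5 : g * σ * g⁻¹ ∈ KIn := by
    apply mem_KIn_of_fix (M24.mul_mem (M24.mul_mem hg hσ) (M24.inv_mem hg))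
    intro p hp
    rw [← hgo, Finset.mem_smul_finset] at hp
    obtain ⟨q, hq, rfl⟩ := hp
    rw [Equiv.Perm.mul_apply, Equiv.Perm.mul_apply]
    have : g⁻¹ (g • q) = q := by
      rw [Equiv.Perm.inv_eq_iff_eq]; rfl
    rw [this, h q hq]; rfl
  obtain ⟨n, hn, hTb⟩ := KIn_exhaust _ h5
  have hgT : O₀ ∈ g • T := by rw [← hgo]; exact Finset.smul_mem_smul_finset hoT
  obtain ⟨k, hk, hk'⟩ := trio_exists_idx (smul_mem_trios hg hT)
  rw [hk'] at hgT
  have h6 := allLT_iff.1 E16_trios k hk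
  rw [(mem_O₀_decT hk).1 hgT] at h6
  have h7 := smul_decT_of_maps (mem_KIn.1 h5).1 hTb hk hk (allB_iff.1 h6 n hn)
  rw [← hk', mul_smul, mul_smul, inv_smul_smul] at h7
  exact smul_left_cancel g h7

/-- Elements of the octad stabiliser fixing the trios through the octad. -/
def trioKer (o : Finset GolayPt) : Subgroup (SM o) where
  carrier := {g | ∀ T ∈ trios, o ∈ T → (g : Equiv.Perm GolayPt) • T = T}
  one_mem' := fun T _ _ => one_smul _ T
  mul_mem' := by
    intro a b ha hb T hT hoT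
    change ((a : Equiv.Perm GolayPt) * b) • T = T
    rw [mul_smul, hb T hT hoT, ha T hT hoT]
  inv_mem' := by
    intro a ha T hT hoT
    change (a : Equiv.Perm GolayPt)⁻¹ • T = T
    rw [inv_smul_eq_iff, ha T hT hoT]

theorem trioKer_normal (o : Finset GolayPt) : (trioKer o).Normal := by
  constructor
  intro n hn g T hT hoT
  change ((g : Equiv.Perm GolayPt) * n * (g : Equiv.Perm GolayPt)⁻¹) • T = T
  have h1 : (g : Equiv.Perm GolayPt)⁻¹ • T ∈ trios := smul_mem_trios (M24.inv_mem g.2.1) hT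
  have h2 : o ∈ (g : Equiv.Perm GolayPt)⁻¹ • T := by
    rw [← Finset.smul_mem_smul_finset_iff (g : Equiv.Perm GolayPt), smul_inv_smul,
      (g.2.2 : (g : Equiv.Perm GolayPt) • o = o)]
    exact hoT
  rw [mul_smul, mul_smul, hn _ h1 h2, smul_inv_smul]

/-- The octad stabiliser mapping onto the alternating group. -/
def resAlt {o : Finset GolayPt} (ho : o ∈ octads) : SM o →* alternatingGroup ↥o :=
  (resHom o).codRestrict (alternatingGroup ↥o) (fun x => by rw [← range_octad ho]; exact ⟨x, rfl⟩)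

theorem resAlt_surj {o : Finset GolayPt} (ho : o ∈ octads) : Function.Surjective (resAlt ho) := by
  rintro ⟨y, hy⟩
  rw [← range_octad ho] at hy
  obtain ⟨x, hx⟩ := hy
  exact ⟨x, Subtype.ext hx⟩

theorem trioKer_fix {o : Finset GolayPt} (ho : o ∈ octads) {g : SM o} (hg : g ∈ trioKer o) :
    ∀ p ∈ o, (g : Equiv.Perm GolayPt) p = p := by
  have hs : IsSimpleGroup (alternatingGroup ↥o) := alternatingGroup.isSimpleGroup (by
    rw [Nat.card_eq_fintype_card, Fintype.card_coe, card_octad ho]; norm_num)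
  have hn : ((trioKer o).map (resAlt ho)).Normal := (trioKer_normal o).map _ (resAlt_surj ho)
  rcases hn.eq_bot_or_eq_top with h | h
  · have h1 : resAlt ho g ∈ (trioKer o).map (resAlt ho) := ⟨g, hg, rfl⟩
    rw [h, Subgroup.mem_bot] at h1
    rw [← mem_ker_resHom, MonoidHom.mem_ker]
    exact congrArg Subtype.val h1
  · exfalso
    -- the whole octad stabiliser fixes the trios
    have hall : ∀ x : SM o, x ∈ trioKer o := by
      intro x
      have h1 : resAlt ho x ∈ (trioKer o).map (resAlt ho) := by rw [h]; trivial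
      obtain ⟨y, hy, hyx⟩ := h1
      have h2 : resHom o (y⁻¹ * x) = 1 := by
        rw [map_mul, map_inv, inv_mul_eq_one]
        exact congrArg Subtype.val hyx
      have h3 : y⁻¹ * x ∈ trioKer o := by
        have h4 := mem_ker_resHom.1 (MonoidHom.mem_ker.2 h2)
        intro T hT hoT
        exact fix_trios ho (y⁻¹ * x).2.1 h4 hT hoT
      have h5 : x = y * (y⁻¹ * x) := by group
      rw [h5]
      exact (trioKer o).mul_mem hy h3
    have h15 := ncard_trios_through ho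
    have h2 : 1 < {T | T ∈ trios ∧ o ∈ T}.ncard := by rw [h15]; norm_num
    obtain ⟨T, T', hT, hT', hne⟩ := (Set.one_lt_ncard_iff (Set.toFinite _)).1 h2
    obtain ⟨g, hg, g0, g1, -⟩ := two_trans hT.1 hT'.1 hT'.1 hT.1 hT.2 hT'.2 hT'.2 hT.2 hne hne.symm
    have := hall ⟨g, hg, g0⟩ T hT.1 hT.2
    exact hne (this.symm.trans g1)

end Cfsg.Agent.M24X
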