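import Cfsg.Agent.M24X.Cocode
import Cfsg.Agent.M24X.TrioTrio

/-!
# Structure of trio stabilisers (owner: helper92)
-/

set_option autoImplicit false

namespace Cfsg.Agent.M24X

open Cfsg MulAction Cfsg.Agent.Golay Cfsg.Agent.Golay.Orb Cfsg.Agent.Golay.Coset
open scoped Pointwise

/-- the base trio -/
abbrev T₀ : Finset (Finset GolayPt) := decT kT

def trL : List ℕ := [8536111, 628112, 7612992]

theorem trL_lt : ∀ m ∈ trL, m < 2 ^ 24 := by decide +kernel

theorem T₀_eq : T₀ = (trL.map ofMask).toFinset := by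
  rw [T₀, decT_lst]
  have : lstT kT = trL := by decide +kernel
  rw [this]

theorem mem_T₀ {s : Finset GolayPt} : s ∈ T₀ ↔ ∃ m ∈ trL, ofMask m = s := by
  rw [T₀_eq, List.mem_toFinset, List.mem_map]

def tM : Fin 3 → ℕ := ![15, 147468, 131109]
def cM : Fin 3 → ℕ := ![5279, 180636, 201013]

/-- basis classes -/
def qv (i : Fin 3) : Q12 := cls (ofMask (tM i))

def combM (v : Fin 3 → ZMod 2) : ℕ :=
  ((if v 0 = 0 then 0 else tM 0) ^^^ (if v 1 = 0 then 0 else tM 1)) ^^^ (if v 2 = 0 then 0 else tM 2)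

theorem cls_zero : cls (ofMask 0) = 0 := by
  rw [cls_eq_zero, ofMask_mem_codeSets (by norm_num)]; decide

theorem sum_qv (v : Fin 3 → ZMod 2) : ∑ i, v i • qv i = cls (ofMask (combM v)) := by
  have key : ∀ i, v i • qv i = cls (ofMask (if v i = 0 then 0 else tM i)) := by
    intro i
    by_cases h : v i = 0
    · rw [if_pos h, h, zero_smul, cls_zero]
    · rw [if_neg h, zmod2_ne_zero h, one_smul]; rfl
  rw [Fin.sum_univ_three, key, key, key]
  unfold combM
  rw [cls_ofMask_xor, cls_ofMask_xor]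

theorem combM_lt (v : Fin 3 → ZMod 2) : combM v < 2 ^ 24 := by
  revert v; decide +kernel

theorem qv_indep : LinearIndependent (ZMod 2) qv := by
  rw [Fintype.linearIndependent_iff]
  intro v hv
  rw [sum_qv, cls_eq_zero, ofMask_mem_codeSets (combM_lt v)] at hv
  have key : ∀ v : Fin 3 → ZMod 2, inCode (combM v) = true → ∀ i, v i = 0 := by decide +kernel
  exact key v hv

/-- the 3-dimensional submodule -/
def W₀ : Submodule (ZMod 2) Q12 := Submodule.span (ZMod 2) (Set.range qv)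

theorem comb_mem (v : Fin 3 → ZMod 2) : cls (ofMask (combM v)) ∈ W₀ := by
  rw [← sum_qv]
  exact Submodule.sum_mem _ fun i _ => Submodule.smul_mem _ _ (Submodule.subset_span ⟨i, rfl⟩)

noncomputable def bW : Module.Basis (Fin 3) (ZMod 2) W₀ := Module.Basis.span qv_indep

theorem bW_apply (i : Fin 3) : ((bW i : W₀) : Q12) = qv i :=
  congrArg Subtype.val (Module.Basis.span_apply qv_indep i)

theorem combs_check : allB octadList (fun m => allB trL (fun a => allB trL (fun b =>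
    match Nat.beq (Nat.land m b) 0 with
    | true => (match Nat.beq (pop (Nat.land m a)) 4 with
      | true => decide (∃ v : Fin 3 → ZMod 2, inCode (Nat.land m a ^^^ combM v) = true)
      | false => true)
    | false => true))) = true := by decide +kernel

theorem cM_oct : ∀ i, inCode (cM i) = true ∧ pop (cM i) = 8 ∧ cM i &&& 8536111 = tM i ∧ cM i &&& 7612992 = 0 ∧
    cM i < 2 ^ 24 ∧ tM i < 2 ^ 24 ∧ pop (tM i) = 4 := by
  decide +kernel

theorem W₀_inv (g : stabilizer M24 T₀) : ∀ x ∈ W₀, qact g x ∈ W₀ := by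
  suffices h : ∀ j, qact (g : M24) (qv j) ∈ W₀ by
    intro x hx
    have h1 : W₀ ≤ W₀.comap (qact (g : M24)) := by
      unfold W₀
      rw [Submodule.span_le]
      rintro _ ⟨j, rfl⟩
      exact h j
    exact h1 hx
  intro j
  obtain ⟨h1, h2, h3, h4, h5, h6, h7⟩ := cM_oct j
  have hoct : ofMask (cM j) ∈ octads := by
    rw [mem_octads_iff, maskOf_ofMask h5]; exact ⟨h1, h2⟩
  have hg : (g : M24) • T₀ = T₀ := g.2
  have hgoct : ((g : M24) : Equiv.Perm GolayPt) • ofMask (cM j) ∈ octads := (smul_mem_octads (g : M24).2).2 hoct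
  have e1 : ofMask (tM j) = ofMask (cM j) ∩ ofMask 8536111 := by rw [← ofMask_and, h3]
  have e2 : ofMask (cM j) ∩ ofMask 7612992 = ∅ := by
    rw [← ofMask_and, h4]; rfl
  have a1 : ((g : M24) : Equiv.Perm GolayPt) • ofMask 8536111 ∈ T₀ := by
    have := Finset.smul_mem_smul_finset (a := (g : M24)) (mem_T₀.2 ⟨8536111, by decide, rfl⟩)
    rwa [hg] at this
  have a2 : ((g : M24) : Equiv.Perm GolayPt) • ofMask 7612992 ∈ T₀ := by
    have := Finset.smul_mem_smul_finset (a := (g : M24)) (mem_T₀.2 ⟨7612992, by decide, rfl⟩)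
    rwa [hg] at this
  obtain ⟨a, ha, ha'⟩ := mem_T₀.1 a1
  obtain ⟨b, hb, hb'⟩ := mem_T₀.1 a2
  unfold qv
  rw [qact_cls]
  change cls (((g : M24) : Equiv.Perm GolayPt) • ofMask (tM j)) ∈ W₀
  rw [e1, Finset.smul_finset_inter, ← ha']
  have e3 : (((g : M24) : Equiv.Perm GolayPt) • ofMask (cM j)) ∩ ofMask b = ∅ := by
    rw [hb', ← Finset.smul_finset_inter, e2]; rfl
  have e4 : ((((g : M24) : Equiv.Perm GolayPt) • ofMask (cM j)) ∩ ofMask a).card = 4 := by
    rw [ha', ← Finset.smul_finset_inter, ← e1, Finset.card_smul_finset, card_eq_pop, maskOf_ofMask h6, h7]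
  generalize ((g : M24) : Equiv.Perm GolayPt) • ofMask (cM j) = c at hgoct e3 e4
  have hm : maskOf c ∈ octadList := mem_octadList_iff.2 (mem_octads_iff.1 hgoct)
  have h8 := allB_iff.1 (allB_iff.1 (allB_iff.1 combs_check _ hm) a ha) b hb
  have e5 : Nat.land (maskOf c) b = 0 := by
    change maskOf c &&& b = 0
    rw [← maskOf_ofMask (trL_lt b hb), ← maskOf_inter, e3]; decide
  have e6 : pop (Nat.land (maskOf c) a) = 4 := by
    change pop (maskOf c &&& a) = 4
    rw [← maskOf_ofMask (trL_lt a ha), ← maskOf_inter, ← card_eq_pop]; exact e4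
  rw [e5, e6] at h8
  have h9 : ∃ v : Fin 3 → ZMod 2, inCode (Nat.land (maskOf c) a ^^^ combM v) = true := of_decide_eq_true h8
  obtain ⟨v, hv⟩ := h9
  have e7 : cls (c ∩ ofMask a) = cls (ofMask (combM v)) := by
    rw [← cls_ofMask_eq hv]
    congr 1
    change c ∩ ofMask a = ofMask (maskOf c &&& a)
    rw [ofMask_and, ofMask_maskOf]
  rw [e7]
  exact comb_mem v

/-- The action on the submodule. -/
noncomputable def wact : stabilizer M24 T₀ →* Module.End (ZMod 2) W₀ where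
  toFun g := (qact (g : M24)).restrict (W₀_inv g)
  map_one' := by
    ext x
    change qact 1 (x : Q12) = x
    rw [map_one]; rfl
  map_mul' g h := by
    ext x
    change qact ((g : M24) * h) (x : Q12) = qact (g : M24) (qact (h : M24) x)
    rw [map_mul]; rfl

/-- The homomorphism to `GL₃(2)`. -/
noncomputable def fGL : stabilizer M24 T₀ →* GL (Fin 3) (ZMod 2) :=
  (Units.map ((LinearMap.toMatrixAlgEquiv bW).toRingEquiv.toRingHom : Module.End (ZMod 2) W₀ →* Matrix (Fin 3) (Fin 3) (ZMod 2))).comp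
    wact.toHomUnits

theorem fGL_eq {g : stabilizer M24 T₀} {M : Matrix (Fin 3) (Fin 3) (ZMod 2)}
    (h : ∀ j, qact (g : M24) (qv j) = ∑ i, M i j • qv i) : ((fGL g : GL (Fin 3) (ZMod 2)) : Matrix (Fin 3) (Fin 3) (ZMod 2)) = M := by
  ext i j
  change LinearMap.toMatrixAlgEquiv bW (wact g) i j = M i j
  rw [LinearMap.toMatrixAlgEquiv_apply]
  have h1 : wact g (bW j) = ∑ i, M i j • bW i := by
    apply Subtype.ext
    change qact (g : M24) ((bW j : W₀) : Q12) = _
    rw [bW_apply, h, Submodule.coe_sum]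
    refine Finset.sum_congr rfl fun i _ => ?_
    rw [Submodule.coe_smul, bW_apply]
  rw [h1, map_sum, Finset.sum_apply']
  simp only [map_smul, Module.Basis.repr_self, Finsupp.smul_apply, Finsupp.single_apply, smul_eq_mul, mul_ite,
    mul_one, mul_zero, Finset.sum_ite_eq', Finset.mem_univ, if_true]

theorem exists_of_tab {n : ℕ} (hv : validM24 n = true) (hT : ∀ m ∈ trL, pmask n m ∈ trL)
    {M : Matrix (Fin 3) (Fin 3) (ZMod 2)} (hM : ∀ k, inCode (pmask n (tM k) ^^^ combM (fun a => M a k)) = true) :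
    ∃ g : stabilizer M24 T₀, IsTable n ((g : M24) : Equiv.Perm GolayPt) ∧
      ((fGL g : GL (Fin 3) (ZMod 2)) : Matrix (Fin 3) (Fin 3) (ZMod 2)) = M ∧
      ∀ m ∈ trL, (g : M24) • (ofMask m : Finset GolayPt) = ofMask (pmask n m) := by
  obtain ⟨σ, hσ, hTb⟩ := exists_mem_M24 hv
  have h1 : ∀ m ∈ trL, (⟨σ, hσ⟩ : M24) • (ofMask m : Finset GolayPt) = ofMask (pmask n m) := fun m hm =>
    smul_ofMask hTb (trL_lt m hm)
  have h2 : (⟨σ, hσ⟩ : M24) • T₀ = T₀ := by
    apply Finset.eq_of_subset_of_card_le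
    · intro x hx
      rw [Finset.mem_smul_finset] at hx
      obtain ⟨c, hc, rfl⟩ := hx
      obtain ⟨m, hm, rfl⟩ := mem_T₀.1 hc
      rw [h1 m hm]
      exact mem_T₀.2 ⟨_, hT m hm, rfl⟩
    · rw [Finset.card_smul_finset]
  refine ⟨⟨⟨σ, hσ⟩, h2⟩, hTb, fGL_eq fun j => ?_, h1⟩
  rw [sum_qv]
  exact qact_cls_mask hTb (cM_oct j).2.2.2.2.2.1 (hM j)

def tvT : List ℕ := [0xbdab49ca307b9ac5a928398a418820, 0x155768183340127a124f6346a8b8b7, 0x1b6cb4240f804c491e935544c2de2e, 0x2d1b68187320aaa4b16744aef8b801, 0xbdab49ca307b9ac5a928398a418820, 0x2a68d3d62463a48b3cca82ef318801, 0x1b6953aca8506c493cd09a62cb81c2, 0x75a953ca2c55db05bcc49a4a808860, 0xbdab49ca307b9ac5a928398a418820]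
def trSw : List ℕ := [0x7dab474a11bcda258d2509900530e4, 0xa8aee9c6507d0ac0282838da43592b, 0x1926f32016486126514ba9c4db95d1]

theorem tv_check : ∀ i j : Fin 3, i ≠ j → validM24 (tvT.getD (3 * i + j) 0) = true ∧
    (∀ m ∈ trL, pmask (tvT.getD (3 * i + j) 0) m = m) ∧
    ∀ k, inCode (pmask (tvT.getD (3 * i + j) 0) (tM k) ^^^ combM (fun a => Matrix.transvection i j 1 a k)) = true := by
  decide +kernel

theorem sw_check : ∀ a ∈ trL, ∀ b ∈ trL, a ≠ b → ∃ n ∈ trSw, validM24 n = true ∧ (∀ m ∈ trL, pmask n m ∈ trL) ∧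
    (∀ k, inCode (pmask n (tM k) ^^^ combM (fun a => (1 : Matrix (Fin 3) (Fin 3) (ZMod 2)) a k)) = true) ∧
    pmask n a = b ∧ pmask n b = a ∧ ∀ c ∈ trL, c ≠ a → c ≠ b → pmask n c = c := by decide +kernel

theorem actOn_one {g : stabilizer M24 T₀} (h : ∀ m ∈ trL, (g : M24) • (ofMask m : Finset GolayPt) = ofMask m) :
    actOn T₀ g = 1 := by
  rw [← MonoidHom.mem_ker, mem_ker_actOn]
  intro t ht
  obtain ⟨m, hm, rfl⟩ := mem_T₀.1 ht
  exact h m hm

theorem surj_GL (A : GL (Fin 3) (ZMod 2)) : ∃ g : stabilizer M24 T₀, fGL g = A ∧ actOn T₀ g = 1 := by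
  have key : ∃ g : stabilizer M24 T₀, ((fGL g : GL (Fin 3) (ZMod 2)) : Matrix (Fin 3) (Fin 3) (ZMod 2)) =
      (A : Matrix (Fin 3) (Fin 3) (ZMod 2)) ∧ actOn T₀ g = 1 := by
    apply Matrix.diagonal_transvection_induction_of_det_ne_zero
      (fun M => ∃ g : stabilizer M24 T₀, ((fGL g : GL (Fin 3) (ZMod 2)) : Matrix (Fin 3) (Fin 3) (ZMod 2)) = M ∧ actOn T₀ g = 1)
    · have := A.isUnit
      rw [Matrix.isUnit_iff_isUnit_det] at this
      exact this.ne_zero
    · intro D hD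
      rw [Matrix.det_diagonal, Finset.prod_ne_zero_iff] at hD
      refine ⟨1, ?_, map_one _⟩
      rw [map_one]
      have : D = fun _ => 1 := funext fun i => zmod2_ne_zero (hD i (Finset.mem_univ _))
      rw [this, Matrix.diagonal_one]; rfl
    · rintro ⟨i, j, hij, c⟩
      change ∃ g : stabilizer M24 T₀, ((fGL g : GL (Fin 3) (ZMod 2)) : Matrix (Fin 3) (Fin 3) (ZMod 2)) =
        Matrix.transvection i j c ∧ actOn T₀ g = 1
      by_cases hc : c = 0
      · refine ⟨1, ?_, map_one _⟩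
        rw [hc, Matrix.transvection_zero, map_one]; rfl
      · rw [zmod2_ne_zero hc]
        obtain ⟨h1, h2, h3⟩ := tv_check i j hij
        obtain ⟨g, hg, h4, h5⟩ := exists_of_tab h1 (fun m hm => by rw [h2 m hm]; exact hm) h3
        exact ⟨g, h4, actOn_one (fun m hm => by rw [h5 m hm, h2 m hm])⟩
    · rintro A B - - ⟨g, h1, h2⟩ ⟨h, h3, h4⟩
      refine ⟨g * h, ?_, by rw [map_mul, h2, h4, mul_one]⟩
      rw [map_mul, Units.val_mul, h1, h3]
  obtain ⟨g, h1, h2⟩ := key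
  exact ⟨g, Units.ext h1, h2⟩

theorem surj_perm (e : Equiv.Perm ↥T₀) : ∃ g : stabilizer M24 T₀, fGL g = 1 ∧ actOn T₀ g = e := by
  let ψ : fGL.ker →* Equiv.Perm ↥T₀ := (actOn T₀).comp fGL.ker.subtype
  suffices h : ψ.range = ⊤ by
    have h1 : e ∈ ψ.range := by rw [h]; trivial
    obtain ⟨g, hg⟩ := h1
    exact ⟨g, g.2, hg⟩
  rw [eq_top_iff, ← Equiv.Perm.closure_isSwap, Subgroup.closure_le]
  rintro _ ⟨⟨a, ha⟩, ⟨b, hb⟩, hab, rfl⟩
  obtain ⟨ma, hma, rfl⟩ := mem_T₀.1 ha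
  obtain ⟨mb, hmb, rfl⟩ := mem_T₀.1 hb
  have hne : ma ≠ mb := by rintro rfl; exact hab rfl
  obtain ⟨n, -, h1, h2, h3, h4, h5, h6⟩ := sw_check ma hma mb hmb hne
  obtain ⟨g, -, h7, h8⟩ := exists_of_tab h1 h2 h3
  refine ⟨⟨g, Units.ext h7⟩, ?_⟩
  apply Equiv.Perm.ext
  rintro ⟨c, hc⟩
  obtain ⟨mc, hmc, rfl⟩ := mem_T₀.1 hc
  apply Subtype.ext
  change (g : M24) • (ofMask mc : Finset GolayPt) = _
  rw [h8 mc hmc]
  by_cases e1 : mc = ma
  · subst e1
    rw [Equiv.swap_apply_left, h4]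
  · by_cases e2 : mc = mb
    · subst e2
      rw [Equiv.swap_apply_right, h5]
    · have inj : ∀ a ∈ trL, ∀ b ∈ trL, (ofMask a : Finset GolayPt) = ofMask b → a = b := by
        intro a ha b hb h
        rw [← maskOf_ofMask (trL_lt a ha), h, maskOf_ofMask (trL_lt b hb)]
      rw [Equiv.swap_apply_of_ne_of_ne, h6 mc hmc e1 e2]
      · intro h; exact e1 (inj _ hmc _ hma (congrArg Subtype.val h))
      · intro h; exact e2 (inj _ hmc _ hmb (congrArg Subtype.val h))

/-- the joint homomorphism -/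
noncomputable def fT : stabilizer M24 T₀ →* GL (Fin 3) (ZMod 2) × Equiv.Perm ↥T₀ := fGL.prod (actOn T₀)

theorem fT_surj : Function.Surjective fT := by
  rintro ⟨A, e⟩
  obtain ⟨g, h1, h2⟩ := surj_GL A
  obtain ⟨h, h3, h4⟩ := surj_perm e
  refine ⟨g * h, ?_⟩
  change (fGL (g * h), actOn T₀ (g * h)) = (A, e)
  rw [map_mul, map_mul, h1, h2, h3, h4, mul_one, one_mul]

theorem card_trio_stab {T : Finset (Finset GolayPt)} (hT : T ∈ trios) : Nat.card (stabilizer M24 T) = 64512 :=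
  card_stab_of_orb isOrb_trios hT ncard_trios (by norm_num) (by norm_num)

theorem T₀_mem : T₀ ∈ trios := decT_mem (by norm_num)

theorem card_fT_ker : Nat.card fT.ker = 64 := by
  have h1 := Subgroup.card_mul_index fT.ker
  rw [Subgroup.index_ker, MonoidHom.range_eq_top.2 fT_surj, Subgroup.card_top, card_trio_stab T₀_mem,
    Nat.card_prod, Matrix.card_GL_field, Nat.card_eq_fintype_card (α := Equiv.Perm ↥T₀), Fintype.card_perm,
    Fintype.card_coe, T₀_mem.1, Fin.prod_univ_three] at h1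
  have h2 : Nat.factorial 3 = 6 := rfl
  have h3 : Fintype.card (ZMod 2) = 2 := ZMod.card 2
  rw [h2, h3] at h1
  have h4 : (2 ^ 3 - 2 ^ ((0 : Fin 3) : ℕ)) * (2 ^ 3 - 2 ^ ((1 : Fin 3) : ℕ)) * (2 ^ 3 - 2 ^ ((2 : Fin 3) : ℕ)) * 6 = 1008 := by
    decide
  generalize Nat.card fT.ker = c at h1 ⊢
  rw [h4] at h1
  omega

def trN : List ℕ := [0x19b25506c38ab04cd647d8288b8b7, 0x264d3d46450a8833ecc9ac308b8b7, 0x2e952346760a4fb20ca824338b8b7, 0x34c942c6f80ac7912936542a8b8b7, 0x4926858734096a6b2af250278b8b7, 0x5176998707892caa9a83c8248b8b7, 0x56cb7a468988c4a1e505342c8b8b7, 0x5ab46486a209b35c1274182f8b8b7, 0x99b26504a20eb34c1674580f746e5, 0xa64d2544760e8f322ca82c13746e5, 0xae953b44450e48b3ccc9a410746e5, 0xb4c97ac4898ec491e905540c746e5, 0xc9269d85078d6c6aaa83d004746e5, 0xd1768185340d2aab1af24807746e5, 0xd6cb4244f80cc7a12536340a746e5, 0xdab45484c38db05cd2479808746e5, 0x119b23d024502a84bd6c9d8702de2e, 0x1264d5542c3829034ec47ac682de2e, 0x12e956342a20253b40c74246f2de2e,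 0x134c982c33402ca9328f254672de2e, 0x149264582f80167692b36506a2de2e, 0x151767982898124a9db05486c2de2e, 0x156cb9a430780cca2a483b4642de2e, 0x15ab424827601af5a12a818732de2e, 0x199b225007606af4a16a85853b95d1, 0x1a64d6540a20693342c742c4fb95d1, 0x1ae955340c38650b4cc47a448b95d1, 0x1b4c99ac10786cc92a883d444b95d1, 0x1c9267d8089856469eb05504cb95d1, 0x1d1764180f80527a91b36484ab95d1, 0x1d6cb82413404caa324f23447b95d1, 0x1dab43c804505a85bd2c99850b95d1, 0x299b29d1d07c6ac4a9683dae410c01, 0x2a64d7d5c89c68431ed052eec10c01, 0x2ae95435cf84647b10d3626ea10c01, 0x2b4c922dc7646cf9228a856f310c01, 0x2c926659ca245736c2a7452ef10c01, 0x2d176519cc3c530acda47cae810c01, 0x2d6cb3a5c4544c8a3e4c9b6f010c01, 0x2dab4849d3445aa5b12f21ae710c01, 0x719b2450af85ea74917365a2a08062, 0x7264d854b345e8a332cf22e2708062, 0x72e959b4b07de4cb28c83a62408062, 0x734c952cac3ded094e847d62808062, 0x749263d8a455d686beac9d23008062, 0x75176218a765d2faa1aa84a3308062, 0x756cb624aa25cd3a42474362f08062,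 0x75ab47c8a89dda459d3051a2c08062, 0x899b27d2e8996a449d70559cc00443, 0x8a64d9d6f07968c32ac83adc400443, 0x8ae95836f34164ab30cf225c700443, 0x8b4c962eea216d394287455cf00443, 0x8c92625ae76156f6a2aa851d300443, 0x8d17639ae451528abdac9c9d000443, 0x8d6cb526ec394d0a4e447b5c800443, 0x8dab444aef815a759133619ca00443, 0xb99b28523343aaa4b16f258a718820, 0xba64d4562f83a87312d362caa18820, 0xbae957b6289ba44b1cd0524ac18820, 0xbb4c93ae2453ac893e8c9d4b018820, 0xbc92655a2c3b9706cea47d0a818820, 0xbd17661a2a23933ac1a7448af18820, 0xbd6cb22627638cfa224a834b318820, 0xbdab49ca307b9ac5a928398a418820]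

theorem trN_ok : tabsOK trN = true := by decide +kernel

theorem trN_sq : ∀ n ∈ trN, pmul n n = idTab := by decide +kernel

theorem trN_check : ∀ n ∈ trN, validM24 n = true ∧ (∀ m ∈ trL, pmask n m = m) ∧
    ∀ k, inCode (pmask n (tM k) ^^^ combM (fun a => (1 : Matrix (Fin 3) (Fin 3) (ZMod 2)) a k)) = true := by
  decide +kernel

theorem fT_ker_sq {x : stabilizer M24 T₀} (hx : x ∈ fT.ker) : x * x = 1 := by
  have hex := exhaust (H := fT.ker.map (M24.subtype.comp (stabilizer M24 T₀).subtype)) (L := trN)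
    (fun n hn => by
      obtain ⟨h1, h2, h3⟩ := trN_check n hn
      obtain ⟨g, hg, h4, h5⟩ := exists_of_tab h1 (fun m hm => by rw [h2 m hm]; exact hm) h3
      refine ⟨_, ⟨g, ?_, rfl⟩, hg⟩
      change fT g = 1
      change (fGL g, actOn T₀ g) = 1
      rw [actOn_one (fun m hm => by rw [h5 m hm, h2 m hm]), (Units.ext h4 : fGL g = 1)]
      rfl) trN_ok (by
      rw [Nat.card_congr (Subgroup.equivMapOfInjective _ (M24.subtype.comp (stabilizer M24 T₀).subtype)
        (M24.subtype_injective.comp (stabilizer M24 T₀).subtype_injective)).symm.toEquiv, card_fT_ker]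
      rfl) _ ⟨x, hx, rfl⟩
  obtain ⟨n, hn, hT⟩ := hex
  have h1 := isTable_pmul hT hT
  rw [trN_sq n hn] at h1
  apply Subtype.ext; apply Subtype.ext
  exact isTable_unique h1 isTable_one

theorem trio_structure {T : Finset (Finset GolayPt)} (hT : T ∈ trios) :
    Function.Surjective (actOn T) ∧ ∃ (N : Subgroup (stabilizer M24 T)) (_ : N.Normal), Nat.card N = 64 ∧
      (∀ x ∈ N, x * x = 1) ∧ Nonempty (stabilizer M24 T ⧸ N ≃* GL (Fin 3) (ZMod 2) × Equiv.Perm (Fin 3)) := by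
  obtain ⟨σ, hσ, h⟩ := M24_trio_transitive hT T₀_mem
  let s : M24 := ⟨σ, hσ⟩
  have hs : s • T = T₀ := h
  have hs' : s⁻¹ • T₀ = T := by rw [← hs, inv_smul_smul]
  constructor
  · apply actOn_surj_smul hs'
    intro e
    obtain ⟨g, -, hg⟩ := surj_perm e
    exact ⟨g, hg⟩
  · let e : stabilizer M24 T ≃* stabilizer M24 T₀ := conjEquiv s (fun g => conj_mem_stab s g hs)
    let F : stabilizer M24 T →* GL (Fin 3) (ZMod 2) × Equiv.Perm ↥T₀ := fT.comp e.toMonoidHom
    have hF : Function.Surjective F := fT_surj.comp e.surjective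
    refine ⟨F.ker, inferInstance, ?_, ?_, ?_⟩
    · rw [← card_fT_ker]
      exact Nat.card_congr (e.toEquiv.subtypeEquiv fun x => Iff.rfl)
    · intro x hx
      have h1 : e x ∈ fT.ker := hx
      apply e.injective
      rw [map_mul, fT_ker_sq h1, map_one]
    · have e3 : ↥T₀ ≃ Fin 3 := Fintype.equivFinOfCardEq (by rw [Fintype.card_coe]; exact T₀_mem.1)
      exact ⟨(QuotientGroup.quotientKerEquivOfSurjective F hF).trans
        (MulEquiv.prodCongr (MulEquiv.refl _) (Equiv.permCongrHom e3))⟩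

end Cfsg.Agent.M24X
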