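import Mathlib
import Cfsg.Prelude.Def_Sporadic_a
import Cfsg.Agent.S0350

/-! Uniqueness of a Steiner system from a checked list of propagation steps.  Each step names a
`t`-set of points and its chosen completion; the other completions either clash with a known
block or are carried to the chosen one by a permutation that maps the known blocks to known
blocks. -/

set_option autoImplicit false

namespace Cfsg.Agent.M24X.Uniq

open Cfsg

theorem nb {a b : ℕ} : Nat.beq a b = true ↔ a = b :=
  ⟨Nat.eq_of_beq_eq_true, fun h => by subst h; exact Nat.beq_refl a⟩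

/-- the point set of a bit mask -/
def toS (n m : ℕ) : Finset (Fin n) := Finset.univ.filter (fun i => m.testBit i = true)

theorem mem_toS {n m : ℕ} {i : Fin n} : i ∈ toS n m ↔ m.testBit i = true := by
  simp [toS]

/-- the number of `i < n` with `f i` -/
def cnt (f : ℕ → Bool) : ℕ → ℕ
  | 0 => 0
  | k + 1 => cnt f k + (f k).toNat

theorem cnt_eq (f : ℕ → Bool) (n : ℕ) :
    (Finset.univ.filter (fun i : Fin n => f i = true)).card = cnt f n := by
  induction n with
  | zero => simp [cnt]
  | succ n ih =>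
    rw [Finset.card_filter, Fin.sum_univ_castSucc, cnt, ← ih, Finset.card_filter]
    congr 1
    simp only [Fin.val_last]
    rcases Bool.eq_false_or_eq_true (f n) with h | h <;> simp [h]

/-- the number of common points of two masks -/
def cmn (n a b : ℕ) : ℕ := cnt (fun i => a.testBit i && b.testBit i) n

theorem cmn_eq (n a b : ℕ) : (toS n a ∩ toS n b).card = cmn n a b := by
  rw [cmn, ← cnt_eq]
  congr 1
  ext i
  simp [mem_toS]

/-- the mask with the point `y` added -/
def add (Y y : ℕ) : ℕ := Y ||| 2 ^ y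

theorem testBit_add (Y y i : ℕ) : (add Y y).testBit i = (Y.testBit i || decide (i = y)) := by
  rw [add, Nat.testBit_or, Nat.testBit_two_pow]
  congr 1
  simp [eq_comm]

theorem toS_add {n : ℕ} (Y : ℕ) (y : Fin n) : toS n (add Y y) = insert y (toS n Y) := by
  ext i
  simp only [mem_toS, Finset.mem_insert, testBit_add, Bool.or_eq_true, decide_eq_true_eq,
    Fin.val_inj]
  tauto

/-- `m` clashes with a block of the list -/
def clash (n t s : ℕ) (K : List ℕ) (m : ℕ) : Bool :=
  K.any fun k => Nat.ble t (cmn n k m) && Nat.blt (cmn n k m) s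

/-- the function of a table -/
def fn (p : List ℕ) (i : ℕ) : ℕ := p.getD i 0

/-- the table is a permutation of `0, …, n-1` -/
def isP (n : ℕ) (p : List ℕ) : Bool :=
  (List.range n).all fun i => Nat.blt (fn p i) n &&
    (List.range n).all fun j => Nat.beq i j || !Nat.beq (fn p i) (fn p j)

/-- the table maps the mask `a` to the mask `b` -/
def mp (n : ℕ) (p : List ℕ) (a b : ℕ) : Bool :=
  (List.range n).all fun i => b.testBit (fn p i) == a.testBit i

/-- the table maps the blocks `K'` to blocks of `K` -/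
def mapsTo (n : ℕ) (p : List ℕ) (K' K : List ℕ) : Bool :=
  isP n p && K'.all fun a => K.any fun b => mp n p a b

/-- one step is justified -/
def stepOK (n t s : ℕ) (K : List ℕ) (Y x : ℕ) (ps : List (List ℕ)) : Bool :=
  Nat.beq (cmn n Y Y) t &&
  (List.range n).all fun y => Y.testBit y || Nat.beq y x || clash n t s K (add Y y) ||
    ps.any fun p => mapsTo n p (add Y x :: K) (add Y y :: K)

/-- run the steps -/
def run (n t s : ℕ) : List ℕ → List (ℕ × ℕ × List (List ℕ)) → List ℕ → Bool
  | K, [], L => L.all fun m => K.any fun k => Nat.beq m k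
  | K, (Y, x, ps) :: l, L => stepOK n t s K Y x ps && run n t s (add Y x :: K) l L

set_option linter.unusedSimpArgs false in
theorem exists_perm {n : ℕ} {p : List ℕ} (h : isP n p = true) :
    ∃ σ : Equiv.Perm (Fin n), ∀ i : Fin n, ((σ i : Fin n) : ℕ) = fn p i := by
  simp only [isP, List.all_eq_true, List.mem_range, Bool.and_eq_true, Nat.blt_eq,
    Bool.or_eq_true, nb, Bool.not_eq_true'] at h
  let f : Fin n → Fin n := fun i => ⟨fn p i, (h i i.2).1⟩
  have hf : Function.Injective f := by
    intro i j hij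
    have h1 := (h i i.2).2 j j.2
    rcases h1 with h1 | h1
    · exact Fin.ext h1
    · have h2 : fn p i = fn p j := congrArg Fin.val hij
      rw [h2] at h1
      simp at h1
  refine ⟨Equiv.ofBijective f (Finite.injective_iff_bijective.1 hf), fun i => rfl⟩

theorem map_mask {n : ℕ} {p : List ℕ} {σ : Equiv.Perm (Fin n)}
    (hσ : ∀ i : Fin n, ((σ i : Fin n) : ℕ) = fn p i) {a b : ℕ} (h : mp n p a b = true) :
    (toS n a).image σ = toS n b := by
  simp only [mp, List.all_eq_true, List.mem_range, beq_iff_eq] at h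
  ext i
  rw [Finset.mem_image, mem_toS]
  constructor
  · rintro ⟨j, hj, rfl⟩
    rw [hσ, h j j.2]
    exact mem_toS.1 hj
  · intro hi
    refine ⟨σ.symm i, ?_, σ.apply_symm_apply i⟩
    rw [mem_toS, ← h _ (σ.symm i).2, ← hσ, σ.apply_symm_apply]
    exact hi

/-- moving a Steiner system by a permutation -/
theorem steiner_map {α β : Type*} [DecidableEq α] [DecidableEq β] {t s : ℕ}
    {B : Set (Finset β)} (hB : IsSteinerSystem t s B) (σ : α ≃ β) :
    IsSteinerSystem t s {b : Finset α | b.image σ ∈ B} := by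
  have hc : ∀ b : Finset α, (b.image σ).card = b.card := fun b =>
    Finset.card_image_of_injective _ σ.injective
  constructor
  · intro b hb
    rw [← hc b]
    exact hB.1 _ hb
  · intro c hcc
    obtain ⟨b, ⟨hb, hcb⟩, hu⟩ := hB.2 (c.image σ) (by rw [hc, hcc])
    have h1 : (b.image σ.symm).image σ = b := by
      rw [Finset.image_image]
      simp
    refine ⟨b.image σ.symm, ⟨?_, ?_⟩, ?_⟩
    · show (b.image σ.symm).image σ ∈ B
      rw [h1]; exact hb
    · intro x hx
      rw [Finset.mem_image]
      exact ⟨σ x, hcb (Finset.mem_image_of_mem _ hx), σ.symm_apply_apply x⟩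
    · rintro d ⟨hd, hcd⟩
      have h2 := hu (d.image σ) ⟨hd, Finset.image_subset_image hcd⟩
      rw [← h2, Finset.image_image]
      simp

theorem clash_absurd {n t s : ℕ} {B : Set (Finset (Fin n))} (hB : IsSteinerSystem t s B)
    {K : List ℕ} (hK : ∀ k ∈ K, toS n k ∈ B) {m : ℕ} (hm : toS n m ∈ B)
    (h : clash n t s K m = true) : False := by
  simp only [clash, List.any_eq_true, Bool.and_eq_true, Nat.ble_eq, Nat.blt_eq] at h
  obtain ⟨k, hk, h1, h2⟩ := h
  rw [← cmn_eq] at h1 h2
  obtain ⟨c, hc, hcc⟩ := Finset.exists_subset_card_eq h1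
  obtain ⟨b, -, hu⟩ := hB.2 c hcc
  have e1 := hu (toS n k) ⟨hK k hk, hc.trans Finset.inter_subset_left⟩
  have e2 := hu (toS n m) ⟨hm, hc.trans Finset.inter_subset_right⟩
  rw [e1, ← e2, Finset.inter_self, hB.1 _ hm] at h2
  exact lt_irrefl _ h2

set_option linter.unusedSimpArgs false in
theorem step_sound {n t : ℕ} {B : Set (Finset (Fin n))} (hB : IsSteinerSystem t (t + 1) B)
    {K : List ℕ} (hK : ∀ k ∈ K, toS n k ∈ B) {Y x : ℕ} {ps : List (List ℕ)}
    (h : stepOK n t (t + 1) K Y x ps = true) :
    ∃ σ : Equiv.Perm (Fin n), ∀ k ∈ add Y x :: K, (toS n k).image σ ∈ B := by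
  simp only [stepOK, List.all_eq_true, List.mem_range, Bool.or_eq_true, nb,
    Bool.and_eq_true, List.any_eq_true] at h
  have hYc : (toS n Y).card = t := by
    rw [← h.1, ← cmn_eq, Finset.inter_self]
  obtain ⟨b, ⟨hb, hYb⟩, -⟩ := hB.2 _ hYc
  have hbc := hB.1 b hb
  obtain ⟨y, hy⟩ : ∃ y, b \ toS n Y = {y} := by
    apply Finset.card_eq_one.1
    rw [Finset.card_sdiff_of_subset hYb]
    omega
  have hyY : y ∉ toS n Y := by
    have : y ∈ b \ toS n Y := by rw [hy]; exact Finset.mem_singleton_self y
    exact (Finset.mem_sdiff.1 this).2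
  have hbe : b = toS n (add Y y) := by
    rw [toS_add, Finset.insert_eq, ← hy, Finset.sdiff_union_of_subset hYb]
  rw [hbe] at hb
  rcases h.2 y y.2 with ((h1 | h1) | h1) | ⟨p, -, h1⟩
  · exact absurd (mem_toS.2 h1) hyY
  · refine ⟨1, fun k hk => ?_⟩
    have e : (toS n k).image (1 : Equiv.Perm (Fin n)) = toS n k := by simp
    rw [e]
    rcases List.mem_cons.1 hk with rfl | hk
    · rw [← h1]; exact hb
    · exact hK k hk
  · exact (clash_absurd hB hK hb h1).elim
  · simp only [mapsTo, Bool.and_eq_true, List.all_eq_true, List.any_eq_true] at h1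
    obtain ⟨σ, hσ⟩ := exists_perm h1.1
    refine ⟨σ, fun k hk => ?_⟩
    obtain ⟨b', hb', hm⟩ := h1.2 k hk
    rw [map_mask hσ hm]
    rcases List.mem_cons.1 hb' with rfl | hb'
    · exact hb
    · exact hK _ hb'

theorem run_sound {n t : ℕ} {L : List ℕ} (l : List (ℕ × ℕ × List (List ℕ))) :
    ∀ {B : Set (Finset (Fin n))}, IsSteinerSystem t (t + 1) B → ∀ {K : List ℕ},
      (∀ k ∈ K, toS n k ∈ B) → run n t (t + 1) K l L = true →
      ∃ σ : Equiv.Perm (Fin n), ∀ m ∈ L, (toS n m).image σ ∈ B := by
  induction l with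
  | nil =>
    intro B _ K hK h
    simp only [run, List.all_eq_true, List.any_eq_true, nb] at h
    refine ⟨1, fun m hm => ?_⟩
    obtain ⟨k, hk, rfl⟩ := h m hm
    have e : (toS n m).image (1 : Equiv.Perm (Fin n)) = toS n m := by simp
    rw [e]
    exact hK _ hk
  | cons a l ih =>
    obtain ⟨Y, x, ps⟩ := a
    intro B hB K hK h
    simp only [run, Bool.and_eq_true] at h
    obtain ⟨σ, hσ⟩ := step_sound hB hK h.1
    obtain ⟨σ', hσ'⟩ := ih (steiner_map hB σ) (K := add Y x :: K) hσ h.2
    refine ⟨σ * σ', fun m hm => ?_⟩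
    have h1 : ((toS n m).image σ').image σ ∈ B := hσ' m hm
    rw [Finset.image_image] at h1
    exact h1

/-- no repetitions -/
def ndb : List ℕ → Bool
  | [] => true
  | a :: l => (l.all fun b => !Nat.beq a b) && ndb l

theorem ndb_nodup : ∀ {l : List ℕ}, ndb l = true → l.Nodup
  | [], _ => List.nodup_nil
  | a :: l, h => by
    simp only [ndb, Bool.and_eq_true, List.all_eq_true, Bool.not_eq_true'] at h
    rw [List.nodup_cons]
    refine ⟨fun ha => ?_, ndb_nodup h.2⟩
    have h1 := h.1 a ha
    rw [nb.2 rfl] at h1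
    exact Bool.noConfusion h1

theorem toS_inj {n a b : ℕ} (ha : a < 2 ^ n) (hb : b < 2 ^ n) (h : toS n a = toS n b) : a = b := by
  apply Nat.eq_of_testBit_eq
  intro i
  by_cases hi : i < n
  · have h1 : (⟨i, hi⟩ : Fin n) ∈ toS n a ↔ (⟨i, hi⟩ : Fin n) ∈ toS n b := by rw [h]
    rw [mem_toS, mem_toS] at h1
    exact Bool.eq_iff_iff.2 h1
  · rw [Nat.testBit_lt_two_pow (ha.trans_le (Nat.pow_le_pow_right (by norm_num) (by omega))),
      Nat.testBit_lt_two_pow (hb.trans_le (Nat.pow_le_pow_right (by norm_num) (by omega)))]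

/-- the listed blocks are distinct and their number is that of a Steiner system -/
def goodL (n t : ℕ) (L : List ℕ) : Bool :=
  ndb L && L.all (fun m => Nat.blt m (2 ^ n)) &&
    Nat.beq (L.length * (t + 1)) (Nat.choose n t)

/-- the block family listed by the masks of `L` through the labelling `e` -/
def fam {α : Type*} [DecidableEq α] {n : ℕ} (e : Fin n ≃ α) (L : List ℕ) : Set (Finset α) :=
  {b | ∃ m ∈ L, b = (toS n m).image e}

theorem std_form {α : Type*} [Fintype α] [DecidableEq α] {n t : ℕ} (hα : Fintype.card α = n)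
    {B : Set (Finset α)} (hB : IsSteinerSystem t (t + 1) B) {L : List ℕ}
    {l : List (ℕ × ℕ × List (List ℕ))} (h : run n t (t + 1) [] l L = true)
    (hL : goodL n t L = true) : ∃ e : Fin n ≃ α, B = fam e L := by
  let e0 : Fin n ≃ α := (Fintype.equivFinOfCardEq hα).symm
  obtain ⟨σ, hσ⟩ := run_sound l (steiner_map hB e0) (K := [])
    (fun k hk => absurd hk List.not_mem_nil) h
  have hsub : fam (σ.trans e0) L ⊆ B := by
    rintro b ⟨m, hm, rfl⟩
    have h1 : ((toS n m).image σ).image e0 ∈ B := hσ m hm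
    rw [Finset.image_image] at h1
    exact h1
  simp only [goodL, Bool.and_eq_true, List.all_eq_true, Nat.blt_eq, nb] at hL
  have hcount := Cfsg.Agent.S0350.result hB
  rw [hα, Nat.choose_succ_self_right, ← hL.2] at hcount
  have hBc : B.ncard = L.length := Nat.eq_of_mul_eq_mul_right (Nat.succ_pos t) hcount
  have hf : (fam (σ.trans e0) L).ncard = L.length := by
    have e1 : fam (σ.trans e0) L
        = ((L.toFinset.image fun m => (toS n m).image (σ.trans e0) : Finset (Finset α)) :
          Set (Finset α)) := by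
      ext b
      simp only [fam, Set.mem_setOf_eq, Finset.coe_image, List.coe_toFinset, Set.mem_image]
      constructor
      · rintro ⟨m, hm, rfl⟩; exact ⟨m, hm, rfl⟩
      · rintro ⟨m, hm, rfl⟩; exact ⟨m, hm, rfl⟩
    rw [e1, Set.ncard_coe_finset, Finset.card_image_of_injOn, List.toFinset_card_of_nodup
      (ndb_nodup hL.1.1)]
    intro a ha b hb hab
    rw [Finset.mem_coe, List.mem_toFinset] at ha hb
    exact toS_inj (hL.1.2 a ha) (hL.1.2 b hb)
      (Finset.image_injective (σ.trans e0).injective hab)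
  refine ⟨σ.trans e0, ?_⟩
  exact (Set.eq_of_subset_of_ncard_le hsub (by rw [hf, hBc]) (Set.toFinite _)).symm

theorem iso_of_fam {α β : Type*} [DecidableEq α] [DecidableEq β] {n : ℕ} {L : List ℕ}
    (e : Fin n ≃ α) (e' : Fin n ≃ β) : SetSystemIso (fam e L) (fam e' L) := by
  refine ⟨e.symm.trans e', ?_⟩
  have key : ∀ m : ℕ, ((toS n m).image e).image (e.symm.trans e') = (toS n m).image e' := by
    intro m
    rw [Finset.image_image]
    congr 1
    funext i
    simp
  ext b
  constructor
  · rintro ⟨c, ⟨m, hm, rfl⟩, rfl⟩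
    exact ⟨m, hm, key m⟩
  · rintro ⟨m, hm, rfl⟩
    exact ⟨_, ⟨m, hm, rfl⟩, key m⟩

end Cfsg.Agent.M24X.Uniq
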