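import Cfsg.Agent.M24X.Uniq

/-! The block list and the propagation steps for the Steiner system with parameters (4, 5, 11). -/

set_option autoImplicit false

namespace Cfsg.Agent.M24X.Uniq

/-- the blocks -/
def L11 : List ℕ := [
  47, 94, 115, 155, 188, 213, 230, 233, 285, 310, 331, 357, 376, 391, 426, 433, 460, 466, 565,
  570, 583, 601, 620, 653, 662, 675, 714, 752, 782, 787, 809, 852, 866, 920, 932, 961, 1047,
  1081, 1101, 1130, 1140, 1166, 1189, 1202, 1219, 1240, 1306, 1315, 1324, 1350, 1361, 1417,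
  1428, 1504, 1547, 1564, 1574, 1618, 1633, 1681, 1704, 1732, 1797, 1840, 1864, 1922]

/-- the steps -/
def steps11 : List (ℕ × ℕ × List (List ℕ)) := [
  (15, 5, [[0, 1, 2, 3, 5, 4, 6, 7, 8, 9, 10], [0, 1, 2, 3, 4, 6, 5, 7, 8, 9, 10], [0, 1, 2, 3, 4, 7, 6, 5, 8, 9, 10], [0, 1, 2, 3, 4, 8, 6, 7, 5, 9, 10], [0, 1, 2, 3, 4, 9, 6, 7, 8, 5, 10], [0, 1, 2, 3, 4, 10, 6, 7, 8, 9, 5]]),
  (23, 10, [[0, 1, 2, 3, 4, 5, 7, 8, 9, 10, 6], [0, 1, 2, 3, 4, 5, 6, 8, 9, 10, 7], [0, 1, 2, 3, 4, 5, 6, 7, 9, 10, 8], [0, 1, 2, 3, 4, 5, 6, 7, 8, 10, 9]]),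
  (71, 9, [[0, 1, 2, 3, 4, 5, 6, 8, 9, 7, 10], [0, 1, 2, 3, 4, 5, 6, 7, 9, 8, 10]]),
  (135, 8, []),
  (27, 7, [[0, 1, 2, 3, 4, 5, 7, 6, 9, 8, 10], [0, 1, 2, 3, 4, 5, 6, 8, 7, 9, 10], [0, 1, 2, 3, 4, 5, 7, 9, 6, 8, 10]]),
  (75, 8, [[0, 1, 2, 3, 6, 5, 7, 10, 4, 8, 9]]), (523, 10, []), (83, 5, []), (275, 9, []),
  (291, 10, []), (547, 7, []), (195, 10, []),
  (29, 8, [[0, 1, 2, 4, 6, 10, 7, 5, 3, 8, 9], [0, 1, 2, 3, 9, 5, 7, 10, 4, 8, 6]]),
  (525, 7, []), (1037, 6, []), (85, 7, []), (533, 5, []), (101, 8, []), (165, 10, []),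
  (773, 10, []), (57, 10, []), (89, 9, []), (105, 7, []), (297, 9, []), (393, 10, []),
  (177, 8, []), (337, 10, []), (657, 10, []), (609, 10, []), (449, 9, []),
  (30, 6, [[0, 1, 2, 4, 3, 10, 9, 7, 8, 6, 5]]), (142, 10, []), (270, 9, []), (278, 5, []),
  (534, 7, []), (166, 6, []), (550, 10, []), (326, 10, []), (58, 9, []), (282, 10, []),
  (106, 10, []), (170, 8, []), (202, 9, []), (178, 10, []), (210, 8, []), (594, 10, []),
  (354, 9, []), (898, 10, []), (60, 7, []), (540, 10, []), (108, 9, []), (300, 10, []),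
  (204, 8, []), (116, 10, []), (340, 9, []), (404, 10, []), (420, 9, []), (708, 10, []),
  (120, 8, []), (216, 10, []), (408, 9, []), (680, 10, []), (840, 10, []), (240, 9, []),
  (816, 10, []), (480, 10, [])]

theorem run11 : run 11 4 5 [] steps11 L11 = true := by decide +kernel

theorem good11 : goodL 11 4 L11 = true := by decide +kernel

end Cfsg.Agent.M24X.Uniq
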